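import Mathlib
import Cfsg.Prelude.Def_Transfer
import Cfsg.Agent.Lib.PLocal.ExtraspecialFive

/-!
Concrete models of the two families of extraspecial `2`-groups and their `2`-ranks.
-/

set_option autoImplicit false

namespace Cfsg.Lib.ExtraspecialModels

open Subgroup
open scoped commutatorElement

/-- The underlying vector space. -/
abbrev V (k : ℕ) : Type := Fin (k + 1) → ZMod 2 × ZMod 2

/-- One summand of the bilinear form. -/
def β₁ (e : ZMod 2) (p q : ZMod 2 × ZMod 2) : ZMod 2 :=
  p.1 * q.2 + e * (p.1 * q.1 + p.2 * q.2)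

/-- The twist: `e` at the first coordinate, zero elsewhere. -/
def tw (k : ℕ) (e : ZMod 2) (i : Fin (k + 1)) : ZMod 2 := if i = 0 then e else 0

/-- The bilinear form. -/
def β (k : ℕ) (e : ZMod 2) (v w : V k) : ZMod 2 := ∑ i, β₁ (tw k e i) (v i) (w i)

theorem β_add_left (k : ℕ) (e : ZMod 2) (u v w : V k) :
    β k e (u + v) w = β k e u w + β k e v w := by
  simp only [β, ← Finset.sum_add_distrib]
  refine Finset.sum_congr rfl fun i _ => ?_
  simp only [β₁, Pi.add_apply, Prod.fst_add, Prod.snd_add]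
  ring

theorem β_add_right (k : ℕ) (e : ZMod 2) (u v w : V k) :
    β k e u (v + w) = β k e u v + β k e u w := by
  simp only [β, ← Finset.sum_add_distrib]
  refine Finset.sum_congr rfl fun i _ => ?_
  simp only [β₁, Pi.add_apply, Prod.fst_add, Prod.snd_add]
  ring

theorem β_zero_left (k : ℕ) (e : ZMod 2) (w : V k) : β k e 0 w = 0 := by simp [β, β₁]

theorem β_zero_right (k : ℕ) (e : ZMod 2) (w : V k) : β k e w 0 = 0 := by simp [β, β₁]

theorem β_single (k : ℕ) (e : ZMod 2) (v : V k) (i : Fin (k + 1)) (p : ZMod 2 × ZMod 2) :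
    β k e v (Pi.single i p) = β₁ (tw k e i) (v i) p := by
  unfold β
  rw [Finset.sum_eq_single i (fun j _ hj => by simp [Pi.single_eq_of_ne hj, β₁])
    (fun h => absurd (Finset.mem_univ i) h), Pi.single_eq_same]

theorem single_β (k : ℕ) (e : ZMod 2) (v : V k) (i : Fin (k + 1)) (p : ZMod 2 × ZMod 2) :
    β k e (Pi.single i p) v = β₁ (tw k e i) p (v i) := by
  unfold β
  rw [Finset.sum_eq_single i (fun j _ hj => by simp [Pi.single_eq_of_ne hj, β₁])
    (fun h => absurd (Finset.mem_univ i) h), Pi.single_eq_same]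

theorem v_add_self {k : ℕ} (v : V k) : v + v = 0 := by
  funext i
  exact Prod.ext (CharTwo.add_self_eq_zero _) (CharTwo.add_self_eq_zero _)

/-- The central extension of `V` by `ZMod 2` along `β`. -/
@[ext] structure Ext (k : ℕ) (e : ZMod 2) where
  /-- The vector. -/
  v : V k
  /-- The central coordinate. -/
  z : ZMod 2

variable {k : ℕ} {e : ZMod 2}

instance : Mul (Ext k e) := ⟨fun x y => ⟨x.v + y.v, x.z + y.z + β k e x.v y.v⟩⟩
instance : One (Ext k e) := ⟨⟨0, 0⟩⟩
instance : Inv (Ext k e) := ⟨fun x => ⟨x.v, x.z + β k e x.v x.v⟩⟩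

@[simp] theorem mul_v (x y : Ext k e) : (x * y).v = x.v + y.v := rfl
@[simp] theorem mul_z (x y : Ext k e) : (x * y).z = x.z + y.z + β k e x.v y.v := rfl
@[simp] theorem one_v : (1 : Ext k e).v = 0 := rfl
@[simp] theorem one_z : (1 : Ext k e).z = 0 := rfl

instance instGroup : Group (Ext k e) where
  mul_assoc x y w := by
    ext : 1
    · simp [add_assoc]
    · simp only [mul_v, mul_z, β_add_left, β_add_right]; ring
  one_mul x := by
    ext : 1
    · simp
    · simp [β_zero_left]
  mul_one x := by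
    ext : 1
    · simp
    · simp [β_zero_right]
  inv_mul_cancel x := by
    ext : 1
    · exact v_add_self x.v
    · show x.z + β k e x.v x.v + x.z + β k e x.v x.v = 0
      calc _ = (x.z + x.z) + (β k e x.v x.v + β k e x.v x.v) := by ring
        _ = 0 := by simp [CharTwo.add_self_eq_zero]

/-- `Ext` as a product. -/
def equivProd (k : ℕ) (e : ZMod 2) : Ext k e ≃ V k × ZMod 2 where
  toFun x := (x.v, x.z)
  invFun p := ⟨p.1, p.2⟩
  left_inv _ := rfl
  right_inv _ := rfl

instance : Finite (Ext k e) := Finite.of_equiv _ (equivProd k e).symm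

theorem card_ext : Nat.card (Ext k e) = 2 ^ (2 * (k + 1) + 1) := by
  rw [Nat.card_congr (equivProd k e)]
  simp only [Nat.card_prod, Nat.card_fun, Nat.card_zmod, Nat.card_eq_fintype_card (α := Fin (k + 1)),
    Fintype.card_fin]
  rw [pow_succ 2 (2 * (k + 1)), pow_mul, show (2 : ℕ) ^ 2 = 2 * 2 by norm_num]

theorem isPGroup : IsPGroup 2 (Ext k e) := IsPGroup.of_card card_ext

theorem sq (x : Ext k e) : x * x = ⟨0, β k e x.v x.v⟩ := by
  ext : 1
  · exact v_add_self x.v
  · simp [CharTwo.add_self_eq_zero]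

theorem mul_comm_iff (x y : Ext k e) : x * y = y * x ↔ β k e x.v y.v = β k e y.v x.v := by
  constructor
  · intro h
    have := congrArg Ext.z h
    simp only [mul_z] at this
    linear_combination this
  · intro h
    ext : 1
    · simp [add_comm]
    · simp only [mul_z, h]; ring

theorem mem_center (x : Ext k e) : x ∈ center (Ext k e) ↔ x.v = 0 := by
  rw [mem_center_iff]
  refine ⟨fun h => ?_, fun h y => ?_⟩
  · have h' : ∀ i p, β₁ (tw k e i) p (x.v i) = β₁ (tw k e i) (x.v i) p := fun i p => by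
      have := (mul_comm_iff ⟨Pi.single i p, 0⟩ x).1 (h _)
      rwa [single_β, β_single] at this
    funext i
    have key : ∀ t a b : ZMod 2, β₁ t (1, 0) (a, b) = β₁ t (a, b) (1, 0) →
        β₁ t (0, 1) (a, b) = β₁ t (a, b) (0, 1) → a = 0 ∧ b = 0 := by decide
    obtain ⟨ha, hb⟩ := key _ _ _ (h' i (1, 0)) (h' i (0, 1))
    exact Prod.ext ha hb
  · rw [mul_comm_iff, h, β_zero_left, β_zero_right]

/-- The central involution. -/
def zel (k : ℕ) (e : ZMod 2) : Ext k e := ⟨0, 1⟩

theorem center_cases {x : Ext k e} (h : x ∈ center (Ext k e)) : x = 1 ∨ x = zel k e := by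
  have hv := (mem_center x).1 h
  have h2 : ∀ a : ZMod 2, a = 0 ∨ a = 1 := by decide
  rcases h2 x.z with hz | hz
  · left; ext : 1 <;> simp [hv, hz]
  · right; ext : 1 <;> simp [zel, hv, hz]

theorem card_center : Nat.card ↥(center (Ext k e)) = 2 := by
  let f : ↥(center (Ext k e)) ≃ ZMod 2 :=
    { toFun := fun x => x.1.z
      invFun := fun z => ⟨⟨0, z⟩, (mem_center _).2 rfl⟩
      left_inv := fun x => Subtype.ext (Ext.ext ((mem_center x.1).1 x.2).symm rfl)
      right_inv := fun _ => rfl }
  rw [Nat.card_congr f, Nat.card_zmod]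

/-- The projection to `V`. -/
def proj : Ext k e →* Multiplicative (V k) :=
  MonoidHom.mk' (fun x => Multiplicative.ofAdd x.v) fun _ _ => rfl

theorem center_eq_ker : center (Ext k e) = (proj (k := k) (e := e)).ker := by
  ext x
  rw [mem_center, MonoidHom.mem_ker]
  exact ⟨fun h => by show Multiplicative.ofAdd x.v = 1; rw [h]; rfl,
    fun h => Multiplicative.ofAdd.injective h⟩

theorem commutator_eq : commutator (Ext k e) = center (Ext k e) := by
  refine le_antisymm ?_ ?_
  · rw [center_eq_ker]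
    exact Abelianization.commutator_subset_ker _
  · intro x hx
    rcases center_cases hx with rfl | rfl
    · exact one_mem _
    · set a : Ext k e := ⟨Pi.single 0 (1, 0), 0⟩
      set b : Ext k e := ⟨Pi.single 0 (0, 1), 0⟩
      have hne : ⁅a, b⁆ ≠ 1 := fun h => by
        have := (mul_comm_iff a b).1 (commutatorElement_eq_one_iff_mul_comm.1 h)
        simp only [a, b, β_single, Pi.single_eq_same] at this
        revert this
        generalize tw k e 0 = t
        revert t
        decide
      have hmem : ⁅a, b⁆ ∈ center (Ext k e) := by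
        rw [center_eq_ker]
        exact Abelianization.commutator_subset_ker _ (commutator_mem_commutator (mem_top _) (mem_top _))
      have := (center_cases hmem).resolve_left hne
      rw [← this]
      exact commutator_mem_commutator (mem_top _) (mem_top _)

theorem two_elem : ∀ c d : Multiplicative (ZMod 2), d ≠ 1 → c = 1 ∨ c = d := by decide

theorem sq_val : ∀ t : ZMod 2, 1 = β₁ t (1, 1) (1, 1) := by decide

/-- A coordinate functional. -/
def coordHom (i : Fin (k + 1)) (s : Bool) : Ext k e →* Multiplicative (ZMod 2) :=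
  MonoidHom.mk' (fun x => Multiplicative.ofAdd (if s then (x.v i).1 else (x.v i).2)) fun x y => by
    cases s <;> rfl

theorem frattini_eq : frattini (Ext k e) = center (Ext k e) := by
  haveI : Fact (Nat.Prime 2) := ⟨Nat.prime_two⟩
  refine le_antisymm ?_ ?_
  · intro x hx
    by_contra hc
    have hv : x.v ≠ 0 := fun h => hc ((mem_center x).2 h)
    obtain ⟨i, hi⟩ := Function.ne_iff.1 hv
    obtain ⟨s, hs⟩ : ∃ s : Bool, (if s then (x.v i).1 else (x.v i).2) ≠ 0 := by
      by_contra hall
      push Not at hall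
      exact hi (Prod.ext (hall true) (hall false))
    set f := coordHom (k := k) (e := e) i s
    have hfx : f x ≠ 1 := fun h => hs (Multiplicative.ofAdd.injective h)
    have hsurj : Function.Surjective f := by
      intro c
      rcases two_elem c (f x) hfx with h | h
      · exact ⟨1, by rw [map_one, h]⟩
      · exact ⟨x, h.symm⟩
    have hidx : f.ker.index = 2 := by
      rw [index_ker, MonoidHom.range_eq_top.2 hsurj, card_top]
      exact Nat.card_zmod 2
    have hco : IsCoatom f.ker := by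
      refine ⟨fun h => by rw [h, index_top] at hidx; omega, fun H hH => ?_⟩
      have hd : H.index ∣ 2 := hidx ▸ index_dvd_of_le hH.le
      rcases (Nat.dvd_prime Nat.prime_two).1 hd with h | h
      · exact index_eq_one.1 h
      · exfalso
        have h1 := relIndex_mul_index hH.le
        rw [h, hidx] at h1
        have h2 : f.ker.relIndex H = 1 := by omega
        exact absurd (relIndex_eq_one.1 h2) (not_le_of_gt hH)
    exact hfx (frattini_le_coatom hco hx)
  · intro x hx
    rcases center_cases hx with rfl | rfl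
    · exact one_mem _
    · set c : Ext k e := ⟨Pi.single 0 (1, 1), 0⟩
      have hc : zel k e = c ^ 2 := by
        rw [pow_two, sq]
        ext : 1
        · rfl
        · simp only [zel, c, β_single, Pi.single_eq_same]
          exact sq_val _
      rw [hc]
      exact Cfsg.Lib.Transfer.pow_mem_frattini isPGroup c

theorem isExtraspecial : Cfsg.IsExtraspecial 2 (Ext k e) :=
  ⟨⟨isPGroup, frattini_eq, commutator_eq⟩, card_center⟩

/-- An elementary abelian witness. -/
def wit (k : ℕ) (e : ZMod 2) : Subgroup (Ext k e) where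
  carrier := {x | ∀ i, (x.v i).2 = 0 ∧ tw k e i * (x.v i).1 = 0}
  one_mem' := fun i => by simp
  mul_mem' := fun {x y} hx hy i => by
    simp only [mul_v, Pi.add_apply, Prod.fst_add, Prod.snd_add, mul_add, (hx i).1, (hy i).1, (hx i).2,
      (hy i).2, add_zero, and_self]
  inv_mem' := fun {x} hx => hx

theorem β_wit {x y : Ext k e} (hx : x ∈ wit k e) (hy : y ∈ wit k e) : β k e x.v y.v = 0 := by
  refine Finset.sum_eq_zero fun i _ => ?_
  obtain ⟨hx2, hx1⟩ := hx i
  obtain ⟨hy2, -⟩ := hy i
  simp only [β₁, hx2, hy2, mul_zero, zero_mul, add_zero, zero_add, ← mul_assoc, hx1]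

theorem wit_elem : Cfsg.IsElementaryAbelian 2 (wit k e) := by
  refine ⟨⟨⟨fun x y => Subtype.ext ((mul_comm_iff x.1 y.1).2 ?_)⟩⟩, fun x hx => ?_⟩
  · rw [β_wit x.2 y.2, β_wit y.2 x.2]
  · rw [pow_two, sq, β_wit hx hx]; rfl

theorem card_wit : Nat.card ↥(wit k e) = if e = 0 then 2 ^ (k + 2) else 2 ^ (k + 1) := by
  let g : ↥(wit k e) ≃ (∀ i : Fin (k + 1), {a : ZMod 2 // tw k e i * a = 0}) × ZMod 2 :=
    { toFun := fun x => (fun i => ⟨(x.1.v i).1, (x.2 i).2⟩, x.1.z)
      invFun := fun p => ⟨⟨fun i => ((p.1 i).1, 0), p.2⟩, fun i => ⟨rfl, (p.1 i).2⟩⟩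
      left_inv := fun x => by
        apply Subtype.ext
        refine Ext.ext ?_ rfl
        funext i
        exact Prod.ext rfl (x.2 i).1.symm
      right_inv := fun p => rfl }
  rw [Nat.card_congr g, Nat.card_prod, Nat.card_pi, Nat.card_zmod, Fin.prod_univ_succ]
  have h0 : ∀ i : Fin k, Nat.card {a : ZMod 2 // tw k e i.succ * a = 0} = 2 := fun i => by
    simp [tw, Fin.succ_ne_zero]
  rw [Finset.prod_congr rfl fun i _ => h0 i, Finset.prod_const, Finset.card_univ, Fintype.card_fin]
  have he : ∀ t : ZMod 2, t = 0 ∨ t = 1 := by decide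
  rcases he e with rfl | rfl
  · simp [tw, pow_succ]; ring
  · simp only [tw, if_true, one_ne_zero, if_false, one_mul]
    rw [Nat.card_eq_fintype_card]
    simp [pow_succ]

theorem elem_card_le (A : Subgroup (Ext k e)) (hA : Cfsg.IsElementaryAbelian 2 A) :
    Nat.card A ≤ 2 ^ (k + 2) ∧
      (Nat.card A = 2 ^ (k + 2) → center (Ext k e) ≤ A ∧ centralizer (A : Set (Ext k e)) ≤ A) := by
  obtain ⟨hAc, -⟩ := hA
  haveI := hAc
  have hE := isExtraspecial (k := k) (e := e)
  have hcomm : ∀ a ∈ A, ∀ b ∈ A, a * b = b * a := fun a ha b hb =>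
    congrArg Subtype.val (mul_comm' (⟨a, ha⟩ : A) ⟨b, hb⟩)
  set K := A ⊔ center (Ext k e) with hK
  have hAle : A ≤ centralizer (A : Set (Ext k e)) := fun a ha =>
    mem_centralizer_iff.2 fun b hb => hcomm b hb a ha
  have hle : K ≤ centralizer (K : Set (Ext k e)) := by
    rw [le_centralizer_iff, sup_le_iff]
    refine ⟨?_, center_le_centralizer _⟩
    rw [le_centralizer_iff, sup_le_iff]
    exact ⟨hAle, center_le_centralizer _⟩
  have h1 := Cfsg.Lib.ExtraspecialFive.centralizer_mul_card_le hE K le_sup_right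
  rw [card_ext] at h1
  have h2 : Nat.card K ≤ Nat.card ↥(centralizer (K : Set (Ext k e))) :=
    Nat.le_of_dvd Nat.card_pos (card_dvd_of_le hle)
  have h3 : Nat.card A ≤ Nat.card K := Nat.le_of_dvd Nat.card_pos (card_dvd_of_le le_sup_left)
  have h4 : Nat.card K * Nat.card K ≤ 2 ^ (k + 2) * 2 ^ (k + 2) := by
    refine ((Nat.mul_le_mul_right _ h2).trans h1).trans (le_of_eq ?_)
    rw [← pow_succ', ← pow_add]; congr 1; omega
  have h5 : Nat.card K ≤ 2 ^ (k + 2) := Nat.mul_self_le_mul_self_iff.1 h4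
  refine ⟨h3.trans h5, fun hcard => ?_⟩
  have hKA : A = K := eq_of_le_of_card_ge le_sup_left (by omega)
  have hZ : center (Ext k e) ≤ A := hKA ▸ le_sup_right
  refine ⟨hZ, ?_⟩
  rw [← hKA] at h1
  have hle' : Nat.card ↥(centralizer (A : Set (Ext k e))) ≤ Nat.card A := by
    rw [hcard] at h1 ⊢
    refine Nat.le_of_mul_le_mul_right (h1.trans (le_of_eq ?_)) (by positivity : 0 < 2 ^ (k + 2))
    rw [← pow_succ', ← pow_add]; congr 1; omega
  exact (eq_of_le_of_card_ge hAle hle').ge

/-- The sign character of `ZMod 2`. -/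
def χ (a : ZMod 2) : ℤ := if a = 0 then 1 else -1

theorem χ_add (a b : ZMod 2) : χ (a + b) = χ a * χ b := by revert a b; decide

theorem χ_sum {ι : Type*} (s : Finset ι) (f : ι → ZMod 2) : χ (∑ i ∈ s, f i) = ∏ i ∈ s, χ (f i) := by
  classical
  induction s using Finset.induction with
  | empty => simp [χ]
  | insert a s ha ih => rw [Finset.sum_insert ha, Finset.prod_insert ha, χ_add, ih]

theorem sum_χ_neg : ∑ v : V k, χ (β k 1 v v) < 0 := by
  have h : ∀ v : V k, χ (β k 1 v v) = ∏ i, χ (β₁ (tw k 1 i) (v i) (v i)) := fun v => χ_sum _ _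
  simp only [h]
  rw [← Fintype.prod_sum (fun i p => χ (β₁ (tw k 1 i) p p)), Fin.prod_univ_succ]
  have h0 : ∀ i : Fin k, ∑ p : ZMod 2 × ZMod 2, χ (β₁ (tw k 1 i.succ) p p) = 2 := fun i => by
    simp only [tw, Fin.succ_ne_zero, if_false]; decide
  rw [Finset.prod_congr rfl fun i _ => h0 i, Finset.prod_const]
  have h1 : ∑ p : ZMod 2 × ZMod 2, χ (β₁ (tw k 1 0) p p) = -2 := by
    simp only [tw, if_true]; decide
  rw [h1]
  have : (0 : ℤ) < 2 ^ (Finset.univ : Finset (Fin k)).card := by positivity
  linarith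

theorem sum_χ_pos (A : Subgroup (Ext k e)) (hA : Cfsg.IsElementaryAbelian 2 A)
    (hcard : Nat.card A = 2 ^ (k + 2)) : 0 < ∑ v : V k, χ (β k e v v) := by
  classical
  obtain ⟨hZ, hC⟩ := (elem_card_le A hA).2 hcard
  have hmem : ∀ (v : V k) (z : ZMod 2), (⟨v, z⟩ : Ext k e) ∈ A ↔ (⟨v, 0⟩ : Ext k e) ∈ A := by
    intro v z
    have hz : (⟨0, z⟩ : Ext k e) ∈ A := hZ ((mem_center _).2 rfl)
    have : (⟨v, z⟩ : Ext k e) = ⟨v, 0⟩ * ⟨0, z⟩ := by ext : 1 <;> simp [β_zero_right]
    rw [this, A.mul_mem_cancel_right hz]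
  set W : Finset (V k) := Finset.univ.filter fun v => (⟨v, 0⟩ : Ext k e) ∈ A with hW
  have hWq : ∀ w ∈ W, β k e w w = 0 := fun w hw => by
    have h2 := hA.2 _ (Finset.mem_filter.1 hw).2
    rw [pow_two, sq] at h2
    exact congrArg Ext.z h2
  have hWadd : ∀ w ∈ W, ∀ u, u + w ∈ W ↔ u ∈ W := fun w hw u => by
    simp only [W, Finset.mem_filter, Finset.mem_univ, true_and]
    have h1 : (⟨u, 0⟩ : Ext k e) * ⟨w, 0⟩ = ⟨u + w, β k e u w⟩ := by ext : 1 <;> simp
    have hw' : (⟨w, 0⟩ : Ext k e) ∈ A := (Finset.mem_filter.1 hw).2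
    rw [← hmem (u + w) (β k e u w), ← h1, A.mul_mem_cancel_right hw']
  have h0W : (0 : V k) ∈ W := Finset.mem_filter.2 ⟨Finset.mem_univ _, one_mem A⟩
  set B : V k → V k → ZMod 2 := fun v w => β k e v w + β k e w v with hB
  have hinner : ∀ v : V k, χ (β k e v v) * (∑ w ∈ W, χ (B v w)) =
      if v ∈ W then (W.card : ℤ) else 0 := by
    intro v
    split_ifs with hv
    · have hBz : ∀ w ∈ W, B v w = 0 := fun w hw => by
        have hq : β k e (v + w) (v + w) = 0 := hWq _ ((hWadd w hw v).2 hv)
        rw [β_add_left, β_add_right, β_add_right, hWq w hw, hWq v hv, zero_add, add_zero] at hq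
        exact hq
      rw [Finset.sum_congr rfl fun w hw => by rw [hBz w hw], hWq v hv]
      simp [χ]
    · obtain ⟨w₀, hw₀, hne⟩ : ∃ w₀ ∈ W, B v w₀ ≠ 0 := by
        by_contra hall
        push Not at hall
        refine hv (Finset.mem_filter.2 ⟨Finset.mem_univ _, hC (mem_centralizer_iff.2 fun a ha => ?_)⟩)
        have hw : a.v ∈ W := Finset.mem_filter.2 ⟨Finset.mem_univ _, (hmem a.v a.z).1 ha⟩
        refine (mul_comm_iff a ⟨v, 0⟩).2 ?_
        exact (CharTwo.add_eq_zero.1 (hall a.v hw)).symm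
      have hshift : ∑ w ∈ W, χ (B v w) = ∑ w ∈ W, χ (B v (w + w₀)) := by
        refine Finset.sum_bij' (fun w _ => w + w₀) (fun w _ => w + w₀) (fun w hw => (hWadd w₀ hw₀ w).2 hw)
          (fun w hw => (hWadd w₀ hw₀ w).2 hw) (fun w _ => ?_) (fun w _ => ?_) (fun w _ => ?_)
        · rw [add_assoc, v_add_self, add_zero]
        · rw [add_assoc, v_add_self, add_zero]
        · rw [add_assoc, v_add_self, add_zero]
      have hneg : ∀ w, χ (B v (w + w₀)) = - χ (B v w) := fun w => by
        have hadd : B v (w + w₀) = B v w + B v w₀ := by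
          simp only [B, β_add_left, β_add_right]; ring
        rw [hadd, χ_add, show χ (B v w₀) = -1 by simp [χ, hne], mul_neg_one]
      simp only [hneg, Finset.sum_neg_distrib] at hshift
      rw [show ∑ w ∈ W, χ (B v w) = 0 by omega, mul_zero]
  have htot : (W.card : ℤ) * ∑ v : V k, χ (β k e v v) = W.card * W.card := by
    calc (W.card : ℤ) * ∑ v : V k, χ (β k e v v)
        = ∑ w ∈ W, ∑ v : V k, χ (β k e (v + w) (v + w)) := by
          rw [← nsmul_eq_mul, ← Finset.sum_const]
          exact Finset.sum_congr rfl fun w _ =>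
            (Fintype.sum_equiv (Equiv.addRight w) _ _ fun v => rfl).symm
      _ = ∑ v : V k, χ (β k e v v) * (∑ w ∈ W, χ (B v w)) := by
          rw [Finset.sum_comm]
          refine Finset.sum_congr rfl fun v _ => ?_
          rw [Finset.mul_sum]
          refine Finset.sum_congr rfl fun w hw => ?_
          rw [← χ_add]
          congr 1
          simp only [B, β_add_left, β_add_right, hWq w hw]; ring
      _ = W.card * W.card := by
          rw [Finset.sum_congr rfl fun v _ => hinner v, Finset.sum_ite_mem, Finset.univ_inter,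
            Finset.sum_const, nsmul_eq_mul]
  have hpos : (0 : ℤ) < W.card := by exact_mod_cast Finset.card_pos.2 ⟨0, h0W⟩
  have := mul_left_cancel₀ hpos.ne' htot
  omega

end Cfsg.Lib.ExtraspecialModels
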