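import Mathlib
import Cfsg.Prelude.Def_Solvable
import Cfsg.Prelude.Def_MonsterType
import Cfsg.Agent.Lib.PLocal.ExtraspecialModels
import Cfsg.Agent.Lib.Solv.Cores

/-!
The centralizer of a transvection in `SL (k + 3, 2)` and its large extraspecial subgroup.
-/

set_option autoImplicit false
set_option linter.style.haveILetI false

namespace Cfsg.Lib.TransvectionCentralizer

open Matrix
open Cfsg.Lib.ExtraspecialModels (Ext β β₁ tw)

/-- `ZMod 2`. -/
abbrev F : Type := ZMod 2

theorem f_cases : ∀ a : F, a = 0 ∨ a = 1 := by decide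

theorem f_eq_one {a : F} (h : IsUnit a) : a = 1 := (f_cases a).resolve_left h.ne_zero

/-- `SL (n, 2)`. -/
abbrev SL2 (n : ℕ) : Type := Matrix.SpecialLinearGroup (Fin n) F

/-- A centraliser element built from its parameters. -/
def mat {n : ℕ} (a : F) (r c : Fin n → F) (B : Matrix (Fin n) (Fin n) F) :
    Matrix (Fin (n + 2)) (Fin (n + 2)) F :=
  Matrix.of (Fin.cases (Fin.cases 1 (Fin.cases a r))
    (Fin.cases (Fin.cases 0 (Fin.cases 1 fun _ => 0))
      fun i => Fin.cases 0 (Fin.cases (c i) (B i))))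

section entries

variable {n : ℕ} (a : F) (r c : Fin n → F) (B : Matrix (Fin n) (Fin n) F) (i j : Fin n)

@[simp] theorem mat_zero_zero : mat a r c B 0 0 = 1 := rfl
@[simp] theorem mat_zero_one : mat a r c B 0 1 = a := rfl
@[simp] theorem mat_zero_ss : mat a r c B 0 j.succ.succ = r j := rfl
@[simp] theorem mat_one_zero : mat a r c B 1 0 = 0 := rfl
@[simp] theorem mat_one_one : mat a r c B 1 1 = 1 := rfl
@[simp] theorem mat_one_ss : mat a r c B 1 j.succ.succ = 0 := rfl
@[simp] theorem mat_ss_zero : mat a r c B i.succ.succ 0 = 0 := rfl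
@[simp] theorem mat_ss_one : mat a r c B i.succ.succ 1 = c i := rfl
@[simp] theorem mat_ss_ss : mat a r c B i.succ.succ j.succ.succ = B i j := rfl

end entries

theorem det_of_shape {n : ℕ} (m : Matrix (Fin (n + 2)) (Fin (n + 2)) F)
    (h0 : ∀ i : Fin (n + 1), m i.succ 0 = 0) (h1 : ∀ j : Fin n, m 1 j.succ.succ = 0) :
    m.det = m 0 0 * (m 1 1 * (Matrix.of fun i j : Fin n => m i.succ.succ j.succ.succ).det) := by
  rw [Matrix.det_succ_column_zero, Fin.sum_univ_succ]
  simp only [h0, mul_zero, zero_mul, Finset.sum_const_zero, add_zero, Fin.val_zero, pow_zero, one_mul]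
  refine congrArg (m 0 0 * ·) ?_
  rw [Matrix.det_succ_row_zero, Fin.sum_univ_succ]
  have h : ∀ j : Fin n, (m.submatrix (Fin.succAbove 0) Fin.succ) 0 j.succ = 0 := fun j => by
    rw [Matrix.submatrix_apply]; exact h1 j
  simp only [h, mul_zero, zero_mul, Finset.sum_const_zero, add_zero, Fin.val_zero, pow_zero, one_mul]
  refine congrArg₂ (· * ·) rfl (congrArg Matrix.det ?_)
  ext i j
  simp [Fin.succAbove_zero]

theorem commute_iff {n : ℕ} (m : Matrix (Fin (n + 2)) (Fin (n + 2)) F) :
    m * transvection 0 1 1 = transvection 0 1 1 * m ↔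
      (∀ i : Fin (n + 1), m i.succ 0 = 0) ∧ (∀ j, j ≠ 1 → m 1 j = 0) ∧ m 0 0 = m 1 1 := by
  rw [transvection, mul_add, add_mul, mul_one, one_mul, add_right_inj, ← Matrix.ext_iff]
  constructor
  · intro h
    refine ⟨fun i => ?_, fun j hj => ?_, ?_⟩
    · have := h i.succ 1
      simpa [Matrix.single_mul_apply_of_ne, Fin.succ_ne_zero] using this
    · have := h 0 j
      simpa [Matrix.mul_single_apply_of_ne, hj] using this.symm
    · simpa using h 0 1
  · rintro ⟨h0, h1, h2⟩ i j
    by_cases hj : j = 1 <;> by_cases hi : i = 0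
    · subst hi hj; simpa using h2
    · subst hj
      obtain ⟨i, rfl⟩ := Fin.exists_succ_eq.2 hi
      simp [Matrix.single_mul_apply_of_ne, Fin.succ_ne_zero, h0]
    · subst hi
      simp [Matrix.mul_single_apply_of_ne, hj, h1 j hj]
    · simp [Matrix.mul_single_apply_of_ne, Matrix.single_mul_apply_of_ne, hj, hi]

theorem det_mat {n : ℕ} (a : F) (r c : Fin n → F) (B : Matrix (Fin n) (Fin n) F) :
    (mat a r c B).det = B.det := by
  rw [det_of_shape]
  · show (1 : F) * (1 * B.det) = B.det
    rw [one_mul, one_mul]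
  · intro i; cases i using Fin.cases <;> rfl
  · intro j; rfl

theorem mat_commute {n : ℕ} (a : F) (r c : Fin n → F) (B : Matrix (Fin n) (Fin n) F) :
    mat a r c B * transvection 0 1 1 = transvection 0 1 1 * mat a r c B := by
  rw [commute_iff]
  refine ⟨fun i => ?_, fun j hj => ?_, rfl⟩
  · cases i using Fin.cases <;> rfl
  · cases j using Fin.cases with
    | zero => rfl
    | succ j => cases j using Fin.cases with
      | zero => exact absurd rfl hj
      | succ j => rfl

theorem mat_mul {n : ℕ} (a a' : F) (r c r' c' : Fin n → F) (B B' : Matrix (Fin n) (Fin n) F) :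
    mat a r c B * mat a' r' c' B' = mat (a' + a + r ⬝ᵥ c') (r' + r ᵥ* B') (c + B *ᵥ c') (B * B') := by
  ext i j
  rw [Matrix.mul_apply, Fin.sum_univ_succ, Fin.sum_univ_succ]
  cases i using Fin.cases with
  | zero =>
    cases j using Fin.cases with
    | zero => simp
    | succ j =>
      cases j using Fin.cases with
      | zero => simp [dotProduct]; ring
      | succ j => simp [Matrix.vecMul, dotProduct]
  | succ i =>
    cases i using Fin.cases with
    | zero =>
      cases j using Fin.cases with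
      | zero => simp
      | succ j => cases j using Fin.cases <;> simp
    | succ i =>
      cases j using Fin.cases with
      | zero => simp
      | succ j =>
        cases j using Fin.cases with
        | zero => simp [Matrix.mulVec, dotProduct]
        | succ j => simp [Matrix.mul_apply]

theorem mat_one {n : ℕ} : mat (n := n) 0 0 0 1 = 1 := by
  ext i j
  cases i using Fin.cases with
  | zero =>
    cases j using Fin.cases with
    | zero => simp
    | succ j => cases j using Fin.cases <;> simp [Matrix.one_apply, Fin.ext_iff]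
  | succ i =>
    cases i using Fin.cases with
    | zero =>
      cases j using Fin.cases with
      | zero => simp [Matrix.one_apply]
      | succ j => cases j using Fin.cases <;> simp [Matrix.one_apply, Fin.ext_iff]
    | succ i =>
      cases j using Fin.cases with
      | zero => simp [Matrix.one_apply, Fin.ext_iff]
      | succ j => cases j using Fin.cases <;> simp [Matrix.one_apply, Fin.ext_iff]

/-- `mat` as an element of `SL`. -/
def el {n : ℕ} (a : F) (r c : Fin n → F) (B : SL2 n) : SL2 (n + 2) :=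
  ⟨mat a r c B.1, (det_mat a r c B.1).trans B.2⟩

theorem el_mul {n : ℕ} (a a' : F) (r c r' c' : Fin n → F) (B B' : SL2 n) :
    el a r c B * el a' r' c' B' =
      el (a' + a + r ⬝ᵥ c') (r' + r ᵥ* B'.1) (c + B.1 *ᵥ c') (B * B') :=
  Subtype.ext (mat_mul a a' r c r' c' B.1 B'.1)

theorem el_one {n : ℕ} : el (n := n) 0 0 0 1 = 1 := Subtype.ext mat_one

theorem el_self_mul {n : ℕ} (a : F) (r c : Fin n → F) (h : r ⬝ᵥ c = 0) :
    el a r c (1 : SL2 n) * el a r c 1 = 1 := by
  rw [el_mul, mul_one, Matrix.SpecialLinearGroup.coe_one, Matrix.vecMul_one, Matrix.one_mulVec, h,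
    add_zero, CharTwo.add_self_eq_zero, show r + r = 0 from funext fun i => CharTwo.add_self_eq_zero _,
    show c + c = 0 from funext fun i => CharTwo.add_self_eq_zero _, el_one]

theorem el_inj {n : ℕ} {a a' : F} {r c r' c' : Fin n → F} {B B' : SL2 n}
    (h : el a r c B = el a' r' c' B') : a = a' ∧ r = r' ∧ c = c' ∧ B = B' := by
  have h' : ∀ i j, mat a r c B.1 i j = mat a' r' c' B'.1 i j :=
    fun i j => congrFun (congrFun (congrArg Subtype.val h) i) j
  exact ⟨h' 0 1, funext fun j => h' 0 j.succ.succ, funext fun i => h' i.succ.succ 1,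
    Subtype.ext (Matrix.ext fun i j => h' i.succ.succ j.succ.succ)⟩

variable {k : ℕ}

/-- The transvection. -/
def z₀ (k : ℕ) : SL2 (k + 3) := el (n := k + 1) 1 0 0 1

theorem one_ne_ss {n : ℕ} (j : Fin n) : (1 : Fin (n + 2)) ≠ j.succ.succ := by
  intro h; simpa using congrArg Fin.val h

theorem zero_ne_ss {n : ℕ} (j : Fin n) : (0 : Fin (n + 2)) ≠ j.succ.succ :=
  (Fin.succ_ne_zero _).symm

theorem z₀_val : (z₀ k).1 = transvection 0 1 1 := by
  show mat (n := k + 1) 1 0 0 1 = _
  rw [transvection, ← mat_one (n := k + 1)]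
  ext i j
  rw [Matrix.add_apply, Matrix.single_apply]
  cases i using Fin.cases with
  | zero =>
    cases j using Fin.cases with
    | zero => simp
    | succ j =>
      cases j using Fin.cases with
      | zero => simp
      | succ j => simp [one_ne_ss]
  | succ i =>
    rw [if_neg (fun h => (Fin.succ_ne_zero i).symm h.1), add_zero]
    cases i using Fin.cases with
    | zero =>
      cases j using Fin.cases with
      | zero => rfl
      | succ j => cases j using Fin.cases <;> rfl
    | succ i =>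
      cases j using Fin.cases with
      | zero => rfl
      | succ j => cases j using Fin.cases <;> rfl

/-- The centraliser of the transvection. -/
def C (k : ℕ) : Subgroup (SL2 (k + 3)) := Subgroup.centralizer {z₀ k}

theorem mem_C_iff (g : SL2 (k + 3)) : g ∈ C k ↔
    g.1 * transvection 0 1 1 = transvection 0 1 1 * g.1 := by
  rw [C, Subgroup.mem_centralizer_singleton_iff]
  constructor
  · intro h
    have := congrArg Subtype.val h
    simpa only [Matrix.SpecialLinearGroup.coe_mul, z₀_val] using this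
  · intro h
    exact Subtype.ext (by simpa only [Matrix.SpecialLinearGroup.coe_mul, z₀_val] using h)

theorem el_mem (a : F) (r c : Fin (k + 1) → F) (B : SL2 (k + 1)) : el a r c B ∈ C k :=
  (mem_C_iff _).2 (mat_commute a r c B.1)

theorem exists_el {g : SL2 (k + 3)} (hg : g ∈ C k) :
    ∃ a r c, ∃ B : SL2 (k + 1), g = el a r c B := by
  set m := g.1 with hm
  obtain ⟨h0, h1, h2⟩ := (commute_iff (n := k + 1) m).1 ((mem_C_iff g).1 hg)
  have h1' : ∀ j : Fin (k + 1), m 1 j.succ.succ = 0 := fun j => h1 _ (one_ne_ss j).symm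
  have hdet := det_of_shape (n := k + 1) m h0 h1'
  rw [show m.det = 1 from g.2] at hdet
  have h00 : m 0 0 = 1 := f_eq_one (IsUnit.of_mul_eq_one _ hdet.symm)
  rw [← h2, h00, one_mul, one_mul] at hdet
  refine ⟨m 0 1, fun j => m 0 j.succ.succ, fun i => m i.succ.succ 1,
    ⟨Matrix.of fun i j : Fin (k + 1) => m i.succ.succ j.succ.succ, hdet.symm⟩,
    Subtype.ext (Matrix.ext fun i j => ?_)⟩
  show m i j = mat _ _ _ _ i j
  cases i using Fin.cases with
  | zero =>
    cases j using Fin.cases with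
    | zero => exact h00
    | succ j => cases j using Fin.cases <;> rfl
  | succ i =>
    cases i using Fin.cases with
    | zero =>
      cases j using Fin.cases with
      | zero => exact h0 0
      | succ j =>
        cases j using Fin.cases with
        | zero => exact h2.symm.trans h00
        | succ j => exact h1' j
    | succ i =>
      cases j using Fin.cases with
      | zero => exact h0 i.succ
      | succ j => cases j using Fin.cases <;> rfl

theorem β_zero_eq (v w : Fin (k + 1) → F × F) :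
    β k 0 v w = (fun i => (v i).1) ⬝ᵥ (fun i => (w i).2) := by
  simp [β, β₁, tw, dotProduct]

/-- The extraspecial subgroup as an embedding. -/
def ι : Ext k 0 →* SL2 (k + 3) :=
  MonoidHom.mk' (fun x => el x.z (fun i => (x.v i).1) (fun i => (x.v i).2) 1) fun x y => by
    show el _ _ _ _ = el _ _ _ _ * el _ _ _ _
    rw [el_mul, mul_one, Matrix.SpecialLinearGroup.coe_one, Matrix.vecMul_one, Matrix.one_mulVec,
      ExtraspecialModels.mul_z, β_zero_eq]
    congr 1
    · ring
    · funext i; simp [add_comm]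

theorem ι_inj : Function.Injective (ι (k := k)) := fun x y h => by
  obtain ⟨ha, hr, hc, -⟩ := el_inj h
  exact ExtraspecialModels.Ext.ext (funext fun i => Prod.ext (congrFun hr i) (congrFun hc i)) ha

/-- The complement as an embedding. -/
def σ : SL2 (k + 1) →* SL2 (k + 3) :=
  MonoidHom.mk' (fun B => el 0 0 0 B) fun B B' => by
    rw [el_mul]; simp

theorem σ_inj : Function.Injective (σ (k := k)) := fun _ _ h => (el_inj h).2.2.2

theorem mem_range_ι {g : SL2 (k + 3)} : g ∈ (ι (k := k)).range ↔ ∃ a r c, g = el a r c 1 := by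
  constructor
  · rintro ⟨x, rfl⟩; exact ⟨_, _, _, rfl⟩
  · rintro ⟨a, r, c, rfl⟩; exact ⟨⟨fun i => (r i, c i), a⟩, rfl⟩

theorem range_ι_le : (ι (k := k)).range ≤ C k := by
  rintro _ ⟨x, rfl⟩; exact el_mem _ _ _ _

theorem el_decomp (a : F) (r c : Fin (k + 1) → F) (B : SL2 (k + 1)) :
    el a r c B = el a (r ᵥ* (B⁻¹).1) c 1 * σ B := by
  show _ = _ * el 0 0 0 B
  rw [el_mul, one_mul, Matrix.mulVec_zero, add_zero, dotProduct_zero, add_zero, zero_add, zero_add,
    Matrix.vecMul_vecMul, ← Matrix.SpecialLinearGroup.coe_mul, inv_mul_cancel,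
    Matrix.SpecialLinearGroup.coe_one, Matrix.vecMul_one]

/-- The quotient map onto `SL (n, 2)`. -/
theorem exists_quot : ∃ φ : ↥(C k) →* SL2 (k + 1),
    (∀ a r c B, φ ⟨el a r c B, el_mem a r c B⟩ = B) ∧
      φ.ker = (ι (k := k)).range.subgroupOf (C k) := by
  choose fa fr fc fB hf using fun g : ↥(C k) => exists_el g.2
  have huniq : ∀ (g : ↥(C k)) a r c B, g.1 = el a r c B → fB g = B := fun g a r c B h =>
    (el_inj ((hf g).symm.trans h)).2.2.2
  refine ⟨MonoidHom.mk' fB fun g g' => ?_, fun a r c B => huniq _ a r c B rfl, ?_⟩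
  · refine huniq (g * g') _ _ _ _ (by rw [Subgroup.coe_mul, hf g, hf g', el_mul])
  · ext g
    rw [MonoidHom.mem_ker, Subgroup.mem_subgroupOf, mem_range_ι]
    refine ⟨fun h => ⟨_, _, _, (hf g).trans (congrArg (el _ _ _) h)⟩, ?_⟩
    rintro ⟨a, r, c, h⟩
    exact huniq g a r c 1 h

theorem C_le_normalizer : C k ≤ Subgroup.normalizer ((ι (k := k)).range : Set (SL2 (k + 3))) := by
  obtain ⟨φ, -, hker⟩ := exists_quot (k := k)
  haveI : ((ι (k := k)).range.subgroupOf (C k)).Normal := hker ▸ inferInstance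
  exact (Subgroup.normal_subgroupOf_iff_le_normalizer range_ι_le).1 inferInstance

theorem sup_eq : (ι (k := k)).range ⊔ (σ (k := k)).range = C k := by
  refine le_antisymm (sup_le range_ι_le ?_) fun g hg => ?_
  · rintro _ ⟨B, rfl⟩; exact el_mem _ _ _ _
  · obtain ⟨a, r, c, B, rfl⟩ := exists_el hg
    rw [el_decomp]
    exact Subgroup.mul_mem_sup (mem_range_ι.2 ⟨_, _, _, rfl⟩) ⟨B, rfl⟩

theorem inf_eq : (ι (k := k)).range ⊓ (σ (k := k)).range = ⊥ := by
  rw [eq_bot_iff]
  rintro g ⟨h1, B, rfl⟩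
  obtain ⟨a, r, c, h⟩ := mem_range_ι.1 h1
  rw [(el_inj h).2.2.2, map_one]
  exact one_mem _

/-- A normal `2`-subgroup of `SL (n, 2)`, `n ≥ 2`, is trivial. -/
theorem normal_two_eq_bot {n : ℕ} (hn : 2 ≤ n) (N : Subgroup (SL2 n)) [N.Normal]
    (hN : IsPGroup 2 N) : N = ⊥ := by
  classical
  haveI : Fact (Nat.Prime 2) := ⟨Nat.prime_two⟩
  let act : MulAction ↥N (Fin n → F) :=
    { smul := fun g v => g.1.1 *ᵥ v
      one_smul := fun v => Matrix.one_mulVec v
      mul_smul := fun g h v => (Matrix.mulVec_mulVec v g.1.1 h.1.1).symm }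
  letI := act
  let W : Set (Fin n → F) := {v | ∀ g ∈ N, g.1 *ᵥ v = v}
  have hW : MulAction.fixedPoints ↥N (Fin n → F) = W := by
    ext v
    exact ⟨fun h g hg => h ⟨g, hg⟩, fun h g => h g.1 g.2⟩
  obtain ⟨v, hv, hv0⟩ : ∃ v ∈ W, v ≠ 0 := by
    by_contra hall
    push Not at hall
    have h1 := hN.card_modEq_card_fixedPoints (Fin n → F)
    have hW0 : W = {0} := Set.eq_singleton_iff_unique_mem.2 ⟨fun g _ => Matrix.mulVec_zero _, hall⟩
    rw [hW, hW0] at h1
    have h2 : Nat.card (Fin n → F) = 2 ^ n := by simp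
    have h3 : Nat.card ↥({0} : Set (Fin n → F)) = 1 := by simp
    rw [h2, h3, Nat.ModEq] at h1
    have : (2 ^ n) % 2 = 0 := Nat.mod_eq_zero_of_dvd (dvd_pow_self 2 (by omega))
    omega
  have hWg : ∀ (g : SL2 n) (v), v ∈ W → g.1 *ᵥ v ∈ W := fun g v hv h hh => by
    have h' : g⁻¹ * h * g ∈ N := by
      simpa using Subgroup.Normal.conj_mem inferInstance h hh g⁻¹
    have := hv _ h'
    calc h.1 *ᵥ (g.1 *ᵥ v) = (g * (g⁻¹ * h * g)).1 *ᵥ v := by
          rw [Matrix.mulVec_mulVec, show g * (g⁻¹ * h * g) = h * g by group]; rfl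
      _ = g.1 *ᵥ v := by rw [Matrix.SpecialLinearGroup.coe_mul, ← Matrix.mulVec_mulVec, this]
  have hWadd : ∀ u w, u ∈ W → w ∈ W → u + w ∈ W := fun u w hu hw h hh => by
    rw [Matrix.mulVec_add, hu h hh, hw h hh]
  have step : ∀ (u : Fin n → F) (i j : Fin n), u ∈ W → u j = 1 → i ≠ j → Pi.single i 1 ∈ W := by
    intro u i j hu huj hij
    let t : SL2 n := ⟨transvection i j 1, Matrix.det_transvection_of_ne i j hij 1⟩
    have h := hWadd _ _ (hWg t u hu) hu
    have he : t.1 *ᵥ u + u = Pi.single i 1 := by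
      show (1 + Matrix.single i j (1 : F)) *ᵥ u + u = _
      rw [Matrix.add_mulVec, Matrix.one_mulVec, Matrix.single_mulVec, huj, mul_one]
      funext x
      simp only [Pi.add_apply]
      rw [add_comm (u x), add_assoc, CharTwo.add_self_eq_zero, add_zero]
      rfl
    rwa [he] at h
  obtain ⟨j, hj⟩ := Function.ne_iff.1 hv0
  have hvj : v j = 1 := (f_cases (v j)).resolve_left hj
  have hall : ∀ i, Pi.single i (1 : F) ∈ W := fun i => by
    by_cases hij : i = j
    · subst hij
      haveI : Nontrivial (Fin n) := Fin.nontrivial_iff_two_le.2 hn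
      obtain ⟨l, hl⟩ := exists_ne i
      exact step _ i l (step v l i hv hvj hl) (Pi.single_eq_same l 1) hl.symm
    · exact step v i j hv hvj hij
  rw [eq_bot_iff]
  intro g hg
  refine Subgroup.mem_bot.2 (Subtype.ext (Matrix.ext fun a b => ?_))
  have := congrFun (hall b g hg) a
  rw [Matrix.mulVec_single_one] at this
  simpa [Matrix.one_apply, Pi.single_apply] using this

theorem normal_two_eq_bot' {n : ℕ} (N : Subgroup (SL2 n)) [N.Normal] (hN : IsPGroup 2 N) : N = ⊥ := by
  by_cases hn : 2 ≤ n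
  · exact normal_two_eq_bot hn N hN
  · have hsub : ∀ B : SL2 n, B = 1 := fun B => by
      refine Subtype.ext (Matrix.ext fun i j => ?_)
      have hi := i.isLt
      have hj := j.isLt
      have hij : i = j := Fin.ext (by omega)
      subst hij
      obtain rfl : n = 1 := by omega
      rw [Matrix.SpecialLinearGroup.coe_one, Matrix.one_apply_eq]
      have hd : B.1.det = 1 := B.2
      rw [Matrix.det_fin_one] at hd
      rwa [Subsingleton.elim i 0]
    exact (Subgroup.eq_bot_iff_forall N).2 fun B _ => hsub B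

theorem pCore_map_eq :
    (Cfsg.pCore 2 ↥(C k)).map (C k).subtype = (ι (k := k)).range := by
  haveI : Fact (Nat.Prime 2) := ⟨Nat.prime_two⟩
  obtain ⟨φ, hφ, hker⟩ := exists_quot (k := k)
  set Q := (ι (k := k)).range
  set P := Cfsg.pCore 2 ↥(C k)
  have hQp : IsPGroup 2 ↥(Q.subgroupOf (C k)) :=
    (IsPGroup.of_equiv ExtraspecialModels.isPGroup (MonoidHom.ofInjective ι_inj)).of_equiv
      (Subgroup.subgroupOfEquivOfLe range_ι_le).symm
  haveI : (Q.subgroupOf (C k)).Normal := hker ▸ inferInstance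
  have hle : Q.subgroupOf (C k) ≤ P := Cfsg.Lib.Solv.le_pCore inferInstance hQp
  haveI : P.Normal := inferInstance
  have hsurj : Function.Surjective φ := fun B => ⟨_, hφ 0 0 0 B⟩
  haveI : (P.map φ).Normal := Subgroup.Normal.map inferInstance φ hsurj
  have hbot := normal_two_eq_bot' (P.map φ)
    ((Cfsg.Lib.Solv.isPGroup_pCore 2).map φ)
  have hPle : P ≤ Q.subgroupOf (C k) := by
    rw [← hker]; exact (Subgroup.map_eq_bot_iff P).1 hbot
  rw [le_antisymm hPle hle, Subgroup.map_subgroupOf_eq_of_le range_ι_le]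

theorem center_map {G : Type*} [Group G] {H : Subgroup G} (g : G) :
    g ∈ (Subgroup.center H).map H.subtype ↔ g ∈ H ∧ ∀ h ∈ H, h * g = g * h := by
  constructor
  · rintro ⟨x, hx, rfl⟩
    exact ⟨x.2, fun h hh => congrArg Subtype.val (Subgroup.mem_center_iff.1 hx ⟨h, hh⟩)⟩
  · rintro ⟨hg, h⟩
    exact ⟨⟨g, hg⟩, Subgroup.mem_center_iff.2 fun x => Subtype.ext (h x.1 x.2), rfl⟩

theorem isExtraspecial_of_equiv {E E' : Type*} [Group E] [Group E'] (f : E ≃* E')
    (h : Cfsg.IsExtraspecial 2 E) : Cfsg.IsExtraspecial 2 E' := by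
  obtain ⟨⟨hp, hΦ, hD⟩, hc⟩ := h
  have hcen : (Subgroup.center E).map f.toMonoidHom = Subgroup.center E' := by
    ext x
    refine ⟨?_, fun hx => ⟨f.symm x, ?_, f.apply_symm_apply x⟩⟩
    · rintro ⟨y, hy, rfl⟩
      refine Subgroup.mem_center_iff.2 fun g => ?_
      have := congrArg f (Subgroup.mem_center_iff.1 hy (f.symm g))
      simpa using this
    · refine Subgroup.mem_center_iff.2 fun g => f.injective ?_
      simpa using Subgroup.mem_center_iff.1 hx (f g)
  refine ⟨⟨hp.of_equiv f, ?_, ?_⟩, ?_⟩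
  · rw [← hcen, ← hΦ]
    apply le_antisymm
    · intro x hx
      exact ⟨f.symm x, frattini_le_comap_frattini_of_surjective (φ := f.symm.toMonoidHom)
        f.symm.surjective hx, f.apply_symm_apply x⟩
    · rw [Subgroup.map_le_iff_le_comap]
      exact frattini_le_comap_frattini_of_surjective (φ := f.toMonoidHom) f.surjective
  · rw [← hcen, ← hD, commutator_def, commutator_def, Subgroup.map_commutator,
      Subgroup.map_top_of_surjective f.toMonoidHom f.surjective]
  · rw [← hcen, Subgroup.card_map_of_injective f.injective, hc]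

theorem mem_center_range (g : SL2 (k + 3)) :
    g ∈ (Subgroup.center ↥(ι (k := k)).range).map (ι (k := k)).range.subtype ↔
      g = 1 ∨ g = z₀ k := by
  rw [center_map]
  constructor
  · rintro ⟨⟨x, rfl⟩, h⟩
    have hx : x ∈ Subgroup.center (Ext k 0) := Subgroup.mem_center_iff.2 fun y => ι_inj (by
      rw [map_mul, map_mul]; exact h _ ⟨y, rfl⟩)
    rcases ExtraspecialModels.center_cases hx with rfl | rfl
    · exact Or.inl (map_one _)
    · exact Or.inr rfl
  · intro hg
    have hz : z₀ k ∈ (ι (k := k)).range := mem_range_ι.2 ⟨_, _, _, rfl⟩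
    refine ⟨hg.elim (fun h => h ▸ one_mem _) (fun h => h ▸ hz), fun h hh => ?_⟩
    rcases hg with rfl | rfl
    · simp
    · exact Subgroup.mem_centralizer_singleton_iff.1 (range_ι_le hh)

theorem centralizer_range :
    Subgroup.centralizer ((ι (k := k)).range : Set (SL2 (k + 3))) =
      (Subgroup.center ↥(ι (k := k)).range).map (ι (k := k)).range.subtype := by
  refine le_antisymm (fun g hg => ?_) fun g hg => ?_
  · rw [mem_center_range]
    have hgC : g ∈ C k := Subgroup.mem_centralizer_singleton_iff.2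
      (hg (z₀ k) (mem_range_ι.2 ⟨_, _, _, rfl⟩)).symm
    obtain ⟨a, r, c, B, rfl⟩ := exists_el hgC
    have key : ∀ r' c' : Fin (k + 1) → F,
        a + r' ⬝ᵥ c = a + r ⬝ᵥ c' ∧ r + r' ᵥ* B.1 = r' + r ∧ c' + c = c + B.1 *ᵥ c' := by
      intro r' c'
      have h := hg (el 0 r' c' 1) (mem_range_ι.2 ⟨_, _, _, rfl⟩)
      rw [el_mul, el_mul] at h
      obtain ⟨h1, h2, h3, -⟩ := el_inj h
      simp only [Matrix.SpecialLinearGroup.coe_one, Matrix.vecMul_one, Matrix.one_mulVec,
        zero_add, add_zero] at h1 h2 h3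
      exact ⟨h1, h2, h3⟩
    have hB : B = 1 := by
      refine Subtype.ext (Matrix.ext fun i j => ?_)
      have h := congrFun (key 0 (Pi.single j 1)).2.2 i
      simp only [Pi.add_apply, Matrix.mulVec_single_one, Matrix.col_apply] at h
      rw [add_comm, add_right_inj] at h
      rw [← h, Matrix.SpecialLinearGroup.coe_one, Matrix.one_apply, Pi.single_apply]
    have hr : r = 0 := funext fun i => by
      have h := (key 0 (Pi.single i 1)).1
      simpa using h.symm
    have hc : c = 0 := funext fun i => by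
      have h := (key (Pi.single i 1) 0).1
      simp only [dotProduct_zero, single_one_dotProduct, add_zero, add_eq_left] at h
      simpa using h
    subst hB hr hc
    rcases f_cases a with rfl | rfl
    · exact Or.inl (Subtype.ext mat_one)
    · exact Or.inr rfl
  · rintro h hh
    exact ((center_map g).1 hg).2 h hh

/-- Matrices whose rows below the first are those of the identity and whose corner is `1`. -/
def IsRowZero (m : Matrix (Fin (k + 3)) (Fin (k + 3)) F) : Prop :=
  (∀ i, i ≠ 0 → ∀ j, m i j = 0) ∧ m 0 0 = 0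

theorem rowZero_mul {m m' : Matrix (Fin (k + 3)) (Fin (k + 3)) F} (hm : IsRowZero m)
    (hm' : IsRowZero m') : m * m' = 0 := by
  ext i j
  rw [Matrix.mul_apply]
  refine Finset.sum_eq_zero fun l _ => ?_
  by_cases hl : l = 0
  · subst hl
    by_cases hi : i = 0
    · subst hi; rw [hm.2, zero_mul]
    · rw [hm.1 i hi, zero_mul]
  · rw [hm'.1 l hl, mul_zero]

theorem sq_eq_one_of_commute (g : SL2 (k + 3)) (h0 : ∀ i, i ≠ 0 → g.1 i 0 = 0) :
    (z₀ k * (g * z₀ k * g⁻¹)) * (z₀ k * (g * z₀ k * g⁻¹)) = 1 := by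
  have hg00 : g.1 0 0 = 1 := by
    have hd : g.1.det = 1 := g.2
    rw [Matrix.det_succ_column_zero, Finset.sum_eq_single 0
      (fun i _ hi => by rw [h0 i hi, mul_zero, zero_mul]) (fun h => absurd (Finset.mem_univ _) h)] at hd
    simp only [Fin.val_zero, pow_zero, one_mul] at hd
    exact f_eq_one (IsUnit.of_mul_eq_one _ hd)
  have hinv : (g⁻¹).1 * g.1 = 1 := congrArg Subtype.val (inv_mul_cancel g)
  have hinv' : g.1 * (g⁻¹).1 = 1 := congrArg Subtype.val (mul_inv_cancel g)
  have hgi : ∀ i, i ≠ 0 → (g⁻¹).1 i 0 = 0 := fun i hi => by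
    have h := congrFun (congrFun hinv i) 0
    rw [Matrix.mul_apply, Finset.sum_eq_single 0 (fun l _ hl => by rw [h0 l hl, mul_zero])
      (fun h => absurd (Finset.mem_univ _) h), hg00, mul_one, Matrix.one_apply_ne hi] at h
    exact h
  set E : Matrix (Fin (k + 3)) (Fin (k + 3)) F := Matrix.single 0 1 1 with hE
  have hER : IsRowZero E := ⟨fun i hi j => by simp [E, Matrix.single, Ne.symm hi],
    by simp [E, Matrix.single, Fin.ext_iff]⟩
  have hN : IsRowZero (g.1 * E * (g⁻¹).1) := by
    have hgE : g.1 * E = E := by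
      ext i j
      by_cases hj : j = 1
      · subst hj
        rw [hE, Matrix.mul_single_apply_same, mul_one, Matrix.single_apply]
        by_cases hi : i = 0
        · subst hi; simp [hg00]
        · rw [h0 i hi, if_neg (fun h => hi h.1.symm)]
      · rw [hE, Matrix.mul_single_apply_of_ne _ _ _ _ _ hj, Matrix.single_apply,
          if_neg (fun h => hj h.2.symm)]
    rw [hgE]
    refine ⟨fun i hi j => by simp [E, Matrix.single_mul_apply_of_ne, hi], ?_⟩
    rw [hE, Matrix.single_mul_apply_same, one_mul]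
    exact hgi 1 (by simp [Fin.ext_iff])
  have hz : (z₀ k).1 = 1 + E := z₀_val
  have hconj : (g * z₀ k * g⁻¹).1 = 1 + g.1 * E * (g⁻¹).1 := by
    rw [Matrix.SpecialLinearGroup.coe_mul, Matrix.SpecialLinearGroup.coe_mul, hz, mul_add, add_mul,
      mul_one, hinv']
  apply Subtype.ext
  rw [Matrix.SpecialLinearGroup.coe_mul, Matrix.SpecialLinearGroup.coe_mul, hz, hconj,
    Matrix.SpecialLinearGroup.coe_one]
  set N := g.1 * E * (g⁻¹).1
  have e1 : (1 + E) * (1 + N) = 1 + (E + N) := by
    rw [mul_add, add_mul, add_mul, rowZero_mul hER hN]; simp [add_assoc]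
  have hEN : IsRowZero (E + N) := ⟨fun i hi j => by simp [hER.1 i hi j, hN.1 i hi j],
    by simp [hER.2, hN.2]⟩
  rw [e1, show (1 + (E + N)) * (1 + (E + N)) = 1 + ((E + N) + (E + N)) + (E + N) * (E + N) by noncomm_ring,
    rowZero_mul hEN hEN]
  ext i j
  simp [add_assoc, CharTwo.add_self_eq_zero]

theorem odd_eq_bot (K : Subgroup (SL2 (k + 3))) (hK : Odd (Nat.card K))
    (hQ : (ι (k := k)).range ≤ Subgroup.normalizer (K : Set (SL2 (k + 3)))) : K = ⊥ := by
  classical
  have hmem : ∀ a r c, ∀ x ∈ K, el a r c 1 * x * (el a r c (1 : SL2 (k + 1)))⁻¹ ∈ K :=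
    fun a r c x hx => (Subgroup.mem_normalizer_iff.1 (hQ (mem_range_ι.2 ⟨a, r, c, rfl⟩)) x).1 hx
  have hodd : ∀ x ∈ K, x * x = 1 → x = 1 := fun x hx h => by
    have h1 : orderOf x ∣ 2 := orderOf_dvd_of_pow_eq_one (by rw [pow_two]; exact h)
    have h2 : orderOf x ∣ Nat.card K := by
      simpa using orderOf_dvd_natCard (⟨x, hx⟩ : K)
    rcases (Nat.dvd_prime Nat.prime_two).1 h1 with h3 | h3
    · exact orderOf_eq_one_iff.1 h3
    · rw [h3] at h2
      exact absurd h2 (Nat.two_dvd_ne_zero.2 (Nat.odd_iff.1 hK))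
  have hCK : ∀ x ∈ K, x ∈ C k → x = 1 := by
    intro x hx hxC
    have h1 : x ∈ Subgroup.centralizer ((ι (k := k)).range : Set (SL2 (k + 3))) := by
      intro q hq
      have h2 : q * x * q⁻¹ * x⁻¹ ∈ K :=
        K.mul_mem ((Subgroup.mem_normalizer_iff.1 (hQ hq) x).1 hx) (K.inv_mem hx)
      have h3 : q * x * q⁻¹ * x⁻¹ ∈ (ι (k := k)).range := by
        rw [show q * x * q⁻¹ * x⁻¹ = q * (x * q⁻¹ * x⁻¹) by group]
        exact mul_mem hq ((Subgroup.mem_normalizer_iff.1 (C_le_normalizer hxC) _).1 (inv_mem hq))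
      obtain ⟨y, hy⟩ := h3
      have hy1 : q * x * q⁻¹ * x⁻¹ = 1 := by
        rw [← hy]
        have hd1 : orderOf (ι y) ∣ 2 ^ (2 * (k + 1) + 1) := by
          refine (orderOf_map_dvd _ y).trans ?_
          rw [← ExtraspecialModels.card_ext (k := k) (e := 0)]
          exact orderOf_dvd_natCard y
        have hd2 : orderOf (ι y) ∣ Nat.card K := by
          have : ι y ∈ K := hy ▸ h2
          simpa using orderOf_dvd_natCard (⟨ι y, this⟩ : K)
        have hcop : Nat.Coprime (2 ^ (2 * (k + 1) + 1)) (Nat.card K) :=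
          Nat.Coprime.pow_left _ (Nat.coprime_two_left.2 hK)
        exact orderOf_eq_one_iff.1 (Nat.eq_one_of_dvd_coprimes hcop hd1 hd2)
      calc q * x = (q * x * q⁻¹ * x⁻¹) * (x * q) := by group
        _ = x * q := by rw [hy1, one_mul]
    rw [centralizer_range, mem_center_range] at h1
    rcases h1 with h | h
    · exact h
    · refine hodd x hx ?_
      rw [h]
      exact el_self_mul _ _ _ (by simp)
  haveI : Finite K := inferInstance
  let f : ↥K → ↥K := fun y => ⟨y.1⁻¹ * (z₀ k * y.1 * (z₀ k)⁻¹), K.mul_mem (K.inv_mem y.2)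
    (hmem 1 0 0 y.1 y.2)⟩
  have hfinj : Function.Injective f := by
    intro y y' h
    have h' := congrArg Subtype.val h
    simp only [f] at h'
    have hc : y'.1 * y.1⁻¹ ∈ C k := Subgroup.mem_centralizer_singleton_iff.2 (by
      calc y'.1 * y.1⁻¹ * z₀ k
          = y'.1 * (y.1⁻¹ * (z₀ k * y.1 * (z₀ k)⁻¹)) * (z₀ k * y.1⁻¹ * (z₀ k)⁻¹) * z₀ k := by group
        _ = y'.1 * (y'.1⁻¹ * (z₀ k * y'.1 * (z₀ k)⁻¹)) * (z₀ k * y.1⁻¹ * (z₀ k)⁻¹) * z₀ k := by rw [h']
        _ = z₀ k * (y'.1 * y.1⁻¹) := by group)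
    have := hCK _ (K.mul_mem y'.2 (K.inv_mem y.2)) hc
    exact Subtype.ext (mul_inv_eq_one.1 this).symm
  have hz2 : z₀ k * z₀ k = 1 := el_self_mul _ _ _ (by simp)
  have hzi : (z₀ k)⁻¹ = z₀ k := inv_eq_of_mul_eq_one_right hz2
  have hinvert : ∀ x ∈ K, z₀ k * x * (z₀ k)⁻¹ = x⁻¹ := by
    intro x hx
    obtain ⟨y, hy⟩ := (Finite.injective_iff_surjective.1 hfinj) ⟨x, hx⟩
    have hy' : y.1⁻¹ * (z₀ k * y.1 * (z₀ k)⁻¹) = x := congrArg Subtype.val hy
    rw [← hy', hzi]
    calc z₀ k * (y.1⁻¹ * (z₀ k * y.1 * z₀ k)) * z₀ k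
        = z₀ k * y.1⁻¹ * z₀ k * y.1 * (z₀ k * z₀ k) := by group
      _ = (z₀ k)⁻¹ * y.1⁻¹ * (z₀ k)⁻¹ * y.1 := by rw [hz2, mul_one, hzi]
      _ = _ := by group
  have habel : ∀ x ∈ K, ∀ y ∈ K, x * y = y * x := by
    intro x hx y hy
    have h := hinvert (x * y) (K.mul_mem hx hy)
    rw [show z₀ k * (x * y) * (z₀ k)⁻¹ = (z₀ k * x * (z₀ k)⁻¹) * (z₀ k * y * (z₀ k)⁻¹) by group,
      hinvert x hx, hinvert y hy] at h
    simpa using (congrArg Inv.inv h).symm
  set e : Fin (k + 1) → F := Pi.single 0 1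
  have hfix : ∀ (a : F), ∀ x ∈ K,
      el a e 0 (1 : SL2 (k + 1)) * x = x * el a e 0 1 → x = 1 := by
    intro a x hx h
    have h0 : ∀ i, i ≠ 0 → x.1 i 0 = 0 := by
      intro i hi
      have hi' := congrFun (congrFun (congrArg Subtype.val h) i) ((0 : Fin (k + 1)).succ.succ)
      rw [Matrix.SpecialLinearGroup.coe_mul, Matrix.SpecialLinearGroup.coe_mul, Matrix.mul_apply,
        Matrix.mul_apply] at hi'
      rw [Finset.sum_eq_single i (fun l _ hl => ?_) (fun h => absurd (Finset.mem_univ _) h),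
        Fin.sum_univ_succ, Fin.sum_univ_succ, Fin.sum_univ_succ] at hi'
      · have hd : (el a e 0 (1 : SL2 (k + 1))).1 i i = 1 := by
          obtain ⟨i, rfl⟩ := Fin.exists_succ_eq.2 hi
          cases i using Fin.cases <;> simp [el]
        rw [hd] at hi'
        have e0 : (el a e 0 (1 : SL2 (k + 1))).1 0 ((0 : Fin (k + 1)).succ.succ) = 1 :=
          (mat_zero_ss (n := k + 1) a e 0 (1 : SL2 (k + 1)).1 0).trans (Pi.single_eq_same (M := fun _ : Fin (k + 1) => F) 0 1)
        have e1 : (el a e 0 (1 : SL2 (k + 1))).1 ((0 : Fin (k + 2)).succ)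
            ((0 : Fin (k + 1)).succ.succ) = 0 := rfl
        have e2 : (el a e 0 (1 : SL2 (k + 1))).1 ((0 : Fin (k + 1)).succ.succ)
            ((0 : Fin (k + 1)).succ.succ) = 1 := (mat_ss_ss (n := k + 1) a e 0 (1 : SL2 (k + 1)).1 0 0).trans (Matrix.one_apply_eq 0)
        have e3 : ∀ l : Fin k, (el a e 0 (1 : SL2 (k + 1))).1 l.succ.succ.succ
            ((0 : Fin (k + 1)).succ.succ) = 0 := fun l => Matrix.one_apply_ne (Fin.succ_ne_zero l)
        rw [e0, e1, e2, Finset.sum_eq_zero fun l _ => by rw [e3, mul_zero]] at hi'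
        simpa using hi'
      · obtain ⟨i, rfl⟩ := Fin.exists_succ_eq.2 hi
        have : (el a e 0 (1 : SL2 (k + 1))).1 i.succ l = 0 := by
          cases i using Fin.cases with
          | zero =>
            cases l using Fin.cases with
            | zero => simp [el]
            | succ l => cases l using Fin.cases with
              | zero => exact absurd rfl hl
              | succ l => simp [el]
          | succ i =>
            cases l using Fin.cases with
            | zero => simp [el]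
            | succ l => cases l using Fin.cases with
              | zero => simp [el]
              | succ l =>
                have : i ≠ l := fun h => hl (by rw [h])
                simp [el, Matrix.one_apply, this]
        rw [this, zero_mul]
    have h4 := sq_eq_one_of_commute x h0
    have h5 : z₀ k * (x * z₀ k * x⁻¹) = x⁻¹ * x⁻¹ := by
      calc z₀ k * (x * z₀ k * x⁻¹) = (z₀ k * x * z₀ k) * x⁻¹ := by group
        _ = (z₀ k * x * (z₀ k)⁻¹) * x⁻¹ := by rw [hzi]
        _ = _ := by rw [hinvert x hx]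
    rw [h5] at h4
    have h6 := hodd _ (K.mul_mem (K.inv_mem hx) (K.inv_mem hx)) h4
    have h7 := hodd _ (K.inv_mem hx) h6
    exact inv_eq_one.1 h7
  have hq2 : ∀ a : F, el a e 0 (1 : SL2 (k + 1)) * el a e 0 1 = 1 := fun a =>
    el_self_mul _ _ _ (dotProduct_zero _)
  have hinv2 : ∀ (a : F), ∀ x ∈ K,
      el a e 0 (1 : SL2 (k + 1)) * x * (el a e 0 1)⁻¹ = x⁻¹ := by
    intro a x hx
    set q := el a e 0 (1 : SL2 (k + 1))
    have hqi : q⁻¹ = q := inv_eq_of_mul_eq_one_right (hq2 a)
    have hy : x * (q * x * q⁻¹) ∈ K := K.mul_mem hx (hmem a e 0 x hx)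
    have h := hfix a _ hy (by
      rw [habel x hx _ (hmem a e 0 x hx)]
      calc q * (q * x * q⁻¹ * x) = (q * q) * x * q⁻¹ * x := by group
        _ = x * (q⁻¹ * x) := by rw [hq2 a, one_mul]; group
        _ = x * (q * x * q⁻¹) * q := by rw [hqi]; simp [mul_assoc]; exact hq2 a
        _ = q * x * q⁻¹ * x * q := by rw [habel x hx _ (hmem a e 0 x hx)])
    exact eq_inv_of_mul_eq_one_right h
  rw [eq_bot_iff]
  intro x hx
  refine Subgroup.mem_bot.2 (hfix 1 x hx ?_)
  have hprod : el 1 e 0 (1 : SL2 (k + 1)) = z₀ k * el 0 e 0 1 := by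
    show _ = el _ _ _ _ * el _ _ _ _
    rw [el_mul]; simp
  have : el 1 e 0 (1 : SL2 (k + 1)) * x * (el 1 e 0 (1 : SL2 (k + 1)))⁻¹ = x := by
    rw [hprod, show z₀ k * el 0 e 0 1 * x * (z₀ k * el 0 e 0 1)⁻¹ =
      z₀ k * (el 0 e 0 1 * x * (el 0 e 0 (1 : SL2 (k + 1)))⁻¹) * (z₀ k)⁻¹ by group,
      hinv2 0 x hx, hinvert _ (K.inv_mem hx), inv_inv]
  exact mul_inv_eq_iff_eq_mul.1 this

theorem isLarge : Cfsg.IsLargeExtraspecial (ι (k := k)).range := by
  refine ⟨isExtraspecial_of_equiv (MonoidHom.ofInjective ι_inj) ExtraspecialModels.isExtraspecial,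
    centralizer_range, ?_, odd_eq_bot⟩
  refine le_trans ?_ C_le_normalizer
  intro g hg
  exact Subgroup.mem_centralizer_singleton_iff.2
    (hg (z₀ k) ((mem_center_range _).2 (Or.inr rfl))).symm

end Cfsg.Lib.TransvectionCentralizer
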