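import Mathlib
import Cfsg.Prelude.Def_Transfer
import Cfsg.Agent.Lib.PLocal.TransvectionCentralizer

/-!
A split extension of an elementary abelian `2`-group by its full automorphism group, embedded in
`SL (k + 3, 2)` so that a chosen involution becomes a transvection.
-/

set_option autoImplicit false
set_option linter.style.haveILetI false

namespace Cfsg.Lib.AffineEmbedding

open Matrix
open Cfsg.Lib.TransvectionCentralizer (F f_cases f_eq_one SL2 z₀ z₀_val C exists_el el mat)

/-- An affine block matrix. -/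
def aff {n : ℕ} (w : Fin n → F) (A : Matrix (Fin n) (Fin n) F) :
    Matrix (Fin (n + 1)) (Fin (n + 1)) F :=
  Matrix.of (Fin.cases (Fin.cases 1 w) fun i => Fin.cases 0 (A i))

section entries

variable {n : ℕ} (w : Fin n → F) (A : Matrix (Fin n) (Fin n) F) (i j : Fin n)

@[simp] theorem aff_zero_zero : aff w A 0 0 = 1 := rfl
@[simp] theorem aff_zero_succ : aff w A 0 j.succ = w j := rfl
@[simp] theorem aff_succ_zero : aff w A i.succ 0 = 0 := rfl
@[simp] theorem aff_succ_succ : aff w A i.succ j.succ = A i j := rfl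

theorem det_aff : (aff w A).det = A.det := by
  rw [Matrix.det_succ_column_zero, Fin.sum_univ_succ]
  simp only [aff_succ_zero, aff_zero_zero, mul_zero, zero_mul, Finset.sum_const_zero, add_zero,
    Fin.val_zero, pow_zero, one_mul]
  refine congrArg Matrix.det ?_
  ext i j
  simp [Fin.succAbove_zero]

end entries

theorem aff_mul {n : ℕ} (w w' : Fin n → F) (A A' : Matrix (Fin n) (Fin n) F) :
    aff w A * aff w' A' = aff (w' + w ᵥ* A') (A * A') := by
  ext i j
  rw [Matrix.mul_apply, Fin.sum_univ_succ]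
  cases i using Fin.cases with
  | zero => cases j using Fin.cases <;> simp [Matrix.vecMul, dotProduct]
  | succ i => cases j using Fin.cases <;> simp [Matrix.mul_apply]

theorem aff_one {n : ℕ} : aff (0 : Fin n → F) 1 = 1 := by
  ext i j
  cases i using Fin.cases with
  | zero => cases j using Fin.cases <;> simp [Matrix.one_apply, (Fin.succ_ne_zero _).symm]
  | succ i => cases j using Fin.cases <;> simp [Matrix.one_apply, Fin.succ_ne_zero]

/-- An additive map of `F ^ n` as a matrix acting on row vectors. -/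
theorem exists_vecMul_matrix {n : ℕ} (l : (Fin n → F) →+ (Fin n → F)) :
    ∃ A : Matrix (Fin n) (Fin n) F, ∀ w, w ᵥ* A = l w := by
  refine ⟨(LinearMap.toMatrix' (AddMonoidHom.toZModLinearMap 2 l))ᵀ, fun w => ?_⟩
  rw [Matrix.vecMul_transpose, LinearMap.toMatrix'_mulVec]
  rfl

theorem matrix_ext {n : ℕ} {A B : Matrix (Fin n) (Fin n) F} (h : ∀ w, w ᵥ* A = w ᵥ* B) : A = B := by
  ext i j
  simpa [Matrix.single_one_vecMul] using congrFun (h (Pi.single i 1)) j

/-- Moving a nonzero vector to the first unit vector. -/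
theorem exists_addEquiv_single {n : ℕ} (v : Fin (n + 1) → F) (hv : v ≠ 0) :
    ∃ e : (Fin (n + 1) → F) ≃+ (Fin (n + 1) → F), e v = Pi.single 0 1 := by
  obtain ⟨j, hj⟩ := Function.ne_iff.1 hv
  have hvj : v j = 1 := (f_cases (v j)).resolve_left hj
  set d : Fin (n + 1) → F := v + Pi.single j 1 with hd
  have hdj : d j = 0 := by
    simp [d, hvj, CharTwo.add_self_eq_zero]
  let T : (Fin (n + 1) → F) ≃+ (Fin (n + 1) → F) :=
    { toFun := fun w => w + w j • d
      invFun := fun w => w + w j • d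
      left_inv := fun w => by
        funext i
        simp [hdj, add_assoc, CharTwo.add_self_eq_zero]
      right_inv := fun w => by
        funext i
        simp [hdj, add_assoc, CharTwo.add_self_eq_zero]
      map_add' := fun u w => by funext i; simp; ring }
  let S : (Fin (n + 1) → F) ≃+ (Fin (n + 1) → F) :=
    { toFun := fun w i => w (Equiv.swap 0 j i)
      invFun := fun w i => w (Equiv.swap 0 j i)
      left_inv := fun w => by funext i; simp
      right_inv := fun w => by funext i; simp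
      map_add' := fun u w => rfl }
  refine ⟨T.trans S, funext fun i => ?_⟩
  show v (Equiv.swap 0 j i) + v j • d (Equiv.swap 0 j i) = (Pi.single 0 1 : Fin (n + 1) → F) i
  rw [hvj, one_smul, hd, Pi.add_apply, ← add_assoc, CharTwo.add_self_eq_zero, zero_add]
  rw [Pi.single_apply, Pi.single_apply]
  by_cases hi : i = 0
  · subst hi; simp
  · rw [if_neg hi, if_neg]
    intro h
    apply hi
    have := congrArg (Equiv.swap 0 j) h
    simpa using this

theorem exists_coords {G : Type*} [Group G] [Finite G] {n : ℕ} (U : Subgroup G)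
    (hU : Cfsg.IsElementaryAbelian 2 U) (hUcard : Nat.card ↥U = 2 ^ (n + 1)) (z : ↥U) (hz : z ≠ 1) :
    ∃ ψ : ↥U → (Fin (n + 1) → F), Function.Bijective ψ ∧ (∀ a b, ψ (a * b) = ψ a + ψ b) ∧
      ψ z = Pi.single 0 1 := by
  obtain ⟨hc, h2⟩ := hU
  letI : CommGroup ↥U := { (inferInstance : Group ↥U) with mul_comm := fun a b => hc.is_comm.comm a b }
  letI : Module F (Additive ↥U) := AddCommGroup.zmodModule (n := 2) fun x => by
    apply Additive.toMul.injective
    exact Subtype.ext (h2 _ (Additive.toMul x).2)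
  haveI : Module.Finite F (Additive ↥U) := Module.Finite.of_finite
  have hfr : Module.finrank F (Additive ↥U) = n + 1 := by
    have h := Module.natCard_eq_pow_finrank (K := F) (V := Additive ↥U)
    rw [show Nat.card (Additive ↥U) = Nat.card ↥U from rfl, hUcard, Nat.card_zmod] at h
    exact (Nat.pow_right_injective (le_refl 2) h).symm
  let b := Module.finBasisOfFinrankEq F (Additive ↥U) hfr
  let e₁ : Additive ↥U ≃+ (Fin (n + 1) → F) := b.equivFun.toAddEquiv
  obtain ⟨e₂, he₂⟩ := exists_addEquiv_single (e₁ (Additive.ofMul z)) fun h => hz (by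
    rw [← e₁.map_zero] at h
    exact e₁.injective h)
  refine ⟨fun a => e₂ (e₁ (Additive.ofMul a)), ?_, fun a b => ?_, he₂⟩
  · exact (e₂.bijective.comp e₁.bijective).comp Additive.ofMul.bijective
  · show e₂ (e₁ (Additive.ofMul (a * b))) = _
    rw [ofMul_mul, map_add, map_add]

theorem exists_embedding {G : Type*} [Group G] [Finite G] (k : ℕ) (U M : Subgroup G) [U.Normal]
    (hU : Cfsg.IsElementaryAbelian 2 U) (hUcard : Nat.card ↥U = 2 ^ (k + 2)) (hUM : U ⊓ M = ⊥)
    (hUM' : U ⊔ M = ⊤) (hfaith : ∀ m ∈ M, (∀ u ∈ U, m * u * m⁻¹ = u) → m = 1)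
    (hfull : ∀ φ : ↥U ≃* ↥U, ∃ m ∈ M, ∀ u : ↥U, ((φ u : ↥U) : G) = m * u * m⁻¹)
    (z : G) (hzU : z ∈ U) (hz : z ≠ 1) :
    ∃ f : G →* SL2 (k + 3), Function.Injective f ∧ f z = z₀ k ∧ C k ≤ f.range := by
  classical
  obtain ⟨ψ, hψ, hψmul, hψz⟩ := exists_coords (n := k + 1) U hU hUcard ⟨z, hzU⟩
    (fun h => hz (congrArg Subtype.val h))
  obtain ⟨ψi, hψl, hψr⟩ := Function.bijective_iff_has_inverse.1 hψ
  have hψi_add : ∀ a b, ψi (a + b) = ψi a * ψi b := fun a b => hψ.1 (by rw [hψmul, hψr, hψr, hψr])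
  have hψ1 : ψ 1 = 0 := by
    have := hψmul 1 1
    rw [one_mul] at this
    simpa using this
  have hconj : ∀ (m : G) (u : ↥U), m⁻¹ * (u : G) * m ∈ U := fun m u => by
    have := Subgroup.Normal.conj_mem inferInstance _ u.2 m⁻¹
    simpa using this
  have hA : ∀ m : G, ∃ A : Matrix (Fin (k + 2)) (Fin (k + 2)) F,
      ∀ u : ↥U, ψ ⟨_, hconj m u⟩ = ψ u ᵥ* A := fun m => by
    let l : (Fin (k + 2) → F) →+ (Fin (k + 2) → F) :=
      AddMonoidHom.mk' (fun w => ψ ⟨_, hconj m (ψi w)⟩) fun a b => by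
        rw [← hψmul]
        refine congrArg ψ (Subtype.ext ?_)
        show m⁻¹ * (ψi (a + b) : G) * m = (m⁻¹ * (ψi a : G) * m) * (m⁻¹ * (ψi b : G) * m)
        rw [hψi_add, Subgroup.coe_mul]; group
    obtain ⟨A, hA⟩ := exists_vecMul_matrix l
    exact ⟨A, fun u => by rw [hA]; simp [l, hψl u]⟩
  choose A hA using hA
  have hAmul : ∀ m m', A (m * m') = A m * A m' := fun m m' => matrix_ext fun w => by
    rw [← Matrix.vecMul_vecMul, ← hψr w, ← hA, ← hA, ← hA]
    refine congrArg ψ (Subtype.ext ?_)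
    simp [mul_assoc]
  have hA1 : A 1 = 1 := matrix_ext fun w => by
    rw [Matrix.vecMul_one, ← hψr w, ← hA]
    refine congrArg ψ (Subtype.ext ?_)
    simp
  have hAdet : ∀ m, (A m).det = 1 := fun m => f_eq_one (IsUnit.of_mul_eq_one (A m⁻¹).det (by
    rw [← Matrix.det_mul, ← hAmul, mul_inv_cancel, hA1, Matrix.det_one]))
  have hdec : ∀ g : G, ∃ m : ↥M, ∃ u : ↥U, g = m * u := fun g => by
    have hg : g⁻¹ ∈ U ⊔ M := hUM' ▸ Subgroup.mem_top _
    obtain ⟨u, hu, m, hm, h⟩ := Subgroup.mem_sup_of_normal_left.1 hg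
    exact ⟨⟨m⁻¹, inv_mem hm⟩, ⟨u⁻¹, inv_mem hu⟩, by
      show g = m⁻¹ * u⁻¹
      rw [← _root_.mul_inv_rev, h, inv_inv]⟩
  choose fm fu hf using hdec
  have huniq : ∀ (g : G) (m : ↥M) (u : ↥U), g = m * u → fm g = m ∧ fu g = u := fun g m u h => by
    have h1 : (m : G)⁻¹ * (fm g : G) = (u : G) * (fu g : G)⁻¹ := by
      rw [eq_mul_inv_iff_mul_eq, mul_assoc, ← hf, inv_mul_eq_iff_eq_mul]; exact h
    have h2 : (m : G)⁻¹ * (fm g : G) ∈ U ⊓ M :=
      ⟨h1 ▸ U.mul_mem u.2 (U.inv_mem (fu g).2), M.mul_mem (M.inv_mem m.2) (fm g).2⟩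
    rw [hUM, Subgroup.mem_bot] at h2
    refine ⟨Subtype.ext (inv_mul_eq_one.1 h2).symm, Subtype.ext ?_⟩
    rw [h2] at h1
    exact (mul_inv_eq_one.1 h1.symm).symm
  let f : G →* SL2 (k + 3) := MonoidHom.mk'
    (fun g => ⟨aff (ψ (fu g)) (A (fm g)), (det_aff _ _).trans (hAdet _)⟩) fun g g' => by
      apply Subtype.ext
      show aff _ _ = aff _ _ * aff _ _
      obtain ⟨h1, h2⟩ := huniq (g * g') (fm g * fm g') (⟨_, hconj (fm g' : G) (fu g)⟩ * fu g') (by
        conv_lhs => rw [hf g, hf g']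
        simp only [Subgroup.coe_mul]; group)
      rw [h1, h2, aff_mul, Subgroup.coe_mul, hAmul, hψmul, hA]
      exact congrArg (fun v => aff v _) (add_comm _ _)
  have hinj : Function.Injective f := by
    rw [injective_iff_map_eq_one]
    intro g hg
    have hg' : ∀ i j, aff (ψ (fu g)) (A (fm g)) i j = (1 : Matrix _ _ F) i j :=
      fun i j => congrFun (congrFun (congrArg Subtype.val hg) i) j
    have hw : ψ (fu g) = 0 := funext fun j =>
      ((hg' 0 j.succ).trans (Matrix.one_apply_ne (Fin.succ_ne_zero j).symm))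
    have hAg : A (fm g) = 1 := Matrix.ext fun i j => by
      have := hg' i.succ j.succ
      simpa [Matrix.one_apply] using this
    have hu1 : fu g = 1 := hψ.1 (hw.trans hψ1.symm)
    have hm1 : (fm g : G) = 1 := by
      refine hfaith _ (fm g).2 fun u hu => ?_
      have := hψ.1 ((hA (fm g : G) ⟨u, hu⟩).trans (by rw [hAg, Matrix.vecMul_one]))
      have h3 : (fm g : G)⁻¹ * u * fm g = u := congrArg Subtype.val this
      conv_lhs => rw [← h3]
      group
    rw [hf g, hm1, hu1]; simp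
  refine ⟨f, hinj, ?_, fun x hx => ?_⟩
  · obtain ⟨h1, h2⟩ := huniq z 1 ⟨z, hzU⟩ (by simp)
    apply Subtype.ext
    show aff _ _ = _
    rw [h1, h2, hψz, Subgroup.coe_one, hA1, z₀_val, transvection]
    conv_rhs => rw [← aff_one]
    ext i j
    rw [Matrix.add_apply, Matrix.single_apply]
    cases i using Fin.cases with
    | zero =>
      cases j using Fin.cases with
      | zero => simp
      | succ j =>
        rw [show (1 : Fin (k + 3)) = (0 : Fin (k + 2)).succ from rfl]
        simp only [aff_zero_succ, Pi.single_apply, Pi.zero_apply, zero_add, true_and, Fin.succ_inj]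
        exact if_congr eq_comm rfl rfl
    | succ i =>
      rw [if_neg (fun h => (Fin.succ_ne_zero i).symm h.1), add_zero]
      cases j using Fin.cases <;> rfl
  · obtain ⟨a, r, c, B, rfl⟩ := exists_el hx
    set m := (el a r c B).1 with hm
    set w : Fin (k + 2) → F := fun j => m 0 j.succ
    set D : Matrix (Fin (k + 2)) (Fin (k + 2)) F := Matrix.of fun i j => m i.succ j.succ
    have hmD : m = aff w D := by
      ext i j
      cases i using Fin.cases with
      | zero => cases j using Fin.cases <;> rfl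
      | succ i =>
        cases j using Fin.cases with
        | zero => cases i using Fin.cases <;> rfl
        | succ j => rfl
    have hD : D.det = 1 := by
      rw [← det_aff w D, ← hmD]; exact (el a r c B).2
    have hDu : IsUnit D.det := hD ▸ isUnit_one
    have hφmul : ∀ u v : ↥U, ψi (ψ (u * v) ᵥ* D⁻¹) = ψi (ψ u ᵥ* D⁻¹) * ψi (ψ v ᵥ* D⁻¹) :=
      fun u v => by rw [hψmul, Matrix.add_vecMul, hψi_add]
    let φ : ↥U ≃* ↥U :=
      { toFun := fun u => ψi (ψ u ᵥ* D⁻¹)
        invFun := fun u => ψi (ψ u ᵥ* D)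
        left_inv := fun u => by
          show ψi (ψ (ψi (ψ u ᵥ* D⁻¹)) ᵥ* D) = u
          rw [hψr, Matrix.vecMul_vecMul, Matrix.nonsing_inv_mul _ hDu, Matrix.vecMul_one, hψl]
        right_inv := fun u => by
          show ψi (ψ (ψi (ψ u ᵥ* D)) ᵥ* D⁻¹) = u
          rw [hψr, Matrix.vecMul_vecMul, Matrix.mul_nonsing_inv _ hDu, Matrix.vecMul_one, hψl]
        map_mul' := hφmul }
    obtain ⟨mm, hmm, hφ⟩ := hfull φ
    refine ⟨mm * (ψi w : G), Subtype.ext ?_⟩
    obtain ⟨h1, h2⟩ := huniq (mm * (ψi w : G)) ⟨mm, hmm⟩ (ψi w) rfl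
    show aff _ _ = m
    rw [h1, h2, hψr, hmD]
    congr 1
    refine matrix_ext fun v => ?_
    rw [← hψr v, ← hA]
    have h4 := hφ (φ.symm (ψi v))
    rw [MulEquiv.apply_symm_apply] at h4
    have h5 : (⟨mm⁻¹ * (ψi v : G) * mm, hconj mm (ψi v)⟩ : ↥U) = φ.symm (ψi v) :=
      Subtype.ext (by show mm⁻¹ * (ψi v : G) * mm = _; rw [h4]; group)
    show ψ ⟨mm⁻¹ * (ψi v : G) * mm, _⟩ = _
    rw [h5]
    show ψ (ψi (ψ (ψi v) ᵥ* D)) = _
    rw [hψr]

end Cfsg.Lib.AffineEmbedding
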