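import Mathlib
import Cfsg.Prelude.Def_MonsterType
import Cfsg.Agent.Lib.PLocal.TransvectionCentralizer

/-!
Pulling back the transvection centralizer along an embedding.
-/

set_option autoImplicit false
set_option linter.style.haveILetI false

namespace Cfsg.Lib.AffineLarge

open Cfsg.Lib.TransvectionCentralizer
open Cfsg.Lib.ExtraspecialModels (Ext)

theorem pCore_map_equiv {A B : Type*} [Group A] [Group B] [Finite A] [Finite B] (e : A ≃* B) :
    (Cfsg.pCore 2 A).map e.toMonoidHom = Cfsg.pCore 2 B := by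
  haveI : Fact (Nat.Prime 2) := ⟨Nat.prime_two⟩
  apply le_antisymm
  · exact Cfsg.Lib.Solv.le_pCore (Subgroup.Normal.map inferInstance _ e.surjective)
      ((Cfsg.Lib.Solv.isPGroup_pCore 2).map _)
  · intro b hb
    refine ⟨e.symm b, ?_, e.apply_symm_apply b⟩
    have h : (Cfsg.pCore 2 B).map e.symm.toMonoidHom ≤ Cfsg.pCore 2 A :=
      Cfsg.Lib.Solv.le_pCore (Subgroup.Normal.map inferInstance _ e.symm.surjective)
        ((Cfsg.Lib.Solv.isPGroup_pCore 2).map _)
    exact h ⟨b, hb, rfl⟩

/-- `SL (n, 2)` is `GL (n, 2)`. -/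
theorem sl_equiv_gl (n : ℕ) :
    Nonempty (SL2 n ≃* Matrix.GeneralLinearGroup (Fin n) F) := by
  refine ⟨MulEquiv.ofBijective Matrix.SpecialLinearGroup.toGL ⟨fun a b h => ?_, fun g => ?_⟩⟩
  · exact Subtype.ext (congrArg Units.val h)
  · refine ⟨⟨g.1, f_eq_one ((Matrix.isUnit_iff_isUnit_det _).1 g.isUnit)⟩, Units.ext rfl⟩

variable {G : Type*} [Group G] [Finite G] {k : ℕ} (f : G →* SL2 (k + 3))

theorem centralizer_eq_comap (hf : Function.Injective f) {z : G} (hfz : f z = z₀ k) :
    Subgroup.centralizer ({z} : Set G) = (C k).comap f := by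
  ext g
  rw [Subgroup.mem_comap, C, Subgroup.mem_centralizer_singleton_iff,
    Subgroup.mem_centralizer_singleton_iff]
  constructor
  · intro h; rw [← hfz, ← map_mul, ← map_mul, h]
  · intro h; exact hf (by rw [map_mul, map_mul, hfz, h])

theorem pCore_eq_comap (hf : Function.Injective f) (hC : C k ≤ f.range) {z : G} (hfz : f z = z₀ k) :
    (Cfsg.pCore 2 ↥(Subgroup.centralizer ({z} : Set G))).map
        (Subgroup.centralizer ({z} : Set G)).subtype = (ι (k := k)).range.comap f := by
  set Cz := Subgroup.centralizer ({z} : Set G)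
  have hmap : Cz.map f = C k := by
    rw [show Cz = _ from centralizer_eq_comap f hf hfz, Subgroup.map_comap_eq, inf_eq_right.2 hC]
  let e : ↥Cz ≃* ↥(C k) := (Cz.equivMapOfInjective f hf).trans (MulEquiv.subgroupCongr hmap)
  have h1 : ((Cfsg.pCore 2 ↥Cz).map Cz.subtype).map f = (ι (k := k)).range := by
    rw [Subgroup.map_map, ← pCore_map_eq, ← pCore_map_equiv e, Subgroup.map_map]
    rfl
  rw [← h1, Subgroup.comap_map_eq_self_of_injective hf]

theorem comap_map (hC : C k ≤ f.range) {H : Subgroup (SL2 (k + 3))} (hH : H ≤ C k) :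
    (H.comap f).map f = H := by
  rw [Subgroup.map_comap_eq, inf_eq_right.2 (hH.trans hC)]

theorem isLarge_comap (hf : Function.Injective f) (hC : C k ≤ f.range) {z : G} (hfz : f z = z₀ k) :
    Cfsg.IsLargeExtraspecial ((ι (k := k)).range.comap f) := by
  set Q := (ι (k := k)).range.comap f
  obtain ⟨hes, hcen, hnor, hodd⟩ := isLarge (k := k)
  have hQ : Q.map f = (ι (k := k)).range := comap_map f hC range_ι_le
  have hzQ : z ∈ Q := by
    show f z ∈ (ι (k := k)).range
    rw [hfz]; exact mem_range_ι.2 ⟨_, _, _, rfl⟩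
  have hcentre : ∀ g, g ∈ (Subgroup.center ↥Q).map Q.subtype ↔ g = 1 ∨ g = z := by
    intro g
    have h := mem_center_range (k := k) (f g)
    rw [center_map] at h ⊢
    rw [← hf.eq_iff, map_one, ← hf.eq_iff (b := z), hfz, ← h]
    constructor
    · rintro ⟨hg, hh⟩
      refine ⟨hg, fun y hy => ?_⟩
      rw [← hQ] at hy
      obtain ⟨y, hy, rfl⟩ := hy
      rw [← map_mul, ← map_mul, hh y hy]
    · rintro ⟨hg, hh⟩
      exact ⟨hg, fun y hy => hf (by rw [map_mul, map_mul, hh (f y) hy])⟩
  refine ⟨isExtraspecial_of_equiv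
    ((Q.equivMapOfInjective f hf).trans (MulEquiv.subgroupCongr hQ)).symm hes, ?_, ?_, ?_⟩
  · ext g
    rw [hcentre]
    constructor
    · intro hg
      have h1 : f g ∈ Subgroup.centralizer ((ι (k := k)).range : Set (SL2 (k + 3))) := by
        intro y hy
        rw [SetLike.mem_coe, ← hQ] at hy
        obtain ⟨y, hy, rfl⟩ := hy
        rw [← map_mul, ← map_mul, hg y hy]
      rw [hcen, mem_center_range, ← hfz] at h1
      rcases h1 with h | h
      · exact Or.inl (hf (h.trans (map_one f).symm))
      · exact Or.inr (hf h)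
    · intro hg y hy
      rcases hg with rfl | rfl
      · simp
      · exact (((center_map g).1 ((hcentre g).2 (Or.inr rfl))).2 y hy)
  · intro g hg
    have hgz : g ∈ Subgroup.centralizer ({z} : Set G) :=
      Subgroup.mem_centralizer_singleton_iff.2 (hg z ((hcentre z).2 (Or.inr rfl))).symm
    rw [centralizer_eq_comap f hf hfz] at hgz
    have h := C_le_normalizer hgz
    rw [Subgroup.mem_normalizer_iff] at h ⊢
    intro y
    have := h (f y)
    simpa [Q, Subgroup.mem_comap] using this
  · intro K hK hQK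
    have h1 : Odd (Nat.card ↥(K.map f)) := by rwa [Subgroup.card_map_of_injective hf]
    have h2 : (ι (k := k)).range ≤ Subgroup.normalizer ((K.map f : Subgroup _) : Set (SL2 (k + 3))) := by
      rw [← hQ]
      exact (Subgroup.map_mono hQK).trans (Subgroup.le_normalizer_map f)
    have h3 := hodd _ h1 h2
    rwa [Subgroup.map_eq_bot_iff_of_injective _ hf] at h3

end Cfsg.Lib.AffineLarge
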