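import Cfsg.Agent.Lib.PLocal.AmalgamCritical
import Cfsg.Prelude.Def_LocalStructure

/-!
# The iterated subgroups `V_λ^{(n)}` of an amalgam
-/

set_option autoImplicit false

namespace Cfsg.Lib.PLocal.AmalgamIter

open Cfsg Subgroup Cfsg.Lib.PLocal.Amalgam Cfsg.Lib.PLocal.AmalgamCrit
open scoped commutatorElement

variable {X : Type*} [Group X] {p : ℕ} [hp : Fact p.Prime] {M₁ M₂ : Subgroup X}

theorem le_normalizer_of_conj {H U : Subgroup X} (h : ∀ a ∈ H, ∀ x ∈ U, a * x * a⁻¹ ∈ U) :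
    H ≤ normalizer (U : Set X) := fun a ha => mem_normalizer_iff.2 fun x =>
  ⟨h a ha x, fun hx => by simpa [mul_assoc] using h a⁻¹ (H.inv_mem ha) _ hx⟩

omit hp in
theorem dist_smul (hconn : (cosetGraph M₁ M₂).Connected) (g : X) (a b : CosetVertex M₁ M₂) :
    (cosetGraph M₁ M₂).dist (g • a) (g • b) = (cosetGraph M₁ M₂).dist a b := by
  have key : ∀ (g : X) (a b : CosetVertex M₁ M₂),
      (cosetGraph M₁ M₂).dist (g • a) (g • b) ≤ (cosetGraph M₁ M₂).dist a b := by
    intro g a b
    obtain ⟨w, hw⟩ := hconn.exists_walk_length_eq_dist a b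
    let f : cosetGraph M₁ M₂ →g cosetGraph M₁ M₂ := ⟨fun v => g • v, fun {a b} h => adj_smul g h⟩
    have h := SimpleGraph.dist_le (w.map f)
    rw [SimpleGraph.Walk.length_map, hw] at h
    exact h
  refine le_antisymm (key g a b) ?_
  have := key g⁻¹ (g • a) (g • b)
  rwa [inv_smul_smul, inv_smul_smul] at this

omit hp in
theorem stab_smul (g : X) (ν : CosetVertex M₁ M₂) :
    MulAction.stabilizer X (g • ν) = (MulAction.stabilizer X ν).map (MulAut.conj g).toMonoidHom :=
  MulAction.stabilizer_smul_eq_stabilizer_map_conj g ν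

theorem vertexZ_map (h : IsCharPAmalgamPair p M₁ M₂) (g : X) (ν : CosetVertex M₁ M₂) :
    (vertexZ p ν).map (MulAut.conj g).toMonoidHom ≤ vertexZ p (g • ν) := by
  haveI := (vertex_props h ν).1
  haveI := (vertex_props h (g • ν)).1
  rw [vertexZ, sylowCenterClosure, Subgroup.map_iSup]
  refine iSup_le fun P => ?_
  set R := ((P : Subgroup _).map (MulAction.stabilizer X ν).subtype).map (MulAut.conj g).toMonoidHom
  have hR : R ≤ MulAction.stabilizer X (g • ν) := (stab_smul g ν).symm ▸ map_mono (map_subtype_le _)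
  obtain ⟨P', hP'⟩ := (((P.isPGroup'.map _).map _).comap_subtype :
    IsPGroup p (R.subgroupOf (MulAction.stabilizer X (g • ν)))).exists_le_sylow
  have he : (P' : Subgroup _).map (MulAction.stabilizer X (g • ν)).subtype = R := by
    haveI : Finite ↥((P' : Subgroup _).map (MulAction.stabilizer X (g • ν)).subtype) :=
      Finite.of_injective _ (inclusion_injective (map_subtype_le _))
    refine (eq_of_le_of_card_ge ((map_subgroupOf_eq_of_le hR).ge.trans (map_mono hP')) ?_).symm
    rw [card_map_of_injective (MulAction.stabilizer X (g • ν)).subtype_injective,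
      card_map_of_injective (MulAut.conj g).injective,
      card_map_of_injective (MulAction.stabilizer X ν).subtype_injective,
      P'.card_eq_multiplicity, P.card_eq_multiplicity, stab_smul g ν,
      card_map_of_injective (MulAut.conj g).injective]
  refine le_trans (le_of_eq ?_) (omegaZ_sylow_le _ P')
  rw [he]
  exact AmalgamCrit.omegaZ_map (MulAut.conj g) _

theorem vIter_map (h : IsCharPAmalgamPair p M₁ M₂) (g : X) (n : ℕ) (ν : CosetVertex M₁ M₂) :
    (vertexVIter p M₁ M₂ n ν).map (MulAut.conj g).toMonoidHom ≤ vertexVIter p M₁ M₂ n (g • ν) := by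
  rw [vertexVIter, Subgroup.map_iSup]
  refine iSup_le fun μ => (vertexZ_map h g μ.1).trans ?_
  exact le_iSup_of_le (⟨g • μ.1, by rw [dist_smul (connected h.1.1)]; exact μ.2⟩ :
    {μ : CosetVertex M₁ M₂ // (cosetGraph M₁ M₂).dist (g • ν) μ ≤ n}) le_rfl

theorem le_normalizer_vIter (h : IsCharPAmalgamPair p M₁ M₂) (n : ℕ) (ν : CosetVertex M₁ M₂) :
    MulAction.stabilizer X ν ≤ normalizer (vertexVIter p M₁ M₂ n ν : Set X) :=
  le_normalizer_of_conj fun a ha x hx => by
    have := vIter_map h a n ν ⟨x, hx, rfl⟩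
    rwa [MulAction.mem_stabilizer_iff.1 ha] at this

theorem vIter_adj_le (h : IsCharPAmalgamPair p M₁ M₂) {m n : ℕ} {a b : CosetVertex M₁ M₂}
    (hab : (cosetGraph M₁ M₂).Adj a b) (hmn : m + 1 ≤ n) :
    vertexVIter p M₁ M₂ m a ≤ vertexVIter p M₁ M₂ n b := by
  refine iSup_le fun ν => le_iSup_of_le (⟨ν.1, ?_⟩ : {μ : CosetVertex M₁ M₂ // (cosetGraph M₁ M₂).dist b μ ≤ n}) le_rfl
  have := (connected h.1.1).dist_triangle (u := b) (v := a) (w := ν.1)
  rw [SimpleGraph.dist_eq_one_iff_adj.2 hab.symm] at this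
  have := ν.2
  omega

/-- `V^{(n)}` is generated by the `V^{(n-1)}` of the neighbours. -/
theorem vIter_eq (h : IsCharPAmalgamPair p M₁ M₂) {n : ℕ} (hn : 1 ≤ n) {lam μ : CosetVertex M₁ M₂}
    (hadj : (cosetGraph M₁ M₂).Adj lam μ) (W : Subgroup X)
    (hW : ∀ ν, (cosetGraph M₁ M₂).Adj lam ν → vertexVIter p M₁ M₂ (n - 1) ν ≤ W) :
    vertexVIter p M₁ M₂ n lam ≤ W := by
  refine iSup_le fun ⟨ν, hν⟩ => ?_
  obtain ⟨w, hw⟩ := (connected h.1.1).exists_walk_length_eq_dist lam ν
  cases w with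
  | nil =>
    -- `Z_λ` lies in the join over the neighbours
    haveI := (vertex_props h lam).1
    haveI : Finite ↥(edgeStabilizer lam μ) := Finite.of_injective _ (inclusion_injective inf_le_left)
    obtain ⟨R⟩ : Nonempty (Sylow p ↥(edgeStabilizer lam μ)) := inferInstance
    obtain ⟨P₀, hP₀⟩ := exists_sylow (MulAction.stabilizer X lam) (edgeStabilizer lam μ) inf_le_left R
      (fun P => edge_card h hadj R P)
    refine iSup_le fun P => ?_
    obtain ⟨g, rfl⟩ := MulAction.exists_smul_eq (↥(MulAction.stabilizer X lam)) P₀ P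
    rw [conj_smul_map]
    refine (le_of_eq (AmalgamCrit.omegaZ_map (MulAut.conj (g : X)) _).symm).trans ?_
    rw [hP₀]
    have hadj' : (cosetGraph M₁ M₂).Adj lam ((g : X) • μ) := by
      have := adj_smul (g : X) hadj
      rwa [MulAction.mem_stabilizer_iff.1 g.2] at this
    refine le_trans ?_ (hW _ hadj')
    refine le_trans (map_mono ?_) ((vertexZ_map h (g : X) μ).trans
      (le_iSup_of_le (⟨(g : X) • μ, by simp⟩ :
        {ρ : CosetVertex M₁ M₂ // (cosetGraph M₁ M₂).dist ((g : X) • μ) ρ ≤ n - 1}) le_rfl))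
    haveI := (vertex_props h μ).1
    obtain ⟨P', hP'⟩ := exists_sylow (MulAction.stabilizer X μ) (edgeStabilizer lam μ) inf_le_right R
      (fun P' => by
        haveI : Finite ↥(edgeStabilizer μ lam) := Finite.of_injective _ (inclusion_injective inf_le_left)
        obtain ⟨R'⟩ : Nonempty (Sylow p ↥(edgeStabilizer μ lam)) := inferInstance
        rw [← edge_card h hadj.symm R' P', R.card_eq_multiplicity, R'.card_eq_multiplicity,
          show edgeStabilizer lam μ = edgeStabilizer μ lam from inf_comm _ _])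
    rw [← hP']
    exact omegaZ_sylow_le _ P'
  | @cons _ v _ hab w' =>
    refine le_trans (le_iSup_of_le (⟨ν, ?_⟩ : {ρ : CosetVertex M₁ M₂ // (cosetGraph M₁ M₂).dist v ρ ≤ n - 1}) le_rfl)
      (hW v hab)
    have := SimpleGraph.dist_le w'
    simp at hw
    omega

/-- `O^{p'}(G_a)` is transitive on the neighbours of `a`. -/
theorem closure_transitive (h : IsSpeAmalgamPair p M₁ M₂) {a b : CosetVertex M₁ M₂}
    (hab : (cosetGraph M₁ M₂).Adj a b) : ∀ g ∈ MulAction.stabilizer X a,
      ∃ k ∈ pElementClosure p (MulAction.stabilizer X a), k • b = g • b := by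
  obtain ⟨⟨ham, hf1, hf2, -, -, hS, -, -⟩, hN, -, -⟩ := h
  haveI : Finite M₁ := hf1
  haveI : Finite M₂ := hf2
  haveI : Finite ↥(M₁ ⊓ M₂) := Finite.of_injective _ (inclusion_injective inf_le_left)
  obtain ⟨S⟩ : Nonempty (Sylow p ↥(M₁ ⊓ M₂)) := inferInstance
  obtain ⟨P₁⟩ : Nonempty (Sylow p M₁) := inferInstance
  obtain ⟨P₂⟩ : Nonempty (Sylow p M₂) := inferInstance
  have hconj : ∀ (x : X) (M : Subgroup X), ∀ k ∈ pElementClosure p M,
      x * k * x⁻¹ ∈ pElementClosure p (M.map (MulAut.conj x).toMonoidHom) := by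
    intro x M k hk
    have : (pElementClosure p M).map (MulAut.conj x).toMonoidHom ≤
        pElementClosure p (M.map (MulAut.conj x).toMonoidHom) := by
      rw [pElementClosure, MonoidHom.map_closure, closure_le]
      rintro _ ⟨y, ⟨hy, hy'⟩, rfl⟩
      refine subset_closure ⟨mem_map_of_mem _ hy, ?_⟩
      show ∃ n, orderOf ((MulAut.conj x) y) = p ^ n
      rwa [MulEquiv.orderOf_eq]
    exact this (mem_map_of_mem _ hk)
  intro g hg
  obtain ⟨x, hx⟩ := adj_iff.1 hab
  rcases hx with ⟨rfl, rfl⟩ | ⟨rfl, rfl⟩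
  · rw [stabilizer_inl] at hg ⊢
    obtain ⟨g0, hg0, rfl⟩ := hg
    obtain ⟨k, hk, n, hn, rfl⟩ := exists_closure_mul M₁ (M₁ ⊓ M₂) inf_le_left S
      (fun P => (hS S P P₂).1) (hN S).2 g0 hg0
    refine ⟨_, hconj x M₁ k hk, ?_⟩
    have hn' : (x * n * x⁻¹) • (Sum.inr (x : X ⧸ M₂) : CosetVertex M₁ M₂) = Sum.inr (x : X ⧸ M₂) :=
      MulAction.mem_stabilizer_iff.1 ((stabilizer_inr (M₁ := M₁) x).symm ▸ ⟨n, hn.2, rfl⟩)
    conv_lhs => rw [← hn', smul_smul]
    congr 1
    simp [mul_assoc]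
  · rw [stabilizer_inr] at hg ⊢
    obtain ⟨g0, hg0, rfl⟩ := hg
    obtain ⟨k, hk, n, hn, rfl⟩ := exists_closure_mul M₂ (M₁ ⊓ M₂) inf_le_right S
      (fun P => (hS S P₁ P).2) ((hN S).1 ▸ (hN S).2) g0 hg0
    refine ⟨_, hconj x M₂ k hk, ?_⟩
    have hn' : (x * n * x⁻¹) • (Sum.inl (x : X ⧸ M₁) : CosetVertex M₁ M₂) = Sum.inl (x : X ⧸ M₁) :=
      MulAction.mem_stabilizer_iff.1 ((stabilizer_inl (M₂ := M₂) x).symm ▸ ⟨n, hn.1, rfl⟩)
    conv_lhs => rw [← hn', smul_smul]
    congr 1
    simp [mul_assoc]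

/-- `U = V` if `V = U [V, Q]` in a nilpotent group `Q`. -/
theorem eq_of_sup_commutator {P : Type*} [Group P] [hP : Group.IsNilpotent P] (U V : Subgroup P) [U.Normal]
    (h : V ≤ U ⊔ ⁅V, (⊤ : Subgroup P)⁆) : V ≤ U := by
  obtain ⟨c, hc⟩ := Subgroup.nilpotent_iff_lowerCentralSeries.1 (inferInstance : Group.IsNilpotent (P ⧸ U))
  set f := QuotientGroup.mk' U
  have hstep : V.map f ≤ ⁅V.map f, (⊤ : Subgroup (P ⧸ U))⁆ := by
    refine (map_mono h).trans ?_
    rw [Subgroup.map_sup, Subgroup.map_commutator, map_top_of_surjective f (QuotientGroup.mk'_surjective U),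
      (map_eq_bot_iff U).2 (QuotientGroup.ker_mk' U).ge, bot_sup_eq]
  have key : ∀ k, V.map f ≤ (⊤ : Subgroup (P ⧸ U)).lowerCentralSeries k := by
    intro k
    induction k with
    | zero => exact le_top
    | succ k ih => exact hstep.trans (commutator_mono ih le_rfl)
  have hb := key c
  rw [hc, le_bot_iff, Subgroup.map_eq_bot_iff, QuotientGroup.ker_mk'] at hb
  exact hb

/-- The common part of the two statements. -/
theorem no_cover (h : IsSpeAmalgamPair p M₁ M₂) (lam : CosetVertex M₁ M₂) (n : ℕ) (hn : 1 ≤ n)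
    (hVQ : vertexVIter p M₁ M₂ n lam ≤ vertexQ p lam)
    (C : Subgroup X)
    (hC : ⁅vertexVIter p M₁ M₂ n lam, (pResidual p ↥(pElementClosure p (MulAction.stabilizer X lam))).map
      (pElementClosure p (MulAction.stabilizer X lam)).subtype⁆ ≤ C)
    (hCV : C ≤ vertexVIter p M₁ M₂ n lam)
    (hCN : MulAction.stabilizer X lam ≤ normalizer (C : Set X))
    (hCU : ∀ μ, (cosetGraph M₁ M₂).Adj lam μ →
      vertexVIter p M₁ M₂ n lam ≤ vertexVIter p M₁ M₂ (n - 1) μ ⊔ C →
        vertexVIter p M₁ M₂ n lam ≤ vertexVIter p M₁ M₂ (n - 1) μ) : False := by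
  have hch := h.1
  set V := vertexVIter p M₁ M₂ n lam with hVdef
  set Gl := MulAction.stabilizer X lam with hGl
  haveI : Finite ↥Gl := (vertex_props hch lam).1
  obtain ⟨μ, hμ⟩ : ∃ μ, (cosetGraph M₁ M₂).Adj lam μ := by
    rcases lam with q | q <;> induction q using QuotientGroup.induction_on with
    | H x => first | exact ⟨_, adj_inl_inr x⟩ | exact ⟨_, (adj_inl_inr x).symm⟩
  set K := pElementClosure p Gl with hK
  have hKG : K ≤ Gl := (closure_le _).2 fun x hx => hx.1
  haveI : Finite ↥K := Finite.of_injective _ (inclusion_injective hKG)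
  haveI : Finite ↥(edgeStabilizer lam μ) := Finite.of_injective _ (inclusion_injective inf_le_left)
  obtain ⟨R⟩ : Nonempty (Sylow p ↥(edgeStabilizer lam μ)) := inferInstance
  obtain ⟨P, hP⟩ := exists_sylow Gl (edgeStabilizer lam μ) inf_le_left R (fun P => edge_card hch hμ R P)
  set T := (P : Subgroup ↥Gl).map Gl.subtype with hT
  have hTμ : T ≤ MulAction.stabilizer X μ := (hP ▸ map_subtype_le _).trans inf_le_right
  have hTK : T ≤ K := sylow_le_closure Gl P
  set U := vertexVIter p M₁ M₂ (n - 1) μ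
  have hUV : U ≤ V := vIter_adj_le hch hμ.symm (by omega)
  set W := U ⊔ C
  have hWV : W ≤ V := sup_le hUV hCV
  set O := (pResidual p ↥K).map K.subtype
  have hKW : K ≤ normalizer (W : Set X) := by
    obtain ⟨P', hP'⟩ : ∃ P' : Sylow p ↥K, (P' : Subgroup ↥K).map K.subtype = T := by
      obtain ⟨P', hP'⟩ := ((P.isPGroup'.map _).comap_subtype : IsPGroup p (T.subgroupOf K)).exists_le_sylow
      haveI : Finite ↥((P' : Subgroup ↥K).map K.subtype) :=
        Finite.of_injective _ (inclusion_injective (map_subtype_le _))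
      refine ⟨P', (eq_of_le_of_card_ge ((map_subgroupOf_eq_of_le hTK).ge.trans (map_mono hP')) ?_).symm⟩
      rw [card_map_of_injective K.subtype_injective, card_map_of_injective Gl.subtype_injective]
      have h1 := (P'.isPGroup'.map K.subtype)
      obtain ⟨P'', hP''⟩ := (h1.comap_subtype : IsPGroup p (((P' : Subgroup ↥K).map K.subtype).subgroupOf Gl)).exists_le_sylow
      calc Nat.card ↥(P' : Subgroup ↥K)
          = Nat.card ↥(((P' : Subgroup ↥K).map K.subtype).subgroupOf Gl) := by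
            rw [Nat.card_congr (subgroupOfEquivOfLe ((map_subtype_le _).trans hKG)).toEquiv,
              card_map_of_injective K.subtype_injective]
        _ ≤ Nat.card ↥(P'' : Subgroup ↥Gl) := Nat.card_le_card_of_injective _ (inclusion_injective hP'')
        _ = Nat.card ↥(P : Subgroup ↥Gl) := by
            rw [P''.card_eq_multiplicity, P.card_eq_multiplicity]
    have hsup : K = O ⊔ T := by
      conv_lhs => rw [← K.range_subtype, MonoidHom.range_eq_map, ← Transfer.pResidual_sup_sylow P']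
      rw [Subgroup.map_sup, hP']
    rw [hsup]
    refine sup_le ?_ (le_normalizer_of_conj fun t ht x hx => ?_)
    · refine le_normalizer_of_conj fun o ho x hx => ?_
      have hc : ⁅x, o⁆ ∈ W := mem_sup_right (hC (commutator_mem_commutator (hWV hx) ho))
      have := W.mul_mem (W.inv_mem hc) hx
      rw [commutatorElement_def] at this
      simpa [mul_assoc] using this
    · have hle : W.map (MulAut.conj t).toMonoidHom ≤ W := by
        rw [Subgroup.map_sup]
        refine sup_le_sup ?_ ?_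
        · rintro _ ⟨y, hy, rfl⟩
          exact (mem_normalizer_iff.1 (le_normalizer_vIter hch (n - 1) μ (hTμ ht)) y).1 hy
        · rintro _ ⟨y, hy, rfl⟩
          exact (mem_normalizer_iff.1 (hCN (hKG (hTK ht))) y).1 hy
      exact hle ⟨x, hx, rfl⟩
  have hVW : V ≤ W := by
    refine vIter_eq hch hn hμ W fun ν hν => ?_
    obtain ⟨g, hg, rfl⟩ := transitive_neighbours hμ hν
    obtain ⟨k, hk, hkν⟩ := closure_transitive h hμ g hg
    rw [← hkν]
    intro y hy
    have h1 := vIter_map hch k⁻¹ (n - 1) (k • μ) ⟨y, hy, rfl⟩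
    rw [inv_smul_smul] at h1
    have h2 := (mem_normalizer_iff.1 (hKW hk) _).1 (mem_sup_left h1 : _ ∈ W)
    simpa [mul_assoc] using h2
  have hVU : V = U := le_antisymm (hCU μ hμ hVW) hUV
  have hVbot : V = ⊥ := by
    refine spe_eq_bot h hμ V ?_ ?_ ?_
    · exact le_inf (hVQ.trans (map_subtype_le _))
        (hVQ.trans ((vertexQ_le_neighbourKernel hch lam).trans (neighbourKernel_le hμ)))
    · exact hKG.trans (le_normalizer_vIter hch n lam)
    · rw [hVU]
      exact ((closure_le _).2 fun x hx => hx.1).trans (le_normalizer_vIter hch (n - 1) μ)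
  -- but `Z_λ` is nontrivial
  have hZ : vertexZ p lam ≤ V :=
    le_iSup_of_le (⟨lam, by simp⟩ : {ρ : CosetVertex M₁ M₂ // (cosetGraph M₁ M₂).dist lam ρ ≤ n}) le_rfl
  have hpd : p ∣ Nat.card ↥Gl := by
    obtain ⟨-, hf1, hf2, hd1, hd2, -, -, -⟩ := hch
    rw [hGl]
    rcases lam with q | q <;> induction q using QuotientGroup.induction_on with
    | H x =>
      first
      | (rw [stabilizer_inl, card_map_of_injective (MulAut.conj x).injective]; exact hd1)
      | (rw [stabilizer_inr, card_map_of_injective (MulAut.conj x).injective]; exact hd2)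
  haveI : Nontrivial ↥(P : Subgroup ↥Gl) := (nontrivial_iff_ne_bot _).2 (P.ne_bot_of_dvd_card hpd)
  haveI := P.isPGroup'.center_nontrivial
  obtain ⟨c, hc⟩ := exists_prime_orderOf_dvd_card' (G := Subgroup.center ↥(P : Subgroup ↥Gl)) p
    ((P.isPGroup'.to_subgroup _).card_eq_or_dvd.resolve_left (Finite.one_lt_card).ne')
  have hcZ : (((c : ↥(P : Subgroup ↥Gl)) : ↥Gl) : X) ∈ omegaZ p T := by
    refine subset_closure ⟨⟨mem_map_of_mem Gl.subtype c.1.2, mem_centralizer_iff.2 ?_⟩, ?_⟩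
    · rintro _ ⟨y, hy, rfl⟩
      exact congrArg (fun z : ↥(P : Subgroup ↥Gl) => ((z : ↥Gl) : X)) (mem_center_iff.1 c.2 ⟨y, hy⟩)
    · have := congrArg (fun z : Subgroup.center ↥(P : Subgroup ↥Gl) => (((z : ↥(P : Subgroup ↥Gl)) : ↥Gl) : X))
        (pow_orderOf_eq_one c)
      rw [hc] at this
      simpa using this
  have h1 := (omegaZ_sylow_le Gl P).trans hZ hcZ
  rw [hVbot, mem_bot] at h1
  have : c = 1 := Subtype.ext (Subtype.ext (Subtype.ext h1))
  rw [this, orderOf_one] at hc
  exact hp.out.one_lt.ne hc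

/-- S2856. -/
theorem not_le_commutator (h : IsSpeAmalgamPair p M₁ M₂) (lam : CosetVertex M₁ M₂) (n : ℕ) (hn : 1 ≤ n)
    (hVQ : vertexVIter p M₁ M₂ n lam ≤ vertexQ p lam) :
    ¬ ⁅vertexVIter p M₁ M₂ n lam, (pResidual p ↥(pElementClosure p (MulAction.stabilizer X lam))).map
      (pElementClosure p (MulAction.stabilizer X lam)).subtype⁆ ≤
      ⁅vertexVIter p M₁ M₂ n lam, vertexQ p lam⁆ := by
  intro hC
  have hch := h.1
  set V := vertexVIter p M₁ M₂ n lam
  set Q := vertexQ p lam with hQdef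
  haveI := (vertex_props hch lam).1
  have hQG : Q ≤ MulAction.stabilizer X lam := map_subtype_le _
  haveI : Finite ↥Q := Finite.of_injective _ (inclusion_injective hQG)
  have hQN : MulAction.stabilizer X lam ≤ normalizer (Q : Set X) := by
    refine le_normalizer_of_conj fun a ha x hx => ?_
    obtain ⟨y, hy, rfl⟩ := hx
    exact ⟨⟨a, ha⟩ * y * ⟨a, ha⟩⁻¹, (Transfer.pCore_normal p).conj_mem y hy _, rfl⟩
  have hVN := le_normalizer_vIter hch n lam
  refine no_cover h lam n hn hVQ ⁅V, Q⁆ hC ?_ ?_ ?_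
  · refine commutator_le.2 fun v hv q hq => ?_
    have := (mem_normalizer_iff.1 (hVN (hQG hq)) v⁻¹).1 (inv_mem hv)
    rw [commutatorElement_def]
    simpa [mul_assoc] using V.mul_mem hv this
  · intro a ha
    refine mem_normalizer_iff.2 fun x => ?_
    have key : ∀ a ∈ MulAction.stabilizer X lam, ∀ x ∈ ⁅V, Q⁆, a * x * a⁻¹ ∈ ⁅V, Q⁆ := by
      intro a ha x hx
      have hle : (⁅V, Q⁆ : Subgroup X).map (MulAut.conj a).toMonoidHom ≤ ⁅V, Q⁆ := by
        rw [Subgroup.map_commutator]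
        refine commutator_mono ?_ ?_
        · rintro _ ⟨y, hy, rfl⟩; exact (mem_normalizer_iff.1 (hVN ha) y).1 hy
        · rintro _ ⟨y, hy, rfl⟩; exact (mem_normalizer_iff.1 (hQN ha) y).1 hy
      exact hle ⟨x, hx, rfl⟩
    exact ⟨key a ha x, fun hx => by simpa [mul_assoc] using key a⁻¹ (inv_mem ha) _ hx⟩
  · intro μ hμ hle
    set U := vertexVIter p M₁ M₂ (n - 1) μ
    have hQμ : Q ≤ MulAction.stabilizer X μ := (vertexQ_le_neighbourKernel hch lam).trans (neighbourKernel_le hμ)
    have hUV : U ≤ V := vIter_adj_le hch hμ.symm (by omega)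
    haveI hUn : (U.subgroupOf Q).Normal := (normal_subgroupOf_iff_le_normalizer (hUV.trans hVQ)).2
      (hQμ.trans (le_normalizer_vIter hch (n - 1) μ))
    haveI : Group.IsNilpotent ↥Q :=
      IsPGroup.isNilpotent (((Solv.isPGroup_pCore (p := p) (G := ↥(MulAction.stabilizer X lam))).map _ : IsPGroup p ↥Q))
    have := eq_of_sup_commutator (U.subgroupOf Q) (V.subgroupOf Q) ?_
    · intro v hv
      exact this (show (⟨v, hVQ hv⟩ : ↥Q) ∈ V.subgroupOf Q from hv)
    · refine (map_le_map_iff_of_injective Q.subtype_injective).1 ?_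
      rw [Subgroup.map_sup, Subgroup.map_commutator, map_subgroupOf_eq_of_le hVQ,
        map_subgroupOf_eq_of_le (hUV.trans hVQ), ← MonoidHom.range_eq_map, range_subtype]
      exact hle

/-- S2857. -/
theorem not_le_prev (h : IsSpeAmalgamPair p M₁ M₂) (lam : CosetVertex M₁ M₂) (n : ℕ) (hn : 2 ≤ n)
    (hVQ : vertexVIter p M₁ M₂ n lam ≤ vertexQ p lam) :
    ¬ ⁅vertexVIter p M₁ M₂ n lam, (pResidual p ↥(pElementClosure p (MulAction.stabilizer X lam))).map
      (pElementClosure p (MulAction.stabilizer X lam)).subtype⁆ ≤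
      vertexVIter p M₁ M₂ (n - 2) lam := by
  intro hC
  have hch := h.1
  refine no_cover h lam n (by omega) hVQ _ hC ?_ (le_normalizer_vIter hch _ lam) fun μ hμ hle => ?_
  · exact iSup_le fun ν => le_iSup_of_le
      (⟨ν.1, ν.2.trans (Nat.sub_le n 2)⟩ : {ρ : CosetVertex M₁ M₂ // (cosetGraph M₁ M₂).dist lam ρ ≤ n}) le_rfl
  · exact hle.trans (sup_le le_rfl (vIter_adj_le hch hμ (by omega)))

end Cfsg.Lib.PLocal.AmalgamIter
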