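import Mathlib
import Cfsg.Prelude.Def_OddOrder
import Cfsg.Prelude.Def_OddOrderLocal
import Cfsg.Agent.Lib.Characters.CN.Structure
import Cfsg.Agent.Lib.Solv.FrobeniusComplement
import Cfsg.Agent.Lib.Solv.Cores
import Cfsg.Agent.Lib.PLocal.ClosedConjugates

/-!
CN-groups: maximal nilpotent subgroups, quotients, minimal simple CN-groups of odd order.
-/

set_option autoImplicit false
set_option linter.style.haveILetI false
set_option linter.unusedSectionVars false
set_option maxHeartbeats 800000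

open scoped Pointwise

namespace Cfsg.Lib.PLocal.CNGroups

open Cfsg Subgroup Cfsg.Lib.PLocal.Closed
open Cfsg.Lib.CNOdd (mem_cen pow_of_mem exists_sylow_mem exists_center mem_of_nilpotent
  commute_of_cen zpowers_isPGroup isNilpotent_map)

universe u

variable {G : Type u} [Group G] [Finite G]

/-- Maximal among the nilpotent subgroups. -/
def MaxNil (H : Subgroup G) : Prop :=
  Group.IsNilpotent H ∧ ∀ L : Subgroup G, Group.IsNilpotent L → H ≤ L → L = H

/-- The conjugates meet trivially. -/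
def MeetsTrivially (H : Subgroup G) : Prop :=
  ∀ g : G, H.map (MulAut.conj g).toMonoidHom ≠ H → H ⊓ H.map (MulAut.conj g).toMonoidHom = ⊥

theorem ne_one_of_order {p : ℕ} (hp : p.Prime) {z : G} (hz : orderOf z = p) : z ≠ 1 := fun e => by
  rw [e, orderOf_one] at hz; exact hp.one_lt.ne hz

theorem part_order (u : G) {r : ℕ} (_hr : r.Prime) :
    orderOf (u ^ ordCompl[r] (orderOf u)) = r ^ (orderOf u).factorization r := by
  rw [orderOf_pow_of_dvd (Nat.ordCompl_pos r (orderOf_pos u).ne').ne' (Nat.ordCompl_dvd _ _),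
    Nat.div_div_self (Nat.ordProj_dvd _ _) (orderOf_pos u).ne']

theorem exists_maxNil (L : Subgroup G) (hL : Group.IsNilpotent L) : ∃ H, L ≤ H ∧ MaxNil H := by
  obtain ⟨H, ⟨hH, hLH⟩, hmax⟩ :=
    (Set.toFinite {H : Subgroup G | Group.IsNilpotent H ∧ L ≤ H}).exists_maximal ⟨L, hL, le_rfl⟩
  exact ⟨H, hLH, hH, fun K hK h => le_antisymm (hmax ⟨hK, hLH.trans h⟩ h) h⟩

theorem nilpotent_zpowers (x : G) : Group.IsNilpotent (zpowers x) :=
  letI := IsCyclic.commGroup (α := zpowers x)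
  CommGroup.isNilpotent

theorem MaxNil.conj {H : Subgroup G} (hH : MaxNil H) (g : G) : MaxNil (cj g H) := by
  refine ⟨isNilpotent_map hH.1 _, fun L hL hle => ?_⟩
  have h1 : cj g⁻¹ L = H := hH.2 _ (isNilpotent_map hL _) (by
    conv_lhs => rw [← cj_inv_cj g H]
    exact cj_mono _ hle)
  rw [← h1, cj_cj_inv]

theorem MaxNil.ne_bot [Nontrivial G] {H : Subgroup G} (hH : MaxNil H) : H ≠ ⊥ := by
  rintro rfl
  obtain ⟨x, hx⟩ := exists_ne (1 : G)
  have := hH.2 (zpowers x) (nilpotent_zpowers x) bot_le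
  exact hx (by simpa [zpowers_eq_bot] using this)

theorem exists_center_prime {p : ℕ} [hp : Fact p.Prime] (P : Sylow p G) (hP : (P : Subgroup G) ≠ ⊥) :
    ∃ z ∈ (P : Subgroup G), orderOf z = p ∧ ∀ a ∈ (P : Subgroup G), Commute a z := by
  obtain ⟨z, hzP, hz1, hzc⟩ := exists_center P hP
  obtain ⟨i, hi⟩ := pow_of_mem P.2 hzP
  obtain ⟨j, rfl⟩ : ∃ j, i = j + 1 := Nat.exists_eq_succ_of_ne_zero fun e => hz1 (by
    rw [e, pow_zero] at hi; exact orderOf_eq_one_iff.1 hi)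
  refine ⟨z ^ p ^ j, pow_mem hzP _, ?_, fun a ha => (hzc a ha).pow_right _⟩
  rw [orderOf_pow_of_dvd (pow_ne_zero _ hp.out.ne_zero) (hi ▸ pow_dvd_pow p j.le_succ), hi,
    pow_succ, Nat.mul_div_cancel_left _ (pow_pos hp.out.pos j)]

/-- A central element of a Sylow subgroup of a nilpotent subgroup is central in it. -/
theorem central_of_sylow {H : Subgroup G} (hH : Group.IsNilpotent H) {p : ℕ} [hp : Fact p.Prime]
    (P : Sylow p G) (hPH : (P : Subgroup G) ≤ H) {w : G} (hwP : w ∈ (P : Subgroup G))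
    (hwc : ∀ a ∈ (P : Subgroup G), Commute a w) : ∀ h ∈ H, Commute h w := by
  intro u hu
  refine mem_cen.1 (Transfer.mem_of_forall_pow_ordCompl_mem fun r hr => mem_cen.2 ?_)
  by_cases hrp : r = p
  · subst hrp
    exact hwc _ (mem_of_nilpotent hH P hPH (pow_mem hu _) (part_order u hr))
  · obtain ⟨j, hj⟩ := pow_of_mem P.2 hwP
    exact Solv.commute_of_nilpotent_subgroup hH hr hp.out hrp (pow_mem hu _) (hPH hwP)
      (part_order u hr) hj

theorem exists_central {H : Subgroup G} (hH : Group.IsNilpotent H) {p : ℕ} [hp : Fact p.Prime]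
    (hpH : p ∣ Nat.card H) : ∃ z ∈ H, orderOf z = p ∧ ∀ h ∈ H, Commute h z := by
  obtain ⟨P⟩ : Nonempty (Sylow p H) := inferInstance
  obtain ⟨z, hzP, hz, hzc⟩ := exists_center_prime P (P.ne_bot_of_dvd_card hpH)
  refine ⟨z, z.2, by rw [Subgroup.orderOf_coe]; exact hz, fun h hh => ?_⟩
  exact (central_of_sylow (G := H) ((Group.isNilpotent_congr Subgroup.topEquiv).2 hH) P le_top hzP
    hzc ⟨h, hh⟩ (mem_top _)).map H.subtype

theorem cen_eq (h : IsCNGroup G) {H : Subgroup G} (hH : MaxNil H) {z : G} (hz1 : z ≠ 1)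
    (hzc : ∀ a ∈ H, Commute a z) : centralizer ({z} : Set G) = H :=
  hH.2 _ (h z hz1) fun a ha => mem_cen.2 (hzc a ha)

theorem sylow_le (h : IsCNGroup G) {H : Subgroup G} (hH : MaxNil H) {p : ℕ} [hp : Fact p.Prime]
    (hpH : p ∣ Nat.card H) : ∃ P : Sylow p G, (P : Subgroup G) ≤ H := by
  by_cases hq : ∀ q : ℕ, q.Prime → q ∣ Nat.card H → q = p
  · obtain ⟨P, hP⟩ := (IsPGroup.of_card (p := p) (Nat.eq_prime_pow_of_unique_prime_dvd
      Nat.card_pos.ne' fun {d} hd hdd => hq d hd hdd) : IsPGroup p H).exists_le_sylow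
    exact ⟨P, (hH.2 _ P.2.isNilpotent hP).le⟩
  push Not at hq
  obtain ⟨q, hq, hqH, hqp⟩ := hq
  have := Fact.mk hq
  obtain ⟨z, hzH, hz, hzc⟩ := exists_central hH.1 hpH
  obtain ⟨y, hyH, hy, hyc⟩ := exists_central hH.1 hqH
  obtain ⟨P, hzP⟩ := exists_sylow_mem (hz.trans (pow_one p).symm)
  obtain ⟨w, hwP, hw, hwc⟩ := exists_center_prime P fun e => ne_one_of_order hp.out hz (by
    rw [e, mem_bot] at hzP; exact hzP)
  have hwH : w ∈ H := (cen_eq h hH (ne_one_of_order hp.out hz) hzc).le (mem_cen.2 (hwc z hzP).symm)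
  refine ⟨P, fun a ha => ?_⟩
  obtain ⟨i, hi⟩ := pow_of_mem P.2 ha
  exact (cen_eq h hH (ne_one_of_order hq hy) hyc).le (mem_cen.2
    (commute_of_cen h (ne_one_of_order hp.out hw) hqp.symm (hwc a ha) (hyc w hwH).symm hi
      (hy.trans (pow_one q).symm)))

theorem hall (h : IsCNGroup G) {H : Subgroup G} (hH : MaxNil H) : (Nat.card H).Coprime H.index := by
  refine Nat.coprime_of_dvd fun p hp hpH hpi => ?_
  have := Fact.mk hp
  obtain ⟨P, hP⟩ := sylow_le h hH hpH
  exact P.not_dvd_index (hpi.trans (index_dvd_of_le hP))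

theorem eq_of_sylow (h : IsCNGroup G) {H₁ H₂ : Subgroup G} (h₁ : MaxNil H₁) (h₂ : MaxNil H₂)
    {p : ℕ} [hp : Fact p.Prime] (P : Sylow p G) (hP : (P : Subgroup G) ≠ ⊥)
    (hP₁ : (P : Subgroup G) ≤ H₁) (hP₂ : (P : Subgroup G) ≤ H₂) : H₁ = H₂ := by
  obtain ⟨w, hwP, hw, hwc⟩ := exists_center_prime P hP
  rw [← cen_eq h h₁ (ne_one_of_order hp.out hw) (central_of_sylow h₁.1 P hP₁ hwP hwc),
    ← cen_eq h h₂ (ne_one_of_order hp.out hw) (central_of_sylow h₂.1 P hP₂ hwP hwc)]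

theorem conj_of_common_prime (h : IsCNGroup G) {H₁ H₂ : Subgroup G} (h₁ : MaxNil H₁)
    (h₂ : MaxNil H₂) {p : ℕ} [hp : Fact p.Prime] (hp₁ : p ∣ Nat.card H₁) (hp₂ : p ∣ Nat.card H₂) :
    ∃ g : G, H₂ = cj g H₁ := by
  obtain ⟨P₁, hP₁⟩ := sylow_le h h₁ hp₁
  obtain ⟨P₂, hP₂⟩ := sylow_le h h₂ hp₂
  obtain ⟨g, hg⟩ := MulAction.exists_smul_eq G P₁ P₂
  refine ⟨g, eq_of_sylow h h₂ (h₁.conj g) P₂
    (P₂.ne_bot_of_dvd_card (hp₂.trans (card_subgroup_dvd_card _))) hP₂ ?_⟩
  rw [← hg]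
  exact cj_mono g hP₁

theorem conj_or_coprime (h : IsCNGroup G) {H₁ H₂ : Subgroup G} (h₁ : MaxNil H₁) (h₂ : MaxNil H₂) :
    (∃ g : G, H₂ = H₁.map (MulAut.conj g).toMonoidHom) ∨ (Nat.card H₁).Coprime (Nat.card H₂) :=
  or_iff_not_imp_right.2 fun hc => by
    obtain ⟨p, hp, hp1, hp2⟩ := Nat.Prime.not_coprime_iff_dvd.1 hc
    haveI := Fact.mk hp
    exact conj_of_common_prime h h₁ h₂ hp1 hp2

theorem commuting_transitive (h : IsCNGroup G) (p q r : ℕ) (hp : p.Prime) (hq : q.Prime)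
    (hr : r.Prime) (x y y' z : G) (hx1 : x ≠ 1) (hy1 : y ≠ 1) (hy'1 : y' ≠ 1) (hz1 : z ≠ 1)
    (hx : IsPGroup p (zpowers x)) (hy : IsPGroup q (zpowers y)) (hy' : IsPGroup q (zpowers y'))
    (hz : IsPGroup r (zpowers z)) (hxy : x * y = y * x) (hyz : y' * z = z * y') :
    ∃ x' z' : G, x' ≠ 1 ∧ z' ≠ 1 ∧ IsPGroup p (zpowers x') ∧ IsPGroup r (zpowers z') ∧
      x' * z' = z' * x' := by
  by_cases hpr : p = r
  · subst hpr
    exact ⟨x, x, hx1, hx1, hx, hx, rfl⟩
  haveI := Fact.mk hp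
  haveI := Fact.mk hq
  haveI := Fact.mk hr
  obtain ⟨H₁, hle₁, h₁⟩ := exists_maxNil _ (h x hx1)
  obtain ⟨H₂, hle₂, h₂⟩ := exists_maxNil _ (h y' hy'1)
  have hdvd : ∀ (H : Subgroup G) (a : G), a ∈ H → a ≠ 1 → IsPGroup q (zpowers a) →
      q ∣ Nat.card H := by
    intro H a ha ha1 hq'
    obtain ⟨i, hi⟩ := pow_of_mem hq' (mem_zpowers a)
    have hi0 : i ≠ 0 := fun e => ha1 (by rw [e, pow_zero] at hi; exact orderOf_eq_one_iff.1 hi)
    exact ((dvd_pow_self q hi0).trans hi.symm.dvd).trans (Subgroup.orderOf_dvd_natCard _ ha)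
  obtain ⟨g, hg⟩ := conj_of_common_prime h h₁ h₂ (p := q)
    (hdvd H₁ y (hle₁ (mem_cen.2 hxy.symm)) hy1 hy) (hdvd H₂ y' (hle₂ (mem_cen.2 rfl)) hy'1 hy')
  obtain ⟨i, hi⟩ := pow_of_mem hx (mem_zpowers x)
  obtain ⟨j, hj⟩ := pow_of_mem hz (mem_zpowers z)
  have hxo : orderOf (g * x * g⁻¹) = p ^ i :=
    (orderOf_injective (MulAut.conj g).toMonoidHom (MulEquiv.injective _) x).trans hi
  refine ⟨g * x * g⁻¹, z, fun e => hx1 (conj_eq_one_iff.1 e), hz1, zpowers_isPGroup hxo, hz, ?_⟩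
  refine (Solv.commute_of_nilpotent_subgroup h₂.1 hp hr hpr ?_ (hle₂ (mem_cen.2 hyz.symm)) hxo hj).eq
  rw [hg]
  exact mem_map_of_mem _ (hle₁ (mem_cen.2 rfl))

theorem meetsTrivially_of_not_primePow (h : IsCNGroup G) {H : Subgroup G} (hH : MaxNil H)
    (hnp : ¬ IsPrimePow (Nat.card H)) : MeetsTrivially H := by
  intro g hg
  by_contra hne
  obtain ⟨x, hx, hx1⟩ := (Subgroup.bot_or_exists_ne_one _).resolve_left hne
  obtain ⟨p, hp, hpx⟩ := Nat.exists_prime_and_dvd (n := orderOf x)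
    fun e => hx1 (orderOf_eq_one_iff.1 e)
  haveI := Fact.mk hp
  set x' := x ^ (orderOf x / p)
  have hx' : orderOf x' = p := by
    rw [orderOf_pow_of_dvd (Nat.div_pos (Nat.le_of_dvd (orderOf_pos x) hpx) hp.pos).ne'
      (Nat.div_dvd_of_dvd hpx), Nat.div_div_self hpx (orderOf_pos x).ne']
  have hx'H : x' ∈ H := pow_mem hx.1 _
  have hx'g : x' ∈ cj g H := pow_mem hx.2 _
  have hpH : p ∣ Nat.card H := hx' ▸ Subgroup.orderOf_dvd_natCard _ hx'H
  obtain ⟨q, hq, hqH, hqp⟩ : ∃ q : ℕ, q.Prime ∧ q ∣ Nat.card H ∧ q ≠ p := by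
    by_contra hcon
    push Not at hcon
    refine hnp ?_
    obtain e := Nat.eq_prime_pow_of_unique_prime_dvd (p := p) Nat.card_pos.ne' fun {d} hd hdd => hcon d hd hdd
    rw [e]
    refine (hp.isPrimePow).pow fun h0 => hp.ne_one (Nat.dvd_one.1 ?_)
    rw [h0, pow_zero] at e
    exact e ▸ hpH
  haveI := Fact.mk hq
  obtain ⟨Q, hQ⟩ := sylow_le h hH hqH
  have hQ' : ((g • Q : Sylow q G) : Subgroup G) ≤ cj g H := cj_mono g hQ
  have hle : ((g • Q : Sylow q G) : Subgroup G) ≤ (Q : Subgroup G) := fun a ha => by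
    obtain ⟨i, hi⟩ := pow_of_mem (g • Q).2 ha
    refine mem_of_nilpotent (h x' (ne_one_of_order hp hx')) Q (fun b hb => ?_) ?_ hi
    · obtain ⟨j, hj⟩ := pow_of_mem Q.2 hb
      exact mem_cen.2 (Solv.commute_of_nilpotent_subgroup hH.1 hq hp hqp (hQ hb) hx'H hj
        (hx'.trans (pow_one p).symm))
    · exact mem_cen.2 (Solv.commute_of_nilpotent_subgroup (hH.conj g).1 hq hp hqp (hQ' ha) hx'g hi
        (hx'.trans (pow_one p).symm))
  have heq : (g • Q : Sylow q G) = Q := Sylow.ext ((g • Q).3 Q.2 hle).symm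
  exact hg (eq_of_sylow h hH (hH.conj g) Q
    (Q.ne_bot_of_dvd_card (hqH.trans (card_subgroup_dvd_card _))) hQ (by rw [← heq]; exact hQ')).symm

/-- A normalizing element of prime power order for a prime of `H` lies in `H`. -/
theorem mem_of_normalizes {H : Subgroup G} (hcop : (Nat.card H).Coprime H.index) {c : G}
    (hc : c ∈ normalizer (H : Set G)) {r i : ℕ} (hr : r ∣ Nat.card H) (ho : orderOf c = r ^ i) :
    c ∈ H := by
  have h1 : c ^ H.relIndex (normalizer (H : Set G)) ∈ H :=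
    Subgroup.pow_index_mem (H.subgroupOf (normalizer (H : Set G))) ⟨c, hc⟩
  have h2 : (H.relIndex (normalizer (H : Set G))).Coprime (orderOf c) := by
    rw [ho]
    exact ((hcop.coprime_dvd_left hr).symm.pow_right i).coprime_dvd_left
      (relIndex_dvd_index_of_le le_normalizer)
  obtain ⟨m, hm⟩ := exists_pow_eq_self_of_coprime h2
  exact hm ▸ pow_mem h1 m

theorem cen_le_of_meetsTrivially (h : IsCNGroup G) {H : Subgroup G} (hH : MaxNil H)
    (hTI : MeetsTrivially H) {x : G} (hx : x ∈ H) (hx1 : x ≠ 1) :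
    centralizer ({x} : Set G) ≤ H := by
  intro c hc
  have hcN : c ∈ normalizer (H : Set G) := cj_eq_self_iff.1 (by
    by_contra hne
    have h2 : x ∈ H ⊓ H.map (MulAut.conj c).toMonoidHom := ⟨hx, x, hx, by
      show c * x * c⁻¹ = x
      rw [(mem_cen.1 hc).eq, mul_inv_cancel_right]⟩
    rw [hTI c hne, mem_bot] at h2
    exact hx1 h2)
  refine Transfer.mem_of_forall_pow_ordCompl_mem fun r hr => ?_
  haveI := Fact.mk hr
  by_cases hrH : r ∣ Nat.card H
  · exact mem_of_normalizes (hall h hH) (pow_mem hcN _) hrH (part_order c hr)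
  · obtain ⟨p, hp, hpH⟩ := Nat.exists_prime_and_dvd (n := Nat.card H)
      (fun e => hx1 (by rw [Subgroup.eq_bot_of_card_eq H e, mem_bot] at hx; exact hx))
    haveI := Fact.mk hp
    obtain ⟨z, hzH, hz, hzc⟩ := exists_central hH.1 hpH
    exact (cen_eq h hH (ne_one_of_order hp hz) hzc).le (mem_cen.2
      (commute_of_cen h hx1 (fun e => hrH (by rw [e]; exact hpH)) ((mem_cen.1 hc).pow_left _)
        (hzc x hx).symm (part_order c hr) (hz.trans (pow_one p).symm)))

theorem eq_of_mem (h : IsCNGroup G) {H₁ H₂ : Subgroup G} (h₁ : MaxNil H₁) (h₂ : MaxNil H₂)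
    (hTI : MeetsTrivially H₂) {x : G} (hx₁ : x ∈ H₁) (hx₂ : x ∈ H₂) (hx1 : x ≠ 1) : H₁ = H₂ := by
  obtain ⟨p, hp, hpH⟩ := Nat.exists_prime_and_dvd (n := Nat.card H₁)
    (fun e => hx1 (by rw [Subgroup.eq_bot_of_card_eq H₁ e, mem_bot] at hx₁; exact hx₁))
  haveI := Fact.mk hp
  obtain ⟨z, hzH, hz, hzc⟩ := exists_central h₁.1 hpH
  have hz2 : z ∈ H₂ := cen_le_of_meetsTrivially h h₂ hTI hx₂ hx1 (mem_cen.2 (hzc x hx₁).symm)
  exact (h₁.2 H₂ h₂.1 ((cen_eq h h₁ (ne_one_of_order hp hz) hzc).ge.trans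
    (cen_le_of_meetsTrivially h h₂ hTI hz2 (ne_one_of_order hp hz)))).symm

/-- The statement on maximal nilpotent subgroups. -/
theorem maxNil_props (h : IsCNGroup G) (H : Subgroup G) (hH : MaxNil H) :
    (Nat.card H).Coprime H.index ∧
      (¬ IsPrimePow (Nat.card H) → Nat.card H ≠ 1 → MeetsTrivially H) ∧
      (MeetsTrivially H → ∀ x ∈ H, x ≠ 1 → centralizer ({x} : Set G) ≤ H) :=
  ⟨hall h hH, fun hn _ => meetsTrivially_of_not_primePow h hH hn,
    fun hTI _ hx hx1 => cen_le_of_meetsTrivially h hH hTI hx hx1⟩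

/-! ### Quotients -/

theorem isCN_of_equiv {G' : Type u} [Group G'] [Finite G'] (e : G ≃* G') (h : IsCNGroup G) :
    IsCNGroup G' := by
  intro x hx
  refine Solv.isNilpotent_of_le (K := (centralizer ({e.symm x} : Set G)).map e.toMonoidHom) ?_
    (isNilpotent_map (h _ fun he => hx (e.symm.map_eq_one_iff.1 he)) _)
  intro y hy
  exact ⟨e.symm y, mem_cen.2 ((mem_cen.1 hy).map e.symm.toMonoidHom), e.apply_symm_apply y⟩

theorem isCN_quotient_solvable : ∀ (n : ℕ) (G : Type u) [Group G] [Finite G], Nat.card G ≤ n →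
    IsCNGroup G → ∀ (H : Subgroup G) [H.Normal], Group.IsSolvable H → IsCNGroup (G ⧸ H) := by
  intro n
  induction n with
  | zero => intro G _ _ hn; exact absurd hn (Nat.card_pos (α := G)).not_ge
  | succ n ih =>
  intro G _ _ hn h H _ hH
  by_cases hb : H = ⊥
  · exact isCN_of_equiv ((QuotientGroup.quotientBot (G := G)).symm.trans
      (QuotientGroup.quotientMulEquivOfEq hb.symm)) h
  obtain ⟨R, hRn, hRH, hR1, hmin⟩ := Solv.exists_minimal_normal_le hb
  haveI := hRn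
  obtain ⟨-, p, hp, hRp, -⟩ := Solv.minimal_normal_elementary hR1 (Solv.solvable_of_le hRH hH) hmin
  haveI := Fact.mk hp
  have hlt : Nat.card (G ⧸ R) ≤ n := by
    have h1 := R.card_eq_card_quotient_mul_card_subgroup
    have h2 : 1 < Nat.card R := R.one_lt_card_iff_ne_bot.mpr hR1
    have h3 : Nat.card (G ⧸ R) < Nat.card G := by
      rw [h1]; exact lt_mul_of_one_lt_right Nat.card_pos h2
    omega
  have hs : Group.IsSolvable (H.map (QuotientGroup.mk' R)) :=
    haveI := hH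
    Group.isSolvable_of_surjective ((QuotientGroup.mk' R).subgroupMap_surjective H)
  exact isCN_of_equiv (QuotientGroup.quotientQuotientEquivQuotient R H hRH)
    (ih (G ⧸ R) hlt (CNOdd.isCN_quotient h hRp hR1) (H.map (QuotientGroup.mk' R)) hs)

/-! ### Complements -/

theorem complement_of_meetsTrivially (h : IsCNGroup G) {H : Subgroup G} (hH : MaxNil H)
    (hH1 : H ≠ ⊥) (hTI : MeetsTrivially H) (hlt : H < normalizer (H : Set G)) :
    ∃ E : Subgroup G, IsComplIn H E (normalizer (H : Set G)) ∧ E ≠ ⊥ ∧ Group.IsNilpotent E ∧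
      ∀ e ∈ E, e ≠ 1 → H ⊓ centralizer ({e} : Set G) = ⊥ := by
  set N := normalizer (H : Set G)
  have hcop : (Nat.card (H.subgroupOf N)).Coprime (H.subgroupOf N).index := by
    rw [Nat.card_congr (subgroupOfEquivOfLe le_normalizer).toEquiv]
    exact (hall h hH).coprime_dvd_right (relIndex_dvd_index_of_le le_normalizer)
  obtain ⟨E₀, hE₀⟩ := exists_right_complement'_of_coprime (N := H.subgroupOf N) hcop
  have hfpf₀ : ∀ e ∈ E₀, e ≠ 1 → H.subgroupOf N ⊓ centralizer ({e} : Set N) = ⊥ := by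
    intro e he he1
    refine (Subgroup.eq_bot_iff_forall _).2 fun k hk => ?_
    by_contra hk1
    have h2 : (e : G) ∈ H := cen_le_of_meetsTrivially h hH hTI hk.1 (fun e' => hk1 (Subtype.ext e'))
      (mem_cen.2 ((mem_cen.1 hk.2).symm.map N.subtype))
    exact he1 (mem_bot.1 (hE₀.disjoint.le_bot ⟨mem_subgroupOf.2 h2, he⟩))
  have hHb : H.subgroupOf N ≠ ⊥ := fun e => hH1 (by
    rw [← map_subgroupOf_eq_of_le (le_normalizer : H ≤ N), e, Subgroup.map_bot])
  have hE1 : E₀ ≠ ⊥ := fun e => hlt.ne (le_antisymm le_normalizer (subgroupOf_eq_top.1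
    (Subgroup.isComplement'_bot_right.1 (e ▸ hE₀))))
  obtain ⟨V, hV, hVc, hVn, hVf⟩ :=
    Solv.FrobCompl.exists_abelian_fpf _ E₀ hE₀ hHb hE1 hfpf₀
  haveI := hVc
  have hcen := Solv.FrobCompl.center_ne_bot hV hE1 hVn hVf
  obtain ⟨z, hz, hz1⟩ := (Subgroup.bot_or_exists_ne_one _).resolve_left hcen
  have hnil : Group.IsNilpotent (E₀.map N.subtype) := by
    refine Solv.isNilpotent_of_le ?_ (h ((z : N) : G) fun e => hz1 (Subtype.ext (Subtype.ext e)))
    rintro _ ⟨e, he, rfl⟩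
    exact mem_cen.2 (congrArg (fun t : E₀ => ((t : N) : G)) (mem_center_iff.1 hz ⟨e, he⟩))
  refine ⟨E₀.map N.subtype, ⟨le_normalizer, map_subtype_le _, ?_, ?_⟩, ?_, hnil, ?_⟩
  · refine (Subgroup.eq_bot_iff_forall _).2 ?_
    rintro _ ⟨hx, e, he, rfl⟩
    exact congrArg N.subtype (mem_bot.1 (hE₀.disjoint.le_bot ⟨mem_subgroupOf.2 hx, he⟩))
  · intro m hm
    obtain ⟨a, ha, b, hb, hab⟩ := mem_sup_of_normal_left.1 (hE₀.sup_eq_top.ge (mem_top (⟨m, hm⟩ : N)))
    exact ⟨a, ha, b, mem_map_of_mem _ hb, (congrArg Subtype.val hab).symm⟩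
  · exact fun e => hE1 ((map_eq_bot_iff_of_injective _ N.subtype_injective).1 e)
  · rintro _ ⟨e, he, rfl⟩ he1
    refine (Subgroup.eq_bot_iff_forall _).2 fun k hk => ?_
    have hkN : k ∈ N := le_normalizer hk.1
    have h2 := hfpf₀ e he fun e' => he1 (congrArg N.subtype e')
    have h3 : (⟨k, hkN⟩ : N) ∈ H.subgroupOf N ⊓ centralizer ({e} : Set N) :=
      ⟨mem_subgroupOf.2 hk.1, mem_cen.2 (Subtype.ext (mem_cen.1 hk.2))⟩
    rw [h2, mem_bot] at h3
    exact congrArg Subtype.val h3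

theorem fittingHall_eq (H : Subgroup G) [H.Normal] (hH : MaxNil H)
    (hcop : (Nat.card H).Coprime H.index) : fittingHall G = H := by
  refine le_antisymm (sSup_le fun N hN => ?_) (le_sSup ⟨inferInstance, hH.1, hcop⟩)
  have hF := hH.2 (fittingSubgroup G) Solv.fitting_isNilpotent (Solv.le_fitting inferInstance hH.1)
  exact (Solv.le_fitting hN.1 hN.2.1).trans hF.le

theorem normal_sylow_structure (h : IsCNGroup G) (hnn : ¬ Group.IsNilpotent G) {p : ℕ}
    [Fact p.Prime] (P : Sylow p G) (hP1 : (P : Subgroup G) ≠ ⊥) (hPn : (P : Subgroup G).Normal) :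
    fittingHall G ≠ ⊥ ∧ fittingHall G ≠ ⊤ ∧
      (∃ E : Subgroup G, IsComplement' (fittingHall G) E ∧ IsFrobeniusComplement E ∧
        ∀ e ∈ E, e ≠ 1 → fittingHall G ⊓ centralizer ({e} : Set G) = ⊥) ∧
      Group.IsNilpotent (G ⧸ fittingHall G) := by
  obtain ⟨H, hPH, hH⟩ := exists_maxNil (P : Subgroup G) P.2.isNilpotent
  have hconj : ∀ g : G, cj g H = H := fun g => (eq_of_sylow h hH (hH.conj g) P hP1 hPH
    fun x hx => ⟨g⁻¹ * x * g, hPH (by simpa using hPn.conj_mem x hx g⁻¹), by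
      simp [MulAut.conj_apply, mul_assoc]⟩).symm
  haveI : H.Normal := normalizer_eq_top_iff.1 (eq_top_iff.2 fun g _ => cj_eq_self_iff.1 (hconj g))
  have hTI : MeetsTrivially H := fun g hg => absurd (hconj g) hg
  have hF := fittingHall_eq H hH (hall h hH)
  have hH1 : H ≠ ⊥ := ne_bot_of_le_ne_bot hP1 hPH
  have hH2 : H ≠ ⊤ := fun e => hnn ((Group.isNilpotent_congr Subgroup.topEquiv).1 (e ▸ hH.1))
  have hN : normalizer (H : Set G) = ⊤ := normalizer_eq_top_iff.2 inferInstance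
  obtain ⟨E, ⟨-, -, hd, hmul⟩, hE1, hEn, hfpf⟩ :=
    complement_of_meetsTrivially h hH hH1 hTI (by rw [hN]; exact hH2.lt_top)
  have hc : IsComplement' H E := by
    refine isComplement'_of_disjoint_and_mul_eq_univ (disjoint_iff.2 hd) (Set.eq_univ_of_forall fun m => ?_)
    obtain ⟨a, ha, b, hb, rfl⟩ := hmul m (hN ▸ mem_top m)
    exact Set.mul_mem_mul ha hb
  subst hF
  refine ⟨hH1, hH2, ⟨E, hc, Solv.isFrobeniusComplement_of_fpf hc hH1 hE1 hfpf, hfpf⟩, ?_⟩
  haveI := hEn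
  refine Group.nilpotent_of_surjective ((QuotientGroup.mk' (fittingHall G)).comp E.subtype) fun q => ?_
  obtain ⟨m, rfl⟩ := QuotientGroup.mk'_surjective (fittingHall G) q
  obtain ⟨a, ha, b, hb, rfl⟩ := hmul m (hN ▸ mem_top m)
  refine ⟨⟨b, hb⟩, ?_⟩
  rw [map_mul, show QuotientGroup.mk' (fittingHall G) a = 1 from (QuotientGroup.eq_one_iff a).2 ha, one_mul]
  rfl

/-! ### Minimal simple CN-groups of odd order -/

theorem map_le_normalizer {M : Subgroup G} (R : Subgroup M) [R.Normal] :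
    M ≤ normalizer ((R.map M.subtype : Subgroup G) : Set G) := by
  refine le_trans ?_ (le_normalizer_map (H := R) M.subtype)
  rw [normalizer_eq_top_iff.2 (inferInstance : R.Normal), ← MonoidHom.range_eq_map, range_subtype]

section Simple

variable (hG : IsMinSimpleOddOrder G) (h : IsCNGroup G)
include hG h

theorem nontrivial' : Nontrivial G :=
  haveI := hG.2.1
  inferInstance

theorem meetsTrivially {H : Subgroup G} (hH : MaxNil H) : MeetsTrivially H := by
  by_cases hpp : IsPrimePow (Nat.card H)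
  swap
  · exact meetsTrivially_of_not_primePow h hH hpp
  obtain ⟨p, k, hp, hk, hcard⟩ := (isPrimePow_nat_iff _).1 hpp
  haveI := Fact.mk hp
  obtain ⟨P, hP⟩ := sylow_le h hH (p := p) (hcard ▸ dvd_pow_self p hk.ne')
  have hPe : (P : Subgroup G) = H := (P.3 (IsPGroup.of_card hcard.symm) hP).symm
  intro g hg
  by_contra hne
  refine hg ?_
  have hsimple : ∀ N : Subgroup G, N.Normal → N ≠ ⊥ → N = ⊤ := fun N hN hb =>
    (hG.2.1.eq_bot_or_eq_top_of_normal N hN).resolve_left hb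
  have heq := CNOdd.sylow_TI_all h hG.1 hsimple hG.2.2.2 P (g • P) (by
    rw [Sylow.coe_subgroup_smul]
    show (P : Subgroup G) ⊓ (P : Subgroup G).map (MulAut.conj g).toMonoidHom ≠ ⊥
    rwa [hPe])
  have h2 := congrArg Sylow.toSubgroup heq
  rw [Sylow.coe_subgroup_smul] at h2
  rw [← hPe]
  exact h2.symm

theorem ne_top {H : Subgroup G} (hH : Group.IsNilpotent H) : H ≠ ⊤ := by
  rintro rfl
  haveI := nontrivial' hG h
  obtain ⟨p, hp, hpG⟩ := Nat.exists_prime_and_dvd (n := Nat.card (⊤ : Subgroup G))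
    (by rw [Subgroup.card_top]; exact Finite.one_lt_card.ne')
  haveI := Fact.mk hp
  obtain ⟨z, -, hz, hzc⟩ := exists_central hH hpG
  have hc : center G = ⊤ := (hG.2.1.eq_bot_or_eq_top_of_normal (center G) inferInstance).resolve_left
    fun e => ne_one_of_order hp hz (mem_bot.1 (e ▸ mem_center_iff.2 fun g => hzc g (mem_top g)))
  exact hG.2.2.1 ⟨⟨fun a b => (mem_center_iff.1 (hc.symm ▸ mem_top b) a)⟩⟩

theorem normalizer_ne_top {H : Subgroup G} (hH : MaxNil H) : normalizer (H : Set G) ≠ ⊤ := by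
  haveI := nontrivial' hG h
  intro e
  exact ne_top hG h hH.1 ((hG.2.1.eq_bot_or_eq_top_of_normal H
    (normalizer_eq_top_iff.1 e)).resolve_left hH.ne_bot)

theorem lt_normalizer {H : Subgroup G} (hH : MaxNil H) : H < normalizer (H : Set G) := by
  haveI := nontrivial' hG h
  refine lt_of_le_of_ne le_normalizer fun he => ?_
  have hF : IsFrobeniusComplement H := by
    refine ⟨hH.ne_bot, ne_top hG h hH.1, fun g hg => meetsTrivially hG h hH g fun e => hg ?_⟩
    rw [he]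
    exact cj_eq_self_iff.1 e
  obtain ⟨K, hK, -, hc⟩ := Solv.exists_frobeniusKernel hF
  by_cases hK1 : K = ⊥
  · exact ne_top hG h hH.1 (isComplement'_bot_left.mp (hK1 ▸ hc))
  · exact hH.ne_bot (isComplement'_top_left.mp
      ((hG.2.1.eq_bot_or_eq_top_of_normal K hK).resolve_left hK1 ▸ hc))

theorem le_normalizer_of_normal {M R : Subgroup G} {p : ℕ} [Fact p.Prime] (hR : IsPGroup p R)
    (hR1 : R ≠ ⊥) (hMR : M ≤ normalizer (R : Set G)) :
    ∃ H : Subgroup G, MaxNil H ∧ R ≤ H ∧ M ≤ normalizer (H : Set G) := by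
  obtain ⟨H, hRH, hH⟩ := exists_maxNil R hR.isNilpotent
  obtain ⟨x, hx, hx1⟩ := R.bot_or_exists_ne_one.resolve_left hR1
  refine ⟨H, hH, hRH, fun m hm => cj_eq_self_iff.1 ?_⟩
  exact (eq_of_mem h hH (hH.conj m) (meetsTrivially hG h (hH.conj m)) (hRH hx)
    ⟨m⁻¹ * x * m, hRH ((mem_normalizer_iff''.1 (hMR hm) x).1 hx), by
      simp [MulAut.conj_apply, mul_assoc]⟩ hx1).symm

theorem coatom_structure {M : Subgroup G} (hM : IsCoatom M) :
    ∃ H : Subgroup G, MaxNil H ∧ normalizer (H : Set G) = M := by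
  haveI := nontrivial' hG h
  have hMb : M ≠ ⊥ := by
    rintro rfl
    obtain ⟨H, -, hH⟩ := exists_maxNil (⊥ : Subgroup G) inferInstance
    exact hH.ne_bot ((hM.le_iff.1 bot_le).resolve_left fun e => ne_top hG h hH.1 e)
  obtain ⟨R, hRn, -, hR1, hmin⟩ := Solv.exists_minimal_normal_le (G := M) (N := ⊤) (fun e => hMb
    (by rw [← range_subtype M, MonoidHom.range_eq_map, e, Subgroup.map_bot]))
  haveI := hRn
  obtain ⟨-, p, hp, hRp, -⟩ := Solv.minimal_normal_elementary hR1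
    (haveI := hG.2.2.2 M hM.1; inferInstance) hmin
  haveI := Fact.mk hp
  obtain ⟨H, hH, -, hle⟩ := le_normalizer_of_normal hG h (M := M) (hRp.map M.subtype)
    (fun e => hR1 ((map_eq_bot_iff_of_injective _ M.subtype_injective).1 e)) (map_le_normalizer R)
  exact ⟨H, hH, (hM.le_iff.1 hle).resolve_left (normalizer_ne_top hG h hH)⟩

theorem normalizer_coatom {H : Subgroup G} (hH : MaxNil H) : IsCoatom (normalizer (H : Set G)) := by
  haveI := nontrivial' hG h
  obtain ⟨M, hM, hle⟩ :=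
    (eq_top_or_exists_le_coatom (normalizer (H : Set G))).resolve_left (normalizer_ne_top hG h hH)
  obtain ⟨H₁, hH₁, rfl⟩ := coatom_structure hG h hM
  by_cases hshare : ∃ q : ℕ, q.Prime ∧ q ∣ Nat.card H ∧ q ∣ Nat.card H₁
  · obtain ⟨q, hq, hq1, hq2⟩ := hshare
    haveI := Fact.mk hq
    obtain ⟨z, hzH, hz, -⟩ := exists_central hH.1 hq1
    rw [eq_of_mem h hH hH₁ (meetsTrivially hG h hH₁) hzH (mem_of_normalizes (hall h hH₁)
      (hle (le_normalizer hzH)) hq2 (hz.trans (pow_one q).symm)) (ne_one_of_order hq hz)]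
    exact hM
  push Not at hshare
  exfalso
  have hd : H ⊓ H₁ = ⊥ := Subgroup.inf_eq_bot_of_coprime
    (Nat.coprime_of_dvd fun q hq h1 h2 => hshare q hq h1 h2)
  obtain ⟨E, ⟨-, hEN, hdE, hmul⟩, hE1, hEn, -⟩ := complement_of_meetsTrivially h hH₁ hH₁.ne_bot
    (meetsTrivially hG h hH₁) (lt_normalizer hG h hH₁)
  set Y := normalizer (H : Set G)
  set N := normalizer (H₁ : Set G)
  have hYd : Y ⊓ H₁ = ⊥ := by
    refine (Subgroup.eq_bot_iff_forall _).2 fun y hy => ?_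
    by_contra hy1
    obtain ⟨x, hx, hx1⟩ := H.bot_or_exists_ne_one.resolve_left hH.ne_bot
    have h1 : y * x * y⁻¹ * x⁻¹ ∈ H ⊓ H₁ := by
      refine ⟨H.mul_mem ((mem_normalizer_iff.1 hy.1 x).1 hx) (H.inv_mem hx), ?_⟩
      rw [show y * x * y⁻¹ * x⁻¹ = y * (x * y⁻¹ * x⁻¹) by group]
      exact H₁.mul_mem hy.2 ((mem_normalizer_iff.1 (hle (le_normalizer hx)) _).1 (H₁.inv_mem hy.2))
    rw [hd, mem_bot, mul_inv_eq_one, mul_inv_eq_iff_eq_mul] at h1
    have h2 : y ∈ H := cen_le_of_meetsTrivially h hH (meetsTrivially hG h hH) hx hx1 (mem_cen.2 h1)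
    exact hy1 (mem_bot.1 (hd ▸ (⟨h2, hy.2⟩ : y ∈ H ⊓ H₁)))
  have hnilY : Group.IsNilpotent Y := by
    haveI : (H₁.subgroupOf N).Normal := normal_in_normalizer
    haveI := hEn
    haveI : Group.IsNilpotent (N ⧸ H₁.subgroupOf N) := by
      refine Group.nilpotent_of_surjective
        ((QuotientGroup.mk' (H₁.subgroupOf N)).comp (inclusion hEN)) fun q => ?_
      obtain ⟨m, rfl⟩ := QuotientGroup.mk'_surjective _ q
      obtain ⟨a, ha, b, hb, hab⟩ := hmul m m.2
      refine ⟨⟨b, hb⟩, ?_⟩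
      refine QuotientGroup.eq.2 (mem_subgroupOf.2 ?_)
      show b⁻¹ * (m : G) ∈ H₁
      rw [hab]
      exact (mem_normalizer_iff''.1 (hEN hb) a).1 ha |> fun h' => by rwa [mul_assoc] at h'
    have hinj : Function.Injective ((QuotientGroup.mk' (H₁.subgroupOf N)).comp (inclusion hle)) := by
      rw [← MonoidHom.ker_eq_bot_iff, Subgroup.eq_bot_iff_forall]
      intro y hy
      have h1 : (y : G) ∈ Y ⊓ H₁ := ⟨y.2, mem_subgroupOf.1 ((QuotientGroup.eq_one_iff (inclusion hle y)).1 hy)⟩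
      rw [hYd, mem_bot] at h1
      exact Subtype.ext h1
    exact Group.nilpotent_of_mulEquiv (MonoidHom.ofInjective hinj).symm
  exact (lt_normalizer hG h hH).ne (hH.2 Y hnilY le_normalizer).symm

theorem no_threeStep (H : Subgroup G) (p : ℕ) [Fact p.Prime] (h3 : IsThreeStepGroup p H) : False := by
  obtain ⟨hP0, A, -, -, -, -, -, htop, ⟨n, hn⟩, -, -⟩ := h3
  haveI := nontrivial' hG h
  obtain ⟨H₁, hH₁, hR, hle⟩ := le_normalizer_of_normal hG h (M := H)
    ((Solv.isPGroup_pCore (G := H) p).map H.subtype)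
    (fun e => hP0 ((map_eq_bot_iff_of_injective _ H.subtype_injective).1 e)) (map_le_normalizer (pCore p H))
  obtain ⟨x, hx, hx1⟩ := (pCore p H).bot_or_exists_ne_one.resolve_left hP0
  obtain ⟨i, hi⟩ := pow_of_mem (Solv.isPGroup_pCore (G := H) p) hx
  have hpH : p ∣ Nat.card H₁ := by
    have hi0 : i ≠ 0 := fun e => hx1 (by rw [e, pow_zero] at hi; exact orderOf_eq_one_iff.1 hi)
    refine ((dvd_pow_self p hi0).trans hi.symm.dvd).trans ?_
    rw [← Subgroup.orderOf_coe]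
    exact Subgroup.orderOf_dvd_natCard _ (hR (mem_map_of_mem _ hx))
  obtain ⟨P, hP⟩ := sylow_le h hH₁ hpH
  obtain ⟨S⟩ : Nonempty (Sylow p H) := inferInstance
  have hSP : (S : Subgroup H) ≤ (P : Subgroup G).subgroupOf H := fun s hs => by
    obtain ⟨j, hj⟩ := pow_of_mem S.2 hs
    rw [← Subgroup.orderOf_coe] at hj
    exact mem_of_nilpotent hH₁.1 P hP (mem_of_normalizes (hall h hH₁) (hle s.2) hpH hj) hj
  have hPn : ((P : Subgroup G).subgroupOf H).Normal := ⟨fun a ha g => by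
    obtain ⟨j, hj⟩ := pow_of_mem P.2 ha
    refine mem_of_nilpotent hH₁.1 P hP ((mem_normalizer_iff.1 (hle g.2) _).1 (hP ha)) (i := j) ?_
    exact (orderOf_injective (MulAut.conj (g : G)).toMonoidHom (MulEquiv.injective _) (a : G)).trans hj⟩
  have hSL : (S : Subgroup H) ≤ pCore p H ⊔ A :=
    hSP.trans ((Solv.le_pCore hPn (show IsPGroup p ((P : Subgroup G).subgroupOf H) from P.2.comap_subtype)).trans le_sup_left)
  refine htop (index_eq_one.1 ?_)
  rw [hn]
  rcases Nat.eq_zero_or_pos n with h0 | h0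
  · rw [h0, pow_zero]
  · exact absurd ((dvd_pow_self p h0.ne').trans (hn ▸ index_dvd_of_le hSL)) S.not_dvd_index

theorem structure_both :
    (∀ H : Subgroup G, Group.IsNilpotent H → (∀ L : Subgroup G, Group.IsNilpotent L → H ≤ L → L = H) →
        (Nat.card H).Coprime H.index ∧ MeetsTrivially H ∧ IsCoatom (normalizer (H : Set G)) ∧
        ∃ E : Subgroup G, IsComplIn H E (normalizer (H : Set G)) ∧ E ≠ ⊥ ∧
          ∀ e ∈ E, e ≠ 1 → H ⊓ centralizer ({e} : Set G) = ⊥) ∧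
      ∀ M : Subgroup G, IsCoatom M → ∃ H E : Subgroup G, Group.IsNilpotent H ∧
        (∀ L : Subgroup G, Group.IsNilpotent L → H ≤ L → L = H) ∧
        M ≤ normalizer (H : Set G) ∧ IsComplIn H E M ∧ H ≠ ⊥ ∧ E ≠ ⊥ ∧
        ∀ e ∈ E, e ≠ 1 → H ⊓ centralizer ({e} : Set G) = ⊥ := by
  haveI := nontrivial' hG h
  refine ⟨fun H hn hm => ?_, fun M hM => ?_⟩
  · have hH : MaxNil H := ⟨hn, hm⟩
    obtain ⟨E, hE, hE1, -, hf⟩ := complement_of_meetsTrivially h hH hH.ne_bot
      (meetsTrivially hG h hH) (lt_normalizer hG h hH)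
    exact ⟨hall h hH, meetsTrivially hG h hH, normalizer_coatom hG h hH, E, hE, hE1, hf⟩
  · obtain ⟨H, hH, rfl⟩ := coatom_structure hG h hM
    obtain ⟨E, hE, hE1, -, hf⟩ := complement_of_meetsTrivially h hH hH.ne_bot
      (meetsTrivially hG h hH) (lt_normalizer hG h hH)
    exact ⟨H, E, hH.1, hH.2, le_rfl, hE, hH.ne_bot, hE1, hf⟩

theorem fittingHallOf_normalizer {H : Subgroup G} (hH : MaxNil H) :
    fittingHallOf (normalizer (H : Set G)) = H := by
  set N := normalizer (H : Set G)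
  haveI : (H.subgroupOf N).Normal := normal_in_normalizer
  have e : (H.subgroupOf N).map N.subtype = H := map_subgroupOf_eq_of_le le_normalizer
  show (fittingHall N).map N.subtype = H
  have hmax : MaxNil (H.subgroupOf N) := by
    refine ⟨(Group.isNilpotent_congr (subgroupOfEquivOfLe le_normalizer)).2 hH.1, fun L hL hle => ?_⟩
    refine map_injective N.subtype_injective ?_
    rw [e]
    exact hH.2 _ (isNilpotent_map hL _) (e ▸ map_mono hle)
  have hcop : (Nat.card (H.subgroupOf N)).Coprime (H.subgroupOf N).index := by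
    rw [Nat.card_congr (subgroupOfEquivOfLe (le_normalizer : H ≤ N)).toEquiv]
    exact (hall h hH).coprime_dvd_right (relIndex_dvd_index_of_le le_normalizer)
  rw [fittingHall_eq (H.subgroupOf N) hmax hcop, e]

theorem representatives (k : ℕ) (Mrep : Fin k → Subgroup G) (hmax : ∀ i, IsCoatom (Mrep i))
    (hnc : ∀ i j, i ≠ j → ∀ g : G, Mrep j ≠ (Mrep i).map (MulAut.conj g).toMonoidHom)
    (hall' : ∀ M : Subgroup G, IsCoatom M → ∃ i, ∃ g : G, M = (Mrep i).map (MulAut.conj g).toMonoidHom) :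
    (∀ i j, i ≠ j → (Nat.card (fittingHallOf (Mrep i))).Coprime (Nat.card (fittingHallOf (Mrep j)))) ∧
      ∏ i, Nat.card (fittingHallOf (Mrep i)) = Nat.card G ∧
      ∀ x : G, ∃ i, ∃ g : G, g * x * g⁻¹ ∈ fittingHallOf (Mrep i) := by
  haveI := nontrivial' hG h
  choose F hF hFN using fun i => coatom_structure hG h (hmax i)
  have hFe : ∀ i, fittingHallOf (Mrep i) = F i := fun i => by
    rw [← hFN i]; exact fittingHallOf_normalizer hG h (hF i)
  have hconj : ∀ H, MaxNil H → ∃ i g, H = cj g (F i) := by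
    intro H hH
    obtain ⟨i, g, hg⟩ := hall' _ (normalizer_coatom hG h hH)
    refine ⟨i, g, ?_⟩
    have h1 : normalizer (H : Set G) = normalizer ((cj g (F i) : Subgroup G) : Set G) := by
      rw [hg, ← cj_normalizer, hFN]
    rw [← fittingHallOf_normalizer hG h hH, h1, fittingHallOf_normalizer hG h ((hF i).conj g)]
  have hpair : ∀ i j, i ≠ j → (Nat.card (F i)).Coprime (Nat.card (F j)) := fun i j hij =>
    (conj_or_coprime h (hF i) (hF j)).resolve_left fun ⟨g, hg⟩ => hnc i j hij g (by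
      rw [← hFN j, hg]
      show normalizer ((cj g (F i) : Subgroup G) : Set G) = _
      rw [← cj_normalizer, hFN])
  simp only [hFe]
  refine ⟨hpair, Nat.dvd_antisymm ?_ ?_, fun x => ?_⟩
  · suffices hs : ∀ s : Finset (Fin k), (∏ i ∈ s, Nat.card (F i)) ∣ Nat.card G from hs _
    intro s
    induction s using Finset.induction_on with
    | empty => simp
    | insert i s hi ih =>
      rw [Finset.prod_insert hi]
      exact Nat.Coprime.mul_dvd_of_dvd_of_dvd (Nat.Coprime.prod_right fun j hj =>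
        hpair i j fun e => hi (e ▸ hj)) (card_subgroup_dvd_card _) ih
  · rw [Nat.dvd_iff_prime_pow_dvd_dvd]
    intro p j hp hd
    haveI := Fact.mk hp
    obtain ⟨P⟩ : Nonempty (Sylow p G) := inferInstance
    obtain ⟨H, hPH, hH⟩ := exists_maxNil (P : Subgroup G) P.2.isNilpotent
    obtain ⟨i, g, rfl⟩ := hconj H hH
    refine dvd_trans ?_ (Finset.dvd_prod_of_mem (fun i => Nat.card (F i)) (Finset.mem_univ i))
    rw [← card_map_of_injective (K := F i) (f := (MulAut.conj g).toMonoidHom) (MulAut.conj g).injective]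
    exact (P.pow_dvd_card_of_pow_dvd_card hd).trans (card_dvd_of_le hPH)
  · by_cases hx : x = 1
    · obtain ⟨H, -, hH⟩ := exists_maxNil (⊥ : Subgroup G) inferInstance
      obtain ⟨i, -, -⟩ := hconj H hH
      exact ⟨i, 1, by simp [hx]⟩
    obtain ⟨H, hxH, hH⟩ := exists_maxNil (zpowers x) (nilpotent_zpowers x)
    obtain ⟨i, g, rfl⟩ := hconj H hH
    obtain ⟨y, hy, rfl⟩ := hxH (mem_zpowers x)
    exact ⟨i, g⁻¹, by simpa [MulAut.conj_apply, mul_assoc] using hy⟩

end Simple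

end Cfsg.Lib.PLocal.CNGroups
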