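import Mathlib
import Cfsg.Agent.Lib.PLocal.DegreeLift

/-!
The degree of an element on the chief factors of a normal p-subgroup is bounded by its degrees on a critical
subgroup and on the centre of that subgroup.
-/

set_option autoImplicit false
set_option linter.unusedVariables false
set_option linter.unusedSectionVars false
set_option linter.style.haveILetI false

open scoped commutatorElement

namespace Cfsg.Lib.PLocal.KInfSmall

open Cfsg Displacement

universe u

section Ops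

variable {H : Type u} [Group H] (X : Subgroup H) [hXn : X.Normal]

/-- Transport by conjugation of a function with values in a normal subgroup, minus the identity. -/
theorem dl_add_commutator (hXa : ∀ a ∈ X, ∀ b ∈ X, a * b = b * a) (g : H)
    {i j : ℕ} (hXj : ∀ x ∈ X, (dl g)^[j] x = 1) (E N : Subgroup H) (hE : E.Normal) (hEX : ∀ e ∈ E, ∀ x ∈ X, e * x = x * e)
    (hN : ∀ e ∈ E, (fun y => g⁻¹ * y * g * y⁻¹)^[i] e ∈ N) (R : Subgroup H) (hR : R.Normal)
    (hRX : ∀ v ∈ R, ∀ x ∈ X, v * x = x * v) (hRE : ∀ v ∈ R, ∀ e ∈ E, ⁅v, e⁆ ∈ X)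
    (hRN : ∀ v ∈ R, ∀ n ∈ N, ⁅v, n⁆ = 1) {u : H} (hu : u ∈ R) {e : H} (he : e ∈ E) :
    ⁅(dl g)^[i + j - 1] u, e⁆ = 1 := by
  -- the operators on functions
  letI : CommGroup X := { (inferInstance : Group X) with
    mul_comm := fun a b => Subtype.ext (hXa a a.2 b b.2) }
  let cg : X →* X :=
    { toFun := fun x => ⟨g * x * g⁻¹, hXn.conj_mem _ x.2 g⟩
      map_one' := Subtype.ext (by simp)
      map_mul' := fun a b => Subtype.ext (by simp [mul_assoc]) }
  let pg : E → E := fun y => ⟨g⁻¹ * y * g, by simpa using hE.conj_mem y y.2 g⁻¹⟩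
  let L : AddMonoid.End (E → Additive X) :=
    { toFun := fun f y => MonoidHom.toAdditive cg (f y) - f y
      map_zero' := funext fun y => by simp
      map_add' := fun f f' => funext fun y => by simp only [Pi.add_apply, map_add]; abel }
  let P : AddMonoid.End (E → Additive X) :=
    { toFun := fun f y => f (pg y) - f y
      map_zero' := funext fun y => by simp
      map_add' := fun f f' => funext fun y => by simp only [Pi.add_apply]; abel }
  have hLk : ∀ (k : ℕ) (f : E → Additive X) (y : E), (((L ^ k) f y).toMul : H) = (dl g)^[k] ((f y).toMul : H) := by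
    intro k
    induction k with
    | zero => intro f y; rfl
    | succ k ih =>
      intro f y
      rw [pow_succ', Function.iterate_succ_apply', ← ih f y]
      show ((cg ((L ^ k) f y).toMul / ((L ^ k) f y).toMul : X) : H) = ⁅g, (((L ^ k) f y).toMul : H)⁆
      rw [div_eq_mul_inv]
      rfl
  have hLj : L ^ j = 0 := AddMonoidHom.ext fun f => funext fun y =>
    congrArg Additive.ofMul (Subtype.ext ((hLk j f y).trans (hXj _ (f y).toMul.2)))
  have hLP : ∀ f, L (P f) = P (L f) := fun f => funext fun y => by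
    show MonoidHom.toAdditive cg (f (pg y) - f y) - (f (pg y) - f y) =
      MonoidHom.toAdditive cg (f (pg y)) - f (pg y) - (MonoidHom.toAdditive cg (f y) - f y)
    rw [map_sub]; abel
  let δ : E → E := fun y => pg y * y⁻¹
  have hPk : ∀ (k : ℕ) (f : E → Additive X), (∀ y z, f (y * z) = f y + f z) → ∀ y, (P ^ k) f y = f (δ^[k] y) := by
    intro k
    induction k with
    | zero => intro f _ y; rfl
    | succ k ih =>
      intro f hf y
      have h1 : f 1 = 0 := by
        have := hf 1 1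
        rwa [mul_one, left_eq_add] at this
      have hinv : ∀ z, f z⁻¹ = -f z := fun z => by rw [eq_neg_iff_add_eq_zero, ← hf, inv_mul_cancel, h1]
      rw [pow_succ, Function.iterate_succ_apply']
      show (P ^ k) (P f) y = _
      rw [ih (P f) (fun y z => by
        show f (pg (y * z)) - f (y * z) = (f (pg y) - f y) + (f (pg z) - f z)
        rw [show pg (y * z) = pg y * pg z from Subtype.ext (show g⁻¹ * (y * z : H) * g = g⁻¹ * y * g * (g⁻¹ * z * g) by group),
          hf, hf]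
        abel)]
      show f (pg (δ^[k] y)) - f (δ^[k] y) = f (pg (δ^[k] y) * (δ^[k] y)⁻¹)
      rw [hf, hinv, sub_eq_add_neg]
  have hco : ∀ (k : ℕ) (y : E), ((δ^[k] y : E) : H) = (fun y => g⁻¹ * y * g * y⁻¹)^[k] (y : H) := by
    intro k y
    induction k with
    | zero => rfl
    | succ k ih => rw [Function.iterate_succ_apply', Function.iterate_succ_apply', ← ih]; rfl
  -- the commutator functions
  let φ : ∀ v, v ∈ R → (E → Additive X) := fun v hv y => Additive.ofMul ⟨⁅v, (y : H)⁆, hRE v hv y y.2⟩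
  have hφadd : ∀ v hv y z, φ v hv (y * z) = φ v hv y + φ v hv z := fun v hv y z =>
    congrArg Additive.ofMul (Subtype.ext (show ⁅v, (y : H) * z⁆ = ⁅v, (y : H)⁆ * ⁅v, (z : H)⁆ by
      rw [show ⁅v, (y : H) * z⁆ = ⁅v, (y : H)⁆ * ((y : H) * ⁅v, (z : H)⁆ * (y : H)⁻¹) by
        simp [commutatorElement_def, mul_assoc], hEX y y.2 _ (hRE v hv z z.2), mul_inv_cancel_right]))
  have hdl : ∀ v, v ∈ R → dl g v ∈ R := fun v hv => commutator_mem hR g hv
  have hstep : ∀ v hv, φ (dl g v) (hdl v hv) = L (φ v hv + P (φ v hv)) + P (φ v hv) := by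
    intro v hv
    refine funext fun y => ?_
    show Additive.ofMul _ = (MonoidHom.toAdditive cg (φ v hv y + (φ v hv (pg y) - φ v hv y)) -
      (φ v hv y + (φ v hv (pg y) - φ v hv y))) + (φ v hv (pg y) - φ v hv y)
    rw [add_sub_cancel, sub_add_sub_cancel]
    show Additive.ofMul _ = Additive.ofMul (cg ⟨⁅v, (pg y : H)⁆, _⟩ / ⟨⁅v, (y : H)⁆, _⟩)
    refine congrArg Additive.ofMul (Subtype.ext ?_)
    show ⁅⁅g, v⁆, (y : H)⁆ = g * ⁅v, g⁻¹ * y * g⁆ * g⁻¹ / ⁅v, (y : H)⁆
    have hgv : g * v * g⁻¹ ∈ R := hR.conj_mem v hv g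
    have e1 : g * ⁅v, g⁻¹ * y * g⁆ * g⁻¹ = ⁅g * v * g⁻¹, (y : H)⁆ := by simp [commutatorElement_def, mul_assoc]
    have e2 : ⁅v⁻¹, (y : H)⁆ = ⁅v, (y : H)⁆⁻¹ := by
      rw [show ⁅v⁻¹, (y : H)⁆ = v⁻¹ * ⁅v, (y : H)⁆⁻¹ * v by simp [commutatorElement_def, mul_assoc],
        hRX v⁻¹ (R.inv_mem hv) _ (X.inv_mem (hRE v hv y y.2)), inv_mul_cancel_right]
    rw [e1, div_eq_mul_inv, show ⁅g, v⁆ = g * v * g⁻¹ * v⁻¹ from commutatorElement_def g v,
      show ⁅g * v * g⁻¹ * v⁻¹, (y : H)⁆ = (g * v * g⁻¹) * ⁅v⁻¹, (y : H)⁆ * (g * v * g⁻¹)⁻¹ * ⁅g * v * g⁻¹, (y : H)⁆ by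
        simp [commutatorElement_def, mul_assoc], e2, hRX _ hgv _ (X.inv_mem (hRE v hv y y.2)), mul_inv_cancel_right,
      hXa _ (X.inv_mem (hRE v hv y y.2)) _ (hRE _ hgv y y.2)]
  have hu4 : ∀ k, (dl g)^[k] u ∈ R := fun k => dl_iterate_mem hR g k hu
  set φ0 := φ u hu
  have h0 : (P ^ i) φ0 = 0 := funext fun y => by
    rw [hPk i φ0 (hφadd u hu) y]
    exact congrArg Additive.ofMul (Subtype.ext (hRN u hu _ (by rw [hco]; exact hN y y.2)))
  have hφc : ∀ v v' : H, v = v' → ∀ (hv : v ∈ R) (hv' : v' ∈ R), φ v hv = φ v' hv' := fun v v' h hv hv' => by subst h; rfl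
  have main : ∀ k, φ _ (hu4 k) = ((L * (1 + P) + P) ^ k) φ0 := by
    intro k
    induction k with
    | zero => rfl
    | succ k ih =>
      rw [hφc _ _ (Function.iterate_succ_apply' (dl g) k u) (hu4 (k + 1)) (hdl _ (hu4 k)), hstep _ (hu4 k), ih, pow_succ']
      rfl
  have hcomm : Commute L P := AddMonoidHom.ext hLP
  have hzero : ((L * (1 + P) + P) ^ (i + j - 1)) φ0 = 0 := by
    have hcx : Commute (L * (1 + P)) P :=
      hcomm.mul_left ((Commute.one_left P).add_left (Commute.refl P))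
    have hc1 : Commute L (1 + P) := (Commute.one_right L).add_right hcomm
    rw [hcx.add_pow]
    refine (AddMonoidHom.finsetSum_apply _ _ φ0).trans (Finset.sum_eq_zero fun m hm => ?_)
    by_cases hjm : j ≤ m
    · rw [hc1.mul_pow, show L ^ m = 0 from by rw [← Nat.sub_add_cancel hjm, pow_add, hLj, mul_zero]]
      simp only [zero_mul]; rfl
    · have hi : i ≤ i + j - 1 - m := by omega
      rw [mul_assoc, ← (Nat.cast_commute _ (P ^ (i + j - 1 - m))).eq]
      show ((L * (1 + P)) ^ m) (((((i + j - 1).choose m : ℕ) : AddMonoid.End (E → Additive X))) ((P ^ (i + j - 1 - m)) φ0)) = 0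
      rw [← Nat.sub_add_cancel hi, pow_add]
      show ((L * (1 + P)) ^ m) (((((i + j - 1).choose m : ℕ) : AddMonoid.End (E → Additive X)))
        ((P ^ (i + j - 1 - m - i)) ((P ^ i) φ0))) = 0
      rw [h0, map_zero, map_zero, map_zero]
  exact congrArg (fun a : Additive X => ((a.toMul : X) : H)) (congrFun ((main _).trans hzero) ⟨e, he⟩)

end Ops

variable {G : Type u} [Group G] [Finite G] {p : ℕ} [Fact p.Prime]

/-- The bound `i + j - 1`. -/
theorem degree_add (P Q : Subgroup G) [P.Normal] [Q.Normal] (hP : IsPGroup p P) (hQP : Q ≤ P)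
    (hcent : P ⊓ Subgroup.centralizer (Q : Set G) ≤ Q) (g : G) {i j : ℕ} (hi : 1 ≤ i) (hj : 1 ≤ j)
    (hcomm : ⁅Q, P⁆ ≤ Q ⊓ Subgroup.centralizer (Q : Set G))
    (hQi : ∀ U V : Subgroup G, IsChiefFactor U V → U ≤ Q → iterCommutator U (Subgroup.zpowers g) i ≤ V)
    (hZj : ∀ U V : Subgroup G, IsChiefFactor U V → U ≤ Q ⊓ Subgroup.centralizer (Q : Set G) →
      iterCommutator U (Subgroup.zpowers g) j ≤ V) :
    ∀ U V : Subgroup G, IsChiefFactor U V → U ≤ P → iterCommutator U (Subgroup.zpowers g) (i + j - 1) ≤ V := by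
  classical
  intro U V hUV hUP
  haveI := hUV.2.1
  haveI := hUV.2.2.1
  set n := i + j - 1 with hn
  refine iterCommutator_le U V (chief_commutator_le hUV hP hUP).2 g n fun u hu => ?_
  set Z := Q ⊓ Subgroup.centralizer (Q : Set G) with hZ
  let Good : Subgroup G → Prop := fun R => ∀ u ∈ U, u ∈ R → (dl g)^[n] u ∈ V
  have hdown : ∀ R R' : Subgroup G, R'.Normal → (∀ v ∈ R, (dl g)^[n] v ∈ R') → Good R' → Good R := by
    intro R R' hR' h4 hgood v hv hvR
    haveI := hR'
    rcases chief_eq_or hUV R' with h | h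
    · exact h ⟨dl_iterate_mem inferInstance g n hv, h4 v hvR⟩
    · have hv' := h hv
      rw [← SetLike.mem_coe, Subgroup.mul_normal] at hv'
      obtain ⟨z, hz, w, hw, rfl⟩ := hv'
      refine (QuotientGroup.eq_one_iff _).1 ?_
      show QuotientGroup.mk' V ((dl g)^[n] (z * w)) = 1
      rw [map_dl_iterate, map_mul, show QuotientGroup.mk' V w = 1 from (QuotientGroup.eq_one_iff w).2 hw, mul_one,
        ← map_dl_iterate]
      exact (QuotientGroup.eq_one_iff _).2 (hgood z hz.1 hz.2)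
  -- inside the critical subgroup
  have hin : ∀ R : Subgroup G, R.Normal → R ≤ Q → Good R := by
    intro R
    induction hR' : Nat.card R using Nat.strong_induction_on generalizing R with
    | _ k ih =>
    subst hR'
    intro hRn hRQ
    by_cases hR1 : R = ⊥
    · intro v _ hvR
      rw [hR1, Subgroup.mem_bot] at hvR
      rw [hvR, dl_iterate_one]; exact one_mem _
    obtain ⟨R', ⟨hR'n, hR'lt⟩, hmax⟩ := (Set.toFinite {N : Subgroup G | N.Normal ∧ N < R}).exists_maximal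
      ⟨⊥, inferInstance, bot_lt_iff_ne_bot.2 hR1⟩
    have hchief : IsChiefFactor R R' := by
      refine ⟨hR'lt, hRn, hR'n, fun N hN hVN hNU => ?_⟩
      rcases eq_or_lt_of_le hNU with h | h
      · exact Or.inr h
      · exact Or.inl (le_antisymm (hmax ⟨hN, h⟩ hVN) hVN)
    have hlt : Nat.card R' < Nat.card R := lt_of_le_of_ne (Subgroup.card_le_of_le hR'lt.le) fun e =>
      hR'lt.ne (Subgroup.eq_of_le_of_card_ge hR'lt.le e.ge)
    refine hdown R R' hR'n (fun v hv => ?_) (ih _ hlt R' rfl hR'n (hR'lt.le.trans hRQ))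
    haveI := hR'n
    exact dl_iterate_mem_of_le hR'n g (show i ≤ n by omega) (hQi R R' hchief hRQ (dl_mem_of_iterCommutator R g i hv))
  -- above the critical subgroup
  suffices key : ∀ R : Subgroup G, R.Normal → R ≤ P → Good R from key P inferInstance le_rfl u hu (hUP hu)
  intro R
  induction hR' : Nat.card R using Nat.strong_induction_on generalizing R with
  | _ k ih =>
  subst hR'
  intro hRn hRP
  haveI := hRn
  by_cases hRQ : R ≤ Q
  · exact hin R hRn hRQ
  obtain ⟨X, ⟨hXn, hXle, hRX⟩, hXmin⟩ := (Set.toFinite {X : Subgroup G | X.Normal ∧ X ≤ Z ∧ ∀ v ∈ R, ∀ e ∈ Q, ⁅v, e⁆ ∈ X}).exists_minimal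
    ⟨Z, inferInstance, le_rfl, fun v hv e he => by
      rw [← commutatorElement_inv]
      exact inv_mem (hcomm (Subgroup.commutator_mem_commutator he (hRP hv)))⟩
  haveI := hXn
  have hX1 : X ≠ ⊥ := fun h => hRQ fun v hv => hcent ⟨hRP hv, Subgroup.mem_centralizer_iff.2 fun e he => by
    have h1 := hRX v hv e he
    rw [h, Subgroup.mem_bot] at h1
    exact (commutatorElement_eq_one_iff_mul_comm.1 h1).symm⟩
  obtain ⟨Y, ⟨hYn, hYlt⟩, hYmax⟩ := (Set.toFinite {N : Subgroup G | N.Normal ∧ N < X}).exists_maximal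
    ⟨⊥, inferInstance, bot_lt_iff_ne_bot.2 hX1⟩
  haveI := hYn
  have hXY : IsChiefFactor X Y := by
    refine ⟨hYlt, hXn, hYn, fun N hN hVN hNU => ?_⟩
    rcases eq_or_lt_of_le hNU with h | h
    · exact Or.inr h
    · exact Or.inl (le_antisymm (hYmax ⟨hN, h⟩ hVN) hVN)
  have hnot : ¬ ∀ v ∈ R, ∀ e ∈ Q, ⁅v, e⁆ ∈ Y := fun h =>
    hYlt.not_ge (hXmin ⟨hYn, hYlt.le.trans hXle, h⟩ hYlt.le)
  obtain ⟨N, ⟨hNn, hNQ, hRN⟩, hNmax⟩ := (Set.toFinite {N : Subgroup G | N.Normal ∧ N ≤ Q ∧ ∀ v ∈ R, ∀ e ∈ N, ⁅v, e⁆ ∈ Y}).exists_maximal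
    ⟨⊥, inferInstance, bot_le, fun v _ e he => by rw [Subgroup.mem_bot.1 he, commutatorElement_one_right]; exact one_mem _⟩
  haveI := hNn
  have hNlt : N < Q := lt_of_le_of_ne hNQ fun e => hnot (e ▸ hRN)
  obtain ⟨E, ⟨hEn, hNE, hEQ⟩, hEmin⟩ := (Set.toFinite {E : Subgroup G | E.Normal ∧ N < E ∧ E ≤ Q}).exists_minimal
    ⟨Q, inferInstance, hNlt, le_rfl⟩
  haveI := hEn
  have hEN : IsChiefFactor E N := by
    refine ⟨hNE, hEn, hNn, fun M hM hNM hME => ?_⟩
    rcases eq_or_lt_of_le hNM with h | h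
    · exact Or.inl h.symm
    · exact Or.inr (le_antisymm hME (hEmin ⟨hM, h, hME.trans hEQ⟩ hME))
  set R' := R ⊓ kerS E Y
  have hR'lt : Nat.card R' < Nat.card R := by
    refine lt_of_le_of_ne (Subgroup.card_le_of_le inf_le_left) fun e => ?_
    have h1 : R' = R := Subgroup.eq_of_le_of_card_ge inf_le_left e.ge
    exact hNE.not_ge (hNmax ⟨hEn, hEQ, fun v hv => ((h1.ge hv).2)⟩ hNE.le)
  refine hdown R R' inferInstance (fun v hv => ⟨dl_iterate_mem hRn g n hv, fun e he => ?_⟩)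
    (ih _ hR'lt R' rfl inferInstance (inf_le_left.trans hRP))
  set q := QuotientGroup.mk' Y
  have hq : ∀ x : G, q x = 1 ↔ x ∈ Y := fun x => QuotientGroup.eq_one_iff x
  have hqc : ∀ a b : G, ⁅a, b⁆ ∈ Y → q a * q b = q b * q a := fun a b h => by
    rw [← commutatorElement_eq_one_iff_mul_comm, ← map_commutatorElement]; exact (hq _).2 h
  have hXP : X ≤ P := hXle.trans (inf_le_left.trans hQP)
  have surj := QuotientGroup.mk'_surjective Y
  haveI : (X.map q).Normal := hXn.map q surj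
  refine (hq _).1 ?_
  rw [map_commutatorElement, map_dl_iterate]
  refine dl_add_commutator (X.map q) ?_ (q g) (i := i) (j := j) ?_ (E.map q) (N.map q) (hEn.map q surj) ?_ ?_ (R.map q)
    (hRn.map q surj) ?_ ?_ ?_ ⟨v, hv, rfl⟩ ⟨e, he, rfl⟩
  · rintro _ ⟨a, ha, rfl⟩ _ ⟨b, hb, rfl⟩
    exact hqc a b ((chief_commutator_le hXY hP hXP).2 (Subgroup.commutator_mem_commutator ha hb))
  · rintro _ ⟨x, hx, rfl⟩
    exact (map_dl_iterate q g j x).symm.trans ((hq _).2 (hZj X Y hXY hXle (dl_mem_of_iterCommutator X g j hx)))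
  · rintro _ ⟨a, ha, rfl⟩ _ ⟨x, hx, rfl⟩
    rw [← map_mul, ← map_mul]
    exact congrArg q (Subgroup.mem_centralizer_iff.1 (hXle hx).2 a (hEQ ha))
  · rintro _ ⟨a, ha, rfl⟩
    refine ⟨(dl g⁻¹)^[i] a, ?_, ?_⟩
    · have h1 := dl_mem_of_iterCommutator E g⁻¹ i ha
      rw [Subgroup.zpowers_inv] at h1
      exact hQi E N hEN hEQ h1
    rw [map_dl_iterate, map_inv]
    refine congrFun (congrArg (fun f => f^[i]) (funext fun y => ?_)) _
    simp [commutatorElement_def, mul_assoc]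
  · rintro _ ⟨a, ha, rfl⟩ _ ⟨x, hx, rfl⟩
    exact hqc a x ((chief_commutator_le hXY hP hXP).1 (Subgroup.commutator_mem_commutator (hRP ha) hx))
  · rintro _ ⟨a, ha, rfl⟩ _ ⟨b, hb, rfl⟩
    exact ⟨⁅a, b⁆, hRX a ha b (hEQ hb), map_commutatorElement q a b⟩
  · rintro _ ⟨a, ha, rfl⟩ _ ⟨b, hb, rfl⟩
    rw [← map_commutatorElement]; exact (hq _).2 (hRN a ha b hb)

end Cfsg.Lib.PLocal.KInfSmall
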