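import Mathlib
import Cfsg.Prelude.Def_LocalEven
import Cfsg.Agent.Lib.Classical.DihedralIso

/-!
# When the dihedral group of order `2p` is involved
-/

set_option autoImplicit false

namespace Cfsg.Lib.DihInv

open Cfsg Subgroup
open scoped Pointwise

variable {G : Type*} [Group G] [Finite G] {p : ℕ} [hp : Fact p.Prime]

/-- An element inverting a nontrivial `p`-element gives a dihedral section. -/
theorem involves_of_inverts (hp2 : p ≠ 2) {x y : G} (hy : orderOf y = p) (hxy : x * y * x⁻¹ = y⁻¹) :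
    Involves (DihedralGroup p) G := by
  set H := zpowers y
  set K := H ⊔ zpowers x
  have hyK : y ∈ K := mem_sup_left (mem_zpowers y)
  have hxK : x ∈ K := mem_sup_right (mem_zpowers x)
  have hy2 : ¬ y = y⁻¹ := fun e => by
    have : orderOf y ∣ 2 := orderOf_dvd_of_pow_eq_one (by rw [pow_two]; exact eq_inv_iff_mul_eq_one.1 e)
    rw [hy] at this
    exact hp2 ((Nat.prime_dvd_prime_iff_eq hp.out Nat.prime_two).1 this)
  have hnc : ¬ Commute x y := fun h => hy2 (by rw [← hxy, h.eq, mul_inv_cancel_right])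
  have hx2 : Commute (x ^ 2) y := by
    show x ^ 2 * y = y * x ^ 2
    have h1 : x ^ 2 * y * (x ^ 2)⁻¹ = y := by
      calc x ^ 2 * y * (x ^ 2)⁻¹ = x * (x * y * x⁻¹) * x⁻¹ := by rw [pow_two]; group
        _ = x * y⁻¹ * x⁻¹ := by rw [hxy]
        _ = (x * y * x⁻¹)⁻¹ := by group
        _ = y := by rw [hxy, inv_inv]
    calc x ^ 2 * y = x ^ 2 * y * (x ^ 2)⁻¹ * x ^ 2 := by group
      _ = y * x ^ 2 := by rw [h1]
  set R := zpowers (x ^ 2)
  have hRK : R ≤ K := zpowers_le.2 (pow_mem hxK 2)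
  have hKc : K ≤ centralizer (R : Set G) := by
    show K ≤ centralizer ((zpowers (x ^ 2) : Subgroup G) : Set G)
    rw [zpowers_eq_closure (x ^ 2), centralizer_closure]
    refine sup_le (zpowers_le.2 (mem_centralizer_iff.2 ?_)) (zpowers_le.2 (mem_centralizer_iff.2 ?_))
    · rintro _ rfl; exact hx2.eq
    · rintro _ rfl; exact (Commute.pow_self x 2).eq
  haveI hRn : (R.subgroupOf K).Normal :=
    (normal_subgroupOf_iff_le_normalizer hRK).2 (hKc.trans (centralizer_le_normalizer _))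
  refine ⟨K, R, hRn, ?_⟩
  set f := QuotientGroup.mk' (R.subgroupOf K)
  set a : K := ⟨y, hyK⟩
  set b : K := ⟨x, hxK⟩
  have hmem : ∀ k : K, f k = 1 → (k : G) ∈ R := fun k hk => (QuotientGroup.eq_one_iff k).1 hk
  have hRc : ∀ g ∈ R, Commute g y := fun g hg => by
    obtain ⟨i, rfl⟩ := mem_zpowers_iff.1 hg
    exact hx2.zpow_left i
  have hRx : ∀ g ∈ R, Commute g x := fun g hg => by
    obtain ⟨i, rfl⟩ := mem_zpowers_iff.1 hg
    exact (Commute.pow_self x 2).zpow_left i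
  have hss : f b * f b = 1 := by
    rw [← map_mul]
    exact (QuotientGroup.eq_one_iff _).2 (show x * x ∈ R from (pow_two x) ▸ mem_zpowers _)
  have hfa : orderOf (f a) = p := by
    refine orderOf_eq_prime ?_ fun h1 => hnc (hRx y (hmem a h1)).symm
    rw [← map_pow, show a ^ p = 1 from Subtype.ext (by rw [SubmonoidClass.coe_pow, show (a : G) = y from rfl, ← hy, pow_orderOf_eq_one]; rfl), map_one]
  have hsb : f b * f a * (f b)⁻¹ = (f a)⁻¹ := by
    rw [← map_mul, ← map_inv, ← map_mul, ← map_inv]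
    exact congrArg f (Subtype.ext hxy)
  have hbinv : (f b)⁻¹ = f b := inv_eq_of_mul_eq_one_right hss
  refine Cfsg.Lib.Classical.nonempty_mulEquiv_dihedral (zpowers (f a)) ((Nat.card_zpowers _).trans hfa)
    hp.out.ne_zero (f b) hss ?_ ?_ ?_
  · intro hb
    obtain ⟨i, hi⟩ := mem_zpowers_iff.1 hb
    have h2 : Commute (f b) (f a) := hi ▸ (Commute.refl (f a)).zpow_left i
    rw [h2.eq, mul_inv_cancel_right] at hsb
    have h4 : f a ^ 2 = 1 := by rw [pow_two]; exact eq_inv_iff_mul_eq_one.1 hsb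
    have h5 := orderOf_dvd_of_pow_eq_one h4
    rw [hfa] at h5
    exact hp2 ((Nat.prime_dvd_prime_iff_eq hp.out Nat.prime_two).1 h5)
  · intro r hr
    obtain ⟨i, rfl⟩ := mem_zpowers_iff.1 hr
    calc f b * f a ^ i * f b = f b * f a ^ i * (f b)⁻¹ := by rw [hbinv]
      _ = (f b * f a * (f b)⁻¹) ^ i := conj_zpow.symm
      _ = (f a ^ i)⁻¹ := by rw [hsb, inv_zpow]
  · intro g
    obtain ⟨k, rfl⟩ := QuotientGroup.mk'_surjective (R.subgroupOf K) g
    have hN : zpowers x ≤ normalizer (H : Set G) := by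
      refine zpowers_le.2 (mem_normalizer_fintype ?_)
      rintro _ ⟨i, rfl⟩
      show x * y ^ i * x⁻¹ ∈ H
      rw [← conj_zpow, hxy, inv_zpow]
      exact inv_mem (zpow_mem (mem_zpowers y) i)
    have hk : (k : G) ∈ (H : Set G) * (zpowers x : Set G) := by
      rw [← Subgroup.coe_mul_of_right_le_normalizer_left _ _ hN]
      exact k.2
    obtain ⟨h, hh, w, hw, hhw⟩ := hk
    obtain ⟨i, rfl⟩ := mem_zpowers_iff.1 hh
    obtain ⟨j, rfl⟩ := mem_zpowers_iff.1 hw
    have hk' : f k = f a ^ i * f b ^ j := by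
      rw [← map_zpow, ← map_zpow, ← map_mul]
      exact congrArg f (Subtype.ext hhw.symm)
    rcases Int.even_or_odd j with ⟨m, rfl⟩ | ⟨m, rfl⟩
    · left
      rw [hk', ← two_mul, zpow_mul, zpow_two, hss, one_zpow, mul_one]
      exact zpow_mem (mem_zpowers _) i
    · right
      rw [hk', zpow_add, zpow_mul, zpow_two, hss, one_zpow, one_mul, zpow_one, ← mul_assoc]
      rw [show f b * f a ^ i * f b = (f a ^ i)⁻¹ by
        calc f b * f a ^ i * f b = f b * f a ^ i * (f b)⁻¹ := by rw [hbinv]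
          _ = (f b * f a * (f b)⁻¹) ^ i := conj_zpow.symm
          _ = (f a ^ i)⁻¹ := by rw [hsb, inv_zpow]]
      exact inv_mem (zpow_mem (mem_zpowers _) i)

/-- A dihedral section gives a `2`-element acting nontrivially on a `p`-subgroup. -/
theorem acts_of_involves (hp2 : p ≠ 2) (h : Involves (DihedralGroup p) G) :
    ∃ (x : G) (P : Subgroup G), (∃ k : ℕ, orderOf x = 2 ^ k) ∧ IsPGroup p P ∧
      x ∈ normalizer (P : Set G) ∧ x ∉ centralizer (P : Set G) := by
  obtain ⟨K, R, hn, ⟨e⟩⟩ := h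
  haveI := hn
  let φ : K →* DihedralGroup p := e.toMonoidHom.comp (QuotientGroup.mk' (R.subgroupOf K))
  have hφ : Function.Surjective φ := e.surjective.comp (QuotientGroup.mk'_surjective _)
  haveI : NeZero p := ⟨hp.out.ne_zero⟩
  set N := (zpowers (DihedralGroup.r 1 : DihedralGroup p)).comap φ
  haveI : (zpowers (DihedralGroup.r 1 : DihedralGroup p)).Normal := by
    refine normal_of_index_eq_two ?_
    have h1 := (zpowers (DihedralGroup.r 1 : DihedralGroup p)).card_mul_index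
    rw [Nat.card_zpowers, DihedralGroup.orderOf_r_one, DihedralGroup.nat_card, mul_comm 2 p] at h1
    exact Nat.eq_of_mul_eq_mul_left hp.out.pos h1
  haveI : N.Normal := Normal.comap inferInstance φ
  obtain ⟨P⟩ : Nonempty (Sylow p N) := inferInstance
  obtain ⟨g, hg⟩ := hφ (DihedralGroup.sr 0)
  obtain ⟨u, hu, n, hn', hun⟩ : ∃ u ∈ normalizer (((P : Subgroup N).map N.subtype : Subgroup K) : Set K),
      ∃ n ∈ N, u * n = g := by
    have := mem_top g
    rw [← Sylow.normalizer_sup_eq_top P, mem_sup_of_normal_right] at this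
    exact this
  obtain ⟨k, hk⟩ := mem_zpowers_iff.1 (show φ n ∈ zpowers (DihedralGroup.r 1) from hn')
  have hφu : ∃ i : ZMod p, φ u = DihedralGroup.sr i := by
    refine ⟨0 - (k : ZMod p), ?_⟩
    have h1 : φ u * φ n = DihedralGroup.sr 0 := by rw [← map_mul, hun, hg]
    rw [← hk, DihedralGroup.r_one_zpow] at h1
    rw [eq_mul_inv_of_mul_eq h1, DihedralGroup.inv_r, DihedralGroup.sr_mul_r, zero_sub, zero_add]
  obtain ⟨i, hi⟩ := hφu
  obtain ⟨a, m, hm, hord⟩ := Nat.exists_eq_pow_mul_and_not_dvd (orderOf_pos u).ne' 2 (by norm_num)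
  refine ⟨((u ^ m : K) : G), ((P : Subgroup N).map N.subtype).map K.subtype, ⟨a, ?_⟩, (P.isPGroup'.map _).map _,
    ?_, fun hc => ?_⟩
  · rw [Subgroup.orderOf_coe, orderOf_pow, hord, Nat.gcd_eq_right (Dvd.intro_left _ rfl),
      Nat.mul_div_cancel _ (Nat.pos_of_ne_zero fun e0 => hm (by simp_all))]
  · exact le_normalizer_map K.subtype (mem_map_of_mem K.subtype (pow_mem hu m))
  · obtain ⟨q, rfl⟩ : Odd m := Nat.not_even_iff_odd.1 fun he => hm (even_iff_two_dvd.1 he)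
    have hx : φ (u ^ (2 * q + 1)) = DihedralGroup.sr i := by
      rw [map_pow, hi, pow_succ, pow_mul, pow_two, DihedralGroup.sr_mul_self, one_pow, one_mul]
    obtain ⟨w, hw⟩ := hφ (DihedralGroup.r 1)
    let ψ : N →* zpowers (DihedralGroup.r 1 : DihedralGroup p) :=
      (φ.comp N.subtype).codRestrict _ fun v => v.2
    have hψ : Function.Surjective ψ := fun ⟨v, hv⟩ => by
      obtain ⟨v', rfl⟩ := hφ v
      exact ⟨⟨v', hv⟩, rfl⟩
    let P' := P.mapSurjective hψ
    have hP' : (P' : Subgroup ↥(zpowers (DihedralGroup.r 1 : DihedralGroup p))) = ⊤ := by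
      refine eq_top_of_card_eq _ ?_
      rw [P'.card_eq_multiplicity, Nat.card_zpowers, DihedralGroup.orderOf_r_one, hp.out.factorization_self, pow_one]
    obtain ⟨v, hv, hve⟩ : ⟨DihedralGroup.r 1, mem_zpowers _⟩ ∈ (P : Subgroup N).map ψ := by
      rw [← Sylow.coe_mapSurjective hψ P, hP']; exact mem_top _
    have hcomm : u ^ (2 * q + 1) * (v : K) = (v : K) * u ^ (2 * q + 1) :=
      Subtype.ext (mem_centralizer_iff.1 hc _ (mem_map_of_mem K.subtype (mem_map_of_mem N.subtype hv))).symm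
    have h3 := congrArg φ hcomm
    rw [map_mul, map_mul, hx, show φ (v : K) = DihedralGroup.r 1 from congrArg Subtype.val hve,
      DihedralGroup.sr_mul_r, DihedralGroup.r_mul_sr, DihedralGroup.sr.injEq] at h3
    have h4 : ((2 : ℕ) : ZMod p) = 0 := by push_cast; linear_combination h3
    rw [ZMod.natCast_eq_zero_iff] at h4
    exact hp2 ((Nat.prime_dvd_prime_iff_eq hp.out Nat.prime_two).1 h4)

/-- From a nontrivial action to an inversion. -/
theorem inverts_of_acts {x : G} {P : Subgroup G} {k : ℕ} (hx : orderOf x = 2 ^ k) (hP : IsPGroup p P)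
    (hxN : x ∈ normalizer (P : Set G)) (hxC : x ∉ centralizer (P : Set G)) :
    ∃ x' y : G, (∃ k, orderOf x' = 2 ^ k) ∧ (∃ m, orderOf y = p ^ m) ∧ y ≠ 1 ∧ x' * y * x'⁻¹ = y⁻¹ := by
  classical
  have hend : x ^ 2 ^ k ∈ centralizer (P : Set G) := by
    rw [← hx, pow_orderOf_eq_one]; exact one_mem _
  set j := Nat.find (⟨k, hend⟩ : ∃ j, x ^ 2 ^ j ∈ centralizer (P : Set G))
  have hj : x ^ 2 ^ j ∈ centralizer (P : Set G) := Nat.find_spec (⟨k, hend⟩ : ∃ j, x ^ 2 ^ j ∈ centralizer (P : Set G))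
  have hj0 : j ≠ 0 := fun e => hxC (by rw [e, pow_zero, pow_one] at hj; exact hj)
  set x' := x ^ 2 ^ (j - 1)
  have hx' : x' ∉ centralizer (P : Set G) :=
    Nat.find_min (⟨k, hend⟩ : ∃ j, x ^ 2 ^ j ∈ centralizer (P : Set G)) (show j - 1 < j by omega)
  have hsq : x' * x' ∈ centralizer (P : Set G) := by
    rw [← pow_add, ← two_mul, ← pow_succ', Nat.sub_add_cancel (Nat.pos_of_ne_zero hj0)]; exact hj
  obtain ⟨a, ha, hne⟩ : ∃ a ∈ P, a * x' ≠ x' * a := by
    by_contra! h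
    exact hx' (mem_centralizer_iff.2 h)
  set b := x' * a * x'⁻¹
  have hb : b ∈ P := (mem_normalizer_iff.1 (pow_mem hxN _) a).1 ha
  refine ⟨x', a⁻¹ * b, ?_, ?_, fun e => hne ?_, ?_⟩
  · obtain ⟨i, -, hi⟩ := (Nat.dvd_prime_pow Nat.prime_two).1 (hx ▸ orderOf_pow_dvd (x := x) (2 ^ (j - 1)))
    exact ⟨i, hi⟩
  · obtain ⟨m, hm⟩ := IsPGroup.iff_orderOf.1 hP ⟨a⁻¹ * b, P.mul_mem (P.inv_mem ha) hb⟩
    exact ⟨m, by rw [← hm, Subgroup.orderOf_mk]⟩
  · rw [inv_mul_eq_one] at e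
    exact (mul_inv_eq_iff_eq_mul.1 e.symm).symm
  · have hbb : x' * b * x'⁻¹ = a := by
      calc x' * b * x'⁻¹ = (x' * x') * a * (x' * x')⁻¹ := by simp [b, mul_assoc]
        _ = a := by rw [← mem_centralizer_iff.1 hsq a ha]; group
    calc x' * (a⁻¹ * b) * x'⁻¹ = (x' * a * x'⁻¹)⁻¹ * (x' * b * x'⁻¹) := by group
      _ = b⁻¹ * a := by rw [hbb]
      _ = (a⁻¹ * b)⁻¹ := by group

/-- S2758. -/
theorem dihedral_involved (hp2 : p ≠ 2) :
    (Involves (DihedralGroup p) G ↔ ∃ (x : G) (P : Subgroup G), (∃ k : ℕ, orderOf x = 2 ^ k) ∧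
      IsPGroup p P ∧ x ∈ normalizer (P : Set G) ∧ x ∉ centralizer (P : Set G)) ∧
    (Involves (DihedralGroup p) G ↔ ∃ x y : G, (∃ k : ℕ, orderOf x = 2 ^ k) ∧
      (∃ k : ℕ, orderOf y = p ^ k) ∧ y ≠ 1 ∧ x * y * x⁻¹ = y⁻¹) := by
  have h31 : (∃ x y : G, (∃ k : ℕ, orderOf x = 2 ^ k) ∧
      (∃ k : ℕ, orderOf y = p ^ k) ∧ y ≠ 1 ∧ x * y * x⁻¹ = y⁻¹) → Involves (DihedralGroup p) G := by
    rintro ⟨x, y, -, ⟨k, hk⟩, hy, hxy⟩
    have hk0 : k ≠ 0 := fun e => hy (orderOf_eq_one_iff.1 (by rw [hk, e, pow_zero]))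
    have ho : orderOf (y ^ p ^ (k - 1)) = p := by
      rw [orderOf_pow, hk, Nat.gcd_eq_right (pow_dvd_pow p (Nat.sub_le k 1)),
        Nat.pow_div (Nat.sub_le k 1) hp.out.pos, show k - (k - 1) = 1 by omega, pow_one]
    refine involves_of_inverts hp2 (x := x) ho ?_
    rw [← conj_pow, hxy, inv_pow]
  refine ⟨⟨acts_of_involves hp2, ?_⟩, ⟨fun h => ?_, h31⟩⟩
  · rintro ⟨x, P, ⟨k, hk⟩, hP, hN, hC⟩
    exact h31 (inverts_of_acts hk hP hN hC)
  · obtain ⟨x, P, ⟨k, hk⟩, hP, hN, hC⟩ := acts_of_involves hp2 h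
    exact inverts_of_acts hk hP hN hC

end Cfsg.Lib.DihInv
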