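import Mathlib
import Cfsg.Agent.Lib.PLocal.FFCore

/-!
Failure of factorization: `H` is the direct product of its `SL(2, p)` blocks.
-/

set_option autoImplicit false
set_option linter.unusedSectionVars false
set_option linter.style.haveILetI false

open scoped commutatorElement

namespace Cfsg.Lib.PLocal.FF

open Subgroup

variable {p : ℕ} [hp : Fact p.Prime] {M : Type*} [AddCommGroup M] [Module (ZMod p) M] [Finite M]
variable {Γ : Type*} [Group Γ] [Finite Γ] {ρ : Γ →* Module.End (ZMod p) M} {K : Subgroup Γ}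
variable {A B : Subgroup Γ}

/-- Pointwise stabilizer of a submodule. -/
def stab (ρ : Γ →* Module.End (ZMod p) M) (U : Submodule (ZMod p) M) : Subgroup Γ where
  carrier := {g | ∀ x ∈ U, ρ g x = x}
  mul_mem' {g h} hg hh := fun x hx => by rw [apply_mul, hh x hx, hg x hx]
  one_mem' := fun x _ => by rw [map_one, Module.End.one_apply]
  inv_mem' {g} hg := fun x hx => by conv_lhs => rw [← hg x hx, apply_inv_cancel]

/-- The plane of a block. -/
abbrev pl (ρ : Γ →* Module.End (ZMod p) M) (K A : Subgroup Γ) : Submodule (ZMod p) M := bracket ρ (blk K A)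

theorem blk_conj (h : Hyp ρ K) (A : Subgroup Γ) (g : Γ) :
    (blk K A).map (MulAut.conj g).toMonoidHom = blk K (A.map (MulAut.conj g).toMonoidHom) := by
  haveI := h.normal
  rw [blk, blk, Subgroup.map_sup, Subgroup.map_commutator,
    show K.map (MulAut.conj g).toMonoidHom = K from Subgroup.mem_normalizer_iff_map_conj_eq.1
      (by rw [normalizer_eq_top]; exact mem_top g)]

theorem finrank_pl (h : Hyp ρ K) (hA : Off ρ A) (hc : Nat.card A = p) : Module.finrank (ZMod p) (pl ρ K A) = 2 := by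
  have h1 := card_bracket_blk h hA hc
  rw [Module.natCard_eq_pow_finrank (K := ZMod p), Nat.card_zmod] at h1
  exact Nat.pow_right_injective hp.out.two_le h1

theorem pl_eq_of_mem (h : Hyp ρ K) (hA : Off ρ A) (hcA : Nat.card A = p) (hB : Off ρ B) (hcB : Nat.card B = p)
    {x : M} (hxA : x ∈ pl ρ K A) (hxB : x ∈ pl ρ K B) (hx : x ≠ 0) : pl ρ K A = pl ρ K B := by
  set U := pl ρ K A ⊓ pl ρ K B with hU
  have hA2 := finrank_pl h hA hcA
  have hB2 := finrank_pl h hB hcB
  have hxU : (ZMod p) ∙ x ≤ U := Submodule.span_le.2 (Set.singleton_subset_iff.2 ⟨hxA, hxB⟩)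
  by_cases h2 : Module.finrank (ZMod p) U ≤ 1
  · exfalso
    have heq : (ZMod p) ∙ x = U := Submodule.eq_of_le_of_finrank_le hxU (by rw [finrank_span_singleton hx]; exact h2)
    refine no_invariant_line h hA hcA hxA hx fun g hg => ?_
    rw [heq]
    exact ⟨bracket_invariant (le_normalizer_blk h A hg.2) hxA, bracket_invariant (le_normalizer_blk h B hg.2) hxB⟩
  · have eA : U = pl ρ K A := Submodule.eq_of_le_of_finrank_le inf_le_left (by omega)
    have eB : U = pl ρ K B := Submodule.eq_of_le_of_finrank_le inf_le_right (by omega)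
    exact eA.symm.trans eB

theorem mem_pl_of_fix (h : Hyp ρ K) (hA : Off ρ A) (hcA : Nat.card A = p) (hB : Off ρ B) (hcB : Nat.card B = p)
    {b : Γ} (hb : b ∈ B) {y : M} (hy : y ∈ pl ρ K A) : ρ b y ∈ pl ρ K A := by
  rcases eq_or_ne b 1 with rfl | hb1
  · rwa [map_one, Module.End.one_apply]
  obtain ⟨w, ψ, hT⟩ := exists_tv h hB hcB hb hb1
  obtain ⟨x, hx, hx0, hψ⟩ : ∃ x ∈ pl ρ K A, x ≠ 0 ∧ ψ x = 0 := by
    by_contra hc
    push Not at hc
    have hinj : Function.Injective (ψ.comp (pl ρ K A).subtype) := by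
      rw [injective_iff_map_eq_zero]
      intro z hz
      by_contra hz0
      exact hc z z.2 (fun e => hz0 (Subtype.ext e)) hz
    have h3 := LinearMap.finrank_le_finrank_of_injective hinj
    rw [finrank_pl h hA hcA, Module.finrank_self] at h3
    omega
  set A' := A.map (MulAut.conj b).toMonoidHom
  have hA' : Off ρ A' := hA.conj h b
  have hcA' : Nat.card A' = p := by rw [Subgroup.card_map_of_injective (f := (MulAut.conj b).toMonoidHom) (MulAut.conj b).injective, hcA]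
  have himg : ∀ z ∈ pl ρ K A, ρ b z ∈ pl ρ K A' := fun z hz => by
    have := bracket_conj b hz
    rwa [blk_conj h] at this
  have hxfix : ρ b x = x := by rw [hT.app, hψ, zero_smul, add_zero]
  rw [pl_eq_of_mem h hA hcA hA' hcA' hx (hxfix ▸ himg x hx) hx0]
  exact himg y hy

/-- The set of minimal offenders. -/
def Gens (ρ : Γ →* Module.End (ZMod p) M) : Set (Subgroup Γ) := {B | Off ρ B ∧ Nat.card B = p}

theorem mem_pl (h : Hyp ρ K) (hgen : sSup (Gens ρ) = ⊤) (hA : Off ρ A) (hcA : Nat.card A = p) (g : Γ) :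
    ∀ {y : M}, y ∈ pl ρ K A → ρ g y ∈ pl ρ K A := by
  let S : Subgroup Γ :=
    { carrier := {g | ∀ y, y ∈ pl ρ K A ↔ ρ g y ∈ pl ρ K A}
      mul_mem' := fun {g k} hg hk y => by rw [apply_mul, hk y, hg]
      one_mem' := fun y => by rw [map_one, Module.End.one_apply]
      inv_mem' := fun {g} hg y => by rw [hg (ρ g⁻¹ y), apply_cancel_inv] }
  have hS : sSup (Gens ρ) ≤ S := sSup_le fun B hB b hb y =>
    ⟨mem_pl_of_fix h hA hcA hB.1 hB.2 hb, fun hy => by
      have := mem_pl_of_fix h hA hcA hB.1 hB.2 (B.inv_mem hb) hy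
      rwa [apply_inv_cancel] at this⟩
  intro y hy
  exact (hS (hgen ▸ mem_top g) y).1 hy

theorem fixes_of_ne (h : Hyp ρ K) (hgen : sSup (Gens ρ) = ⊤) (hA : Off ρ A) (hcA : Nat.card A = p) (hB : Off ρ B)
    (hcB : Nat.card B = p) (hne : pl ρ K A ≠ pl ρ K B) {b : Γ} (hb : b ∈ B) : b ∈ stab ρ (pl ρ K A) := by
  intro x hx
  by_contra hne'
  exact hne (pl_eq_of_mem h hA hcA hB hcB (Submodule.sub_mem _ (mem_pl h hgen hA hcA b hx) hx)
    (sub_mem_bracket (mem_sup_right hb) x) (sub_ne_zero.2 hne'))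

theorem commute_of_ne (h : Hyp ρ K) (hgen : sSup (Gens ρ) = ⊤) (hA : Off ρ A) (hcA : Nat.card A = p) (hB : Off ρ B)
    (hcB : Nat.card B = p) (hne : pl ρ K A ≠ pl ρ K B) {a b : Γ} (ha : a ∈ A) (hb : b ∈ B) : Commute a b := by
  rcases eq_or_ne a 1 with rfl | ha1
  · exact Commute.one_left b
  rcases eq_or_ne b 1 with rfl | hb1
  · exact Commute.one_right a
  obtain ⟨u, φ, hTa⟩ := exists_tv h hA hcA ha ha1
  obtain ⟨w, ψ, hTb⟩ := exists_tv h hB hcB hb hb1
  have key : ∀ {C : Subgroup Γ} {c : Γ} {z : M} {χ : M →ₗ[ZMod p] ZMod p}, c ∈ C → Tv ρ c z χ → z ∈ pl ρ K C := by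
    intro C c z χ hc hT
    obtain ⟨v, hv⟩ : ∃ v, χ v ≠ 0 := by
      by_contra hh
      push Not at hh
      exact hT.axis_ne (LinearMap.ext hh)
    have h1 := sub_mem_bracket (ρ := ρ) (A := blk K C) (mem_sup_right hc) v
    rw [hT.app, add_sub_cancel_left] at h1
    simpa [smul_smul, hv] using Submodule.smul_mem _ (χ v)⁻¹ h1
  have h1 := fixes_of_ne h hgen hA hcA hB hcB hne hb _ (key ha hTa)
  have h2 := fixes_of_ne h hgen hB hcB hA hcA (Ne.symm hne) ha _ (key hb hTb)
  rw [hTb.app, add_eq_left, smul_eq_zero, or_iff_left hTb.center_ne] at h1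
  rw [hTa.app, add_eq_left, smul_eq_zero, or_iff_left hTa.center_ne] at h2
  refine h.inj (LinearMap.ext fun v => ?_)
  rw [apply_mul, apply_mul, hTb.app, hTa.app, hTa.app v, hTb.app, map_add, map_add, map_smul, map_smul, h1, h2]
  simp only [smul_zero, add_zero]
  abel

theorem commute_blk_of_ne (h : Hyp ρ K) (hgen : sSup (Gens ρ) = ⊤) (hA : Off ρ A) (hcA : Nat.card A = p)
    (hB : Off ρ B) (hcB : Nat.card B = p) (hne : pl ρ K A ≠ pl ρ K B) :
    B ≤ centralizer ((blk K A : Subgroup Γ) : Set Γ) := by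
  obtain ⟨a, b', u, w, φ, ψ, hP⟩ := exists_pair h hA hcA
  intro b hb
  have hle : blk K A ≤ centralizer ({b} : Set Γ) := by
    rw [hP.blk_eq, closure_le]
    rintro x (rfl | rfl)
    · exact mem_centralizer_singleton_iff.2 (commute_of_ne h hgen hA hcA hB hcB hne (hP.gen ▸ mem_zpowers _) hb).eq
    · obtain ⟨k, hk, rfl⟩ := hP.mem
      have hpl : pl ρ K (A.map (MulAut.conj k).toMonoidHom) = pl ρ K A := by
        show bracket ρ (blk K (A.map (MulAut.conj k).toMonoidHom)) = _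
        rw [← blk_conj h, show (blk K A).map (MulAut.conj k).toMonoidHom = blk K A from
          Subgroup.mem_normalizer_iff_map_conj_eq.1 (le_normalizer_blk h A hk)]
      refine mem_centralizer_singleton_iff.2 (commute_of_ne h hgen (hA.conj h k) ?_ hB hcB (by rw [hpl]; exact hne)
        ⟨a, hP.gen ▸ mem_zpowers a, rfl⟩ hb).eq
      rw [Subgroup.card_map_of_injective (f := (MulAut.conj k).toMonoidHom) (MulAut.conj k).injective, hcA]
  exact mem_centralizer_iff.2 fun x hx => mem_centralizer_singleton_iff.1 (hle hx)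

theorem le_blk_of_eq (h : Hyp ρ K) (hA : Off ρ A) (hcA : Nat.card A = p) (hB : Off ρ B)
    (hcB : Nat.card B = p) (heq : pl ρ K A = pl ρ K B) : B ≤ blk K A := by
  obtain ⟨b, hb, hb1, hgenB⟩ := exists_gen hcB
  rw [← hgenB, zpowers_le]
  obtain ⟨x, ψ, hTb⟩ := exists_tv h hB hcB hb hb1
  obtain ⟨a, b', u, w, φ, ψ', hP⟩ := exists_pair h hA hcA
  have hxW : x ∈ pl ρ K A := by
    rw [heq]
    obtain ⟨v, hv⟩ : ∃ v, ψ v ≠ 0 := by
      by_contra hh
      push Not at hh
      exact hTb.axis_ne (LinearMap.ext hh)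
    have h1 := sub_mem_bracket (ρ := ρ) (A := blk K B) (mem_sup_right hb) v
    rw [hTb.app, add_sub_cancel_left] at h1
    simpa [smul_smul, hv] using Submodule.smul_mem _ (ψ v)⁻¹ h1
  have hx' := hxW
  rw [pl, hP.bracket_eq] at hx'
  obtain ⟨cd, hcd⟩ := hx'
  rw [plane_apply] at hcd
  -- an element of the block with the same centre
  obtain ⟨c, z, χ, μ, hcE, hTc, hμ⟩ : ∃ c z χ, ∃ μ : ZMod p, c ∈ blk K A ∧ Tv ρ c z χ ∧ x = μ • z := by
    by_cases hβ : cd 1 = 0
    · exact ⟨a, u, φ, cd 0, hP.mem_a, hP.ha, by rw [← hcd, hβ, zero_smul, add_zero]⟩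
    · refine ⟨_, _, _, cd 1, ?_, hP.hb.conj (a ^ (cd 0 / (cd 1 * φ w)).val), ?_⟩
      · exact mul_mem (mul_mem (pow_mem hP.mem_a _) hP.mem_b) (inv_mem (pow_mem hP.mem_a _))
      · rw [hP.ha.app_pow, ZMod.natCast_zmod_val, smul_add, smul_smul, ← hcd, add_comm]
        congr 2
        field_simp [hP.hd]
  obtain ⟨y, hyW, hy⟩ : ∃ y ∈ pl ρ K A, χ y ≠ 0 := by
    by_contra hh
    push Not at hh
    refine hTc.axis_ne (LinearMap.ext fun v => ?_)
    obtain ⟨w', hw', f, hf, rfl⟩ := Submodule.mem_sup.1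
      ((isCompl_blk h hA hcA).sup_eq_top ▸ Submodule.mem_top : v ∈ pl ρ K A ⊔ fix ρ (blk K A))
    have h1 := mem_fix.1 hf c hcE
    rw [hTc.app, add_eq_left, smul_eq_zero, or_iff_left hTc.center_ne] at h1
    rw [map_add, hh w' hw', h1, add_zero, LinearMap.zero_apply]
  set n := (μ * ψ y / χ y).val
  set θ : M →ₗ[ZMod p] ZMod p := μ • ψ - (n : ZMod p) • χ with hθ
  set d := b * (c ^ n)⁻¹
  have hψz : μ * ψ z = 0 := by
    have := hTb.center_mem
    rwa [hμ, map_smul, smul_eq_mul] at this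
  have happ : ∀ v, ρ d v = v + θ v • z := fun v => by
    have hinv : ρ (c ^ n)⁻¹ v = v - ((n : ZMod p) * χ v) • z := by
      have h1 : ρ (c ^ n) (v - ((n : ZMod p) * χ v) • z) = v := by
        rw [hTc.app_pow, map_sub, map_smul, hTc.center_mem, smul_zero, sub_zero, sub_add_cancel]
      conv_lhs => rw [← h1, apply_inv_cancel]
    rw [apply_mul, hinv, hTb.app, hθ, LinearMap.sub_apply, LinearMap.smul_apply, LinearMap.smul_apply, map_sub,
      map_smul, hμ, smul_smul, smul_eq_mul, smul_eq_mul, smul_eq_mul, sub_mul, mul_assoc _ (ψ z) μ, mul_comm (ψ z) μ,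
      hψz, mul_zero, sub_zero, sub_smul, mul_comm (ψ v) μ]
    abel
  have hθz : θ z = 0 := by
    rw [hθ, LinearMap.sub_apply, LinearMap.smul_apply, LinearMap.smul_apply, smul_eq_mul, smul_eq_mul, hψz,
      hTc.center_mem, mul_zero, sub_zero]
  have hθy : θ y = 0 := by
    rw [hθ, LinearMap.sub_apply, LinearMap.smul_apply, LinearMap.smul_apply, smul_eq_mul, smul_eq_mul,
      ZMod.natCast_zmod_val, div_mul_cancel₀ _ hy, sub_self]
  have hzW : z ∈ pl ρ K A := by
    have h1 := sub_mem_bracket (ρ := ρ) hcE y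
    rw [hTc.app, add_sub_cancel_left] at h1
    simpa [smul_smul, hy] using Submodule.smul_mem _ (χ y)⁻¹ h1
  have hWspan : pl ρ K A = Submodule.span (ZMod p) {z, y} := by
    refine (Submodule.eq_of_le_of_finrank_le (Submodule.span_le.2 (by rintro r (rfl | rfl) <;> assumption)) ?_).symm
    rw [finrank_pl h hA hcA]
    have hli : LinearIndependent (ZMod p) ![z, y] := by
      rw [LinearIndependent.pair_iff' hTc.center_ne]
      intro t ht
      exact hy (by rw [← ht, map_smul, hTc.center_mem, smul_zero])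
    have h3 := finrank_span_eq_card hli
    rw [show Set.range ![z, y] = {z, y} by simp [Set.pair_comm]] at h3
    rw [h3]; simp
  have hθW : ∀ v ∈ pl ρ K A, θ v = 0 := fun v hv => by
    rw [hWspan] at hv
    obtain ⟨r, s, rfl⟩ := Submodule.mem_span_pair.1 hv
    rw [map_add, map_smul, map_smul, hθz, hθy, smul_zero, smul_zero, add_zero]
  by_cases hθ0 : θ = 0
  · have hd1 : d = 1 := h.inj (LinearMap.ext fun v => by rw [happ, hθ0, map_one]; simp)
    rw [mul_inv_eq_one.1 hd1]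
    exact pow_mem hcE n
  exfalso
  have hTd : Tv ρ d z θ := ⟨hTc.center_ne, hθ0, happ, hθz⟩
  set D := zpowers d
  have hdp : d ^ p = 1 := h.inj (LinearMap.ext fun v => by
    rw [hTd.app_pow, ZMod.natCast_self, zero_mul, zero_smul, add_zero, map_one, Module.End.one_apply])
  have hd1 : d ≠ 1 := fun e => by
    obtain ⟨v, hv⟩ : ∃ v, θ v ≠ 0 := by
      by_contra hh
      push Not at hh
      exact hθ0 (LinearMap.ext hh)
    have := happ v
    rw [e, map_one, Module.End.one_apply, left_eq_add, smul_eq_zero] at this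
    exact this.elim hv hTc.center_ne
  have hcD : Nat.card D = p := by rw [Nat.card_zpowers, orderOf_eq_prime hdp hd1]
  have hfixD : fix ρ D = LinearMap.ker θ := by
    ext v
    rw [mem_fix, LinearMap.mem_ker]
    constructor
    · intro hv
      have := hv d (mem_zpowers d)
      rwa [happ, add_eq_left, smul_eq_zero, or_iff_left hTc.center_ne] at this
    · intro hv g hg
      obtain ⟨i, rfl⟩ := mem_powers_iff_mem_zpowers.2 hg
      show ρ (d ^ i) v = v
      rw [hTd.app_pow, hv, mul_zero, zero_smul, add_zero]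
  have hoffD : Off ρ D := by
    refine off_of_card_eq h (elem_zpowers hdp) ?_
    have hr : LinearMap.range θ = ⊤ := by
      rw [eq_top_iff]
      intro t _
      obtain ⟨v, hv⟩ : ∃ v, θ v ≠ 0 := by
        by_contra hh
        push Not at hh
        exact hθ0 (LinearMap.ext hh)
      exact ⟨(t / θ v) • v, by rw [map_smul, smul_eq_mul, div_mul_cancel₀ _ hv]⟩
    have h3 := LinearMap.finrank_range_add_finrank_ker θ
    rw [hr, finrank_top, Module.finrank_self] at h3
    rw [hcD, hfixD, Module.natCard_eq_pow_finrank (K := ZMod p), Module.natCard_eq_pow_finrank (K := ZMod p) (V := M),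
      Nat.card_zmod, ← h3, pow_add, pow_one]
  have hzD : z ∈ pl ρ K D := by
    obtain ⟨v, hv⟩ : ∃ v, θ v ≠ 0 := by
      by_contra hh
      push Not at hh
      exact hθ0 (LinearMap.ext hh)
    have h1 := sub_mem_bracket (ρ := ρ) (A := blk K D) (mem_sup_right (mem_zpowers d)) v
    rw [happ, add_sub_cancel_left] at h1
    simpa [smul_smul, hv] using Submodule.smul_mem _ (θ v)⁻¹ h1
  have hpl := pl_eq_of_mem h hA hcA hoffD hcD hzW hzD hTc.center_ne
  obtain ⟨d', e', u', w', φ', ψ'', hP'⟩ := exists_pair h hoffD hcD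
  have hw' : w' ∈ pl ρ K A := by
    rw [hpl, pl, hP'.bracket_eq]
    exact ⟨![0, 1], by simp [plane_apply]⟩
  have hfx : ρ d' w' = w' := mem_fix.1 (show w' ∈ fix ρ D by rw [hfixD]; exact hθW _ hw') d' (by
    rw [← hP'.gen]; exact mem_zpowers d')
  rw [hP'.ha.app, add_eq_left, smul_eq_zero] at hfx
  exact hfx.elim hP'.hd hP'.ha.center_ne

theorem blk_le_of_eq (h : Hyp ρ K) (hA : Off ρ A) (hcA : Nat.card A = p) (hB : Off ρ B)
    (hcB : Nat.card B = p) (heq : pl ρ K A = pl ρ K B) : blk K B ≤ blk K A := by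
  refine sup_le (commutator_le.2 fun k hk b hb => ?_) (le_blk_of_eq h hA hcA hB hcB heq)
  have hbA := le_blk_of_eq h hA hcA hB hcB heq hb
  rw [commutatorElement_def]
  exact mul_mem ((mem_normalizer_iff.1 (le_normalizer_blk h A hk) b).1 hbA) (inv_mem hbA)

theorem blk_eq_iff (h : Hyp ρ K) (hA : Off ρ A) (hcA : Nat.card A = p) (hB : Off ρ B) (hcB : Nat.card B = p) :
    blk K A = blk K B ↔ pl ρ K A = pl ρ K B :=
  ⟨fun e => by rw [pl, e], fun e => le_antisymm (blk_le_of_eq h hB hcB hA hcA e.symm) (blk_le_of_eq h hA hcA hB hcB e)⟩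

theorem gens_split (h : Hyp ρ K) (hgen : sSup (Gens ρ) = ⊤) (hA : Off ρ A) (hcA : Nat.card A = p) :
    blk K A ⊔ (stab ρ (pl ρ K A) ⊓ centralizer ((blk K A : Subgroup Γ) : Set Γ)) = ⊤ := by
  rw [eq_top_iff, ← hgen]
  refine sSup_le fun B hB => ?_
  by_cases he : pl ρ K A = pl ρ K B
  · exact (le_blk_of_eq h hA hcA hB.1 hB.2 he).trans le_sup_left
  · exact le_trans (le_inf (fun b hb => fixes_of_ne h hgen hA hcA hB.1 hB.2 he hb)
      (commute_blk_of_ne h hgen hA hcA hB.1 hB.2 he)) le_sup_right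

theorem blk_normal (h : Hyp ρ K) (hgen : sSup (Gens ρ) = ⊤) (hA : Off ρ A) (hcA : Nat.card A = p) :
    (blk K A).Normal := by
  rw [← normalizer_eq_top_iff, eq_top_iff, ← gens_split h hgen hA hcA]
  exact sup_le le_normalizer (inf_le_right.trans (centralizer_le_normalizer _))

theorem blk_inf_stab (h : Hyp ρ K) (hA : Off ρ A) (hcA : Nat.card A = p) :
    blk K A ⊓ stab ρ (pl ρ K A) = ⊥ := by
  rw [eq_bot_iff]
  rintro g ⟨hg, hgs⟩
  rw [mem_bot]
  refine h.inj (LinearMap.ext fun v => ?_)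
  rw [map_one, Module.End.one_apply]
  obtain ⟨w, hw, z, hz, rfl⟩ := Submodule.mem_sup.1
    ((isCompl_blk h hA hcA).sup_eq_top ▸ Submodule.mem_top : v ∈ pl ρ K A ⊔ fix ρ (blk K A))
  rw [map_add, mem_fix.1 hz g hg, hgs w hw]

theorem stab_le_centralizer (h : Hyp ρ K) (hgen : sSup (Gens ρ) = ⊤) (hA : Off ρ A) (hcA : Nat.card A = p) :
    stab ρ (pl ρ K A) ≤ centralizer ((blk K A : Subgroup Γ) : Set Γ) := by
  haveI := blk_normal h hgen hA hcA
  intro g hg
  have hm : g ∈ ((blk K A ⊔ (stab ρ (pl ρ K A) ⊓ centralizer ((blk K A : Subgroup Γ) : Set Γ)) : Subgroup Γ) : Set Γ) := by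
    rw [gens_split h hgen hA hcA]; exact mem_top g
  rw [Subgroup.normal_mul] at hm
  obtain ⟨e, he, r, hr, rfl⟩ := hm
  have h1 : e ∈ blk K A ⊓ stab ρ (pl ρ K A) := ⟨he, by
    have := mul_mem hg (inv_mem hr.1)
    rwa [mul_inv_cancel_right] at this⟩
  rw [blk_inf_stab h hA hcA, mem_bot] at h1
  show e * r ∈ _
  rw [h1, one_mul]
  exact hr.2

theorem sup_stab (h : Hyp ρ K) (hgen : sSup (Gens ρ) = ⊤) (hA : Off ρ A) (hcA : Nat.card A = p) :
    blk K A ⊔ stab ρ (pl ρ K A) = ⊤ :=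
  top_le_iff.1 ((gens_split h hgen hA hcA).ge.trans (sup_le_sup_left inf_le_left _))

theorem stab_sub_mem (h : Hyp ρ K) (hgen : sSup (Gens ρ) = ⊤) (hA : Off ρ A) (hcA : Nat.card A = p) {g : Γ}
    (hg : g ∈ stab ρ (pl ρ K A)) (v : M) : ρ g v - v ∈ fix ρ (blk K A) := by
  obtain ⟨w, hw, z, hz, rfl⟩ := Submodule.mem_sup.1
    ((isCompl_blk h hA hcA).sup_eq_top ▸ Submodule.mem_top : v ∈ pl ρ K A ⊔ fix ρ (blk K A))
  rw [map_add, hg w hw, add_sub_add_left_eq_sub]
  refine Submodule.sub_mem _ (mem_fix.2 fun e he => ?_) hz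
  rw [← apply_mul, (mem_centralizer_iff.1 (stab_le_centralizer h hgen hA hcA hg) e he : e * g = g * e), apply_mul,
    mem_fix.1 hz e he]

theorem blk_le_stab_of_ne (h : Hyp ρ K) (hgen : sSup (Gens ρ) = ⊤) (hA : Off ρ A) (hcA : Nat.card A = p)
    (hB : Off ρ B) (hcB : Nat.card B = p) (hne : pl ρ K A ≠ pl ρ K B) : blk K B ≤ stab ρ (pl ρ K A) := by
  have hn : (stab ρ (pl ρ K A)).Normal := ⟨fun n hn g x hx => by
    rw [apply_mul, apply_mul, hn _ (mem_pl h hgen hA hcA g⁻¹ hx), apply_cancel_inv]⟩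
  have hle : B ≤ stab ρ (pl ρ K A) := fun b hb => fixes_of_ne h hgen hA hcA hB hcB hne hb
  refine sup_le (commutator_le.2 fun k _ b hb => ?_) hle
  rw [commutatorElement_def]
  exact mul_mem (hn.conj_mem _ (hle hb) k) (inv_mem (hle hb))

theorem pl_le_fix_of_ne (h : Hyp ρ K) (hgen : sSup (Gens ρ) = ⊤) (hA : Off ρ A) (hcA : Nat.card A = p)
    (hB : Off ρ B) (hcB : Nat.card B = p) (hne : pl ρ K A ≠ pl ρ K B) : pl ρ K B ≤ fix ρ (blk K A) :=
  fun x hx => mem_fix.2 fun g hg => blk_le_stab_of_ne h hgen hB hcB hA hcA (Ne.symm hne) hg x hx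

theorem plane_family {ι : Type*} (W Z : ι → Submodule (ZMod p) M) (hd : ∀ i, W i ⊓ Z i = ⊥)
    (hs : ∀ i, W i ⊔ Z i = ⊤) (hne : ∀ i j, i ≠ j → W i ≤ Z j) (S : Finset ι) :
    (⨆ i ∈ S, W i) ⊔ (⨅ i ∈ S, Z i) = ⊤ ∧ (⨆ i ∈ S, W i) ⊓ (⨅ i ∈ S, Z i) = ⊥ := by
  classical
  induction S using Finset.induction_on with
  | empty => simp
  | insert i S hi ih =>
    rw [Finset.iSup_insert, Finset.iInf_insert]
    set SW := ⨆ j ∈ S, W j
    set SZ := ⨅ j ∈ S, Z j
    have h1 : W i ≤ SZ := le_iInf₂ fun j hj => hne i j fun e => hi (e ▸ hj)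
    have h2 : SW ≤ Z i := iSup₂_le fun j hj => hne j i fun e => hi (e ▸ hj)
    constructor
    · refine top_le_iff.1 (ih.1.ge.trans (sup_le (le_sup_of_le_left le_sup_right) ?_))
      intro v hv
      obtain ⟨w, hw, z, hz, rfl⟩ := Submodule.mem_sup.1 ((hs i) ▸ Submodule.mem_top : v ∈ W i ⊔ Z i)
      refine Submodule.add_mem _ (Submodule.mem_sup_left (Submodule.mem_sup_left hw)) (Submodule.mem_sup_right ⟨hz, ?_⟩)
      simpa using Submodule.sub_mem _ hv (h1 hw)
    · rw [eq_bot_iff]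
      rintro v ⟨hv, hzi, hzS⟩
      obtain ⟨w, hw, y, hy, rfl⟩ := Submodule.mem_sup.1 hv
      have hw0 : w ∈ W i ⊓ Z i := ⟨hw, by simpa using Submodule.sub_mem _ hzi (h2 hy)⟩
      rw [hd i, Submodule.mem_bot] at hw0
      subst hw0
      rw [zero_add] at hzS ⊢
      rw [← ih.2]
      exact ⟨hy, hzS⟩

end Cfsg.Lib.PLocal.FF
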