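import Mathlib
import Cfsg.Agent.Lib.Solv.Cores
import Cfsg.Agent.Lib.PLocal.FFFactors

/-!
Translation between subgroups acting by conjugation on an elementary abelian subgroup and modules.
-/

set_option autoImplicit false
set_option linter.unusedSectionVars false
set_option linter.style.haveILetI false

open scoped commutatorElement IsMulCommutative

namespace Cfsg.Lib.PLocal.FF

open Subgroup

variable {G : Type*} [Group G] [Finite G] {p : ℕ} [hp : Fact p.Prime] {V H : Subgroup G}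
variable [IsMulCommutative ↥V] [Module (ZMod p) (Additive ↥V)]

/-- Conjugation as a representation. -/
noncomputable def conjRep (hHV : H ≤ normalizer (V : Set G)) : ↥H →* Module.End (ZMod p) (Additive ↥V) where
  toFun h :=
    { toFun := fun x => Additive.ofMul
        ⟨(h : G) * (Additive.toMul x : ↥V) * (h : G)⁻¹, (mem_normalizer_iff.1 (hHV h.2) _).1 (Additive.toMul x).2⟩
      map_add' := fun x y => Additive.toMul.injective (Subtype.ext (by simp [mul_assoc]))
      map_smul' := fun c x => by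
        refine ZMod.map_smul (⟨⟨fun x => Additive.ofMul (⟨(h : G) * (Additive.toMul x : ↥V) * (h : G)⁻¹,
          (mem_normalizer_iff.1 (hHV h.2) _).1 (Additive.toMul x).2⟩ : ↥V), ?_⟩, ?_⟩ :
            Additive ↥V →+ Additive ↥V) c x
        · exact Additive.toMul.injective (Subtype.ext (by simp))
        · exact fun x y => Additive.toMul.injective (Subtype.ext (by simp [mul_assoc])) }
  map_one' := LinearMap.ext fun x => Additive.toMul.injective (Subtype.ext (by simp))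
  map_mul' g h := LinearMap.ext fun x => Additive.toMul.injective (Subtype.ext (by simp [mul_assoc]))

theorem conjRep_apply (hHV : H ≤ normalizer (V : Set G)) (h : ↥H) (x : Additive ↥V) :
    ((Additive.toMul (conjRep (p := p) hHV h x) : ↥V) : G) = (h : G) * (Additive.toMul x : ↥V) * (h : G)⁻¹ := rfl

theorem conjRep_fix_iff (hHV : H ≤ normalizer (V : Set G)) (h : ↥H) (x : Additive ↥V) :
    conjRep (p := p) hHV h x = x ↔ Commute (h : G) ((Additive.toMul x : ↥V) : G) := by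
  rw [← Additive.toMul.injective.eq_iff, Subtype.ext_iff, conjRep_apply]
  exact mul_inv_eq_iff_eq_mul

theorem conjRep_injective (hHV : H ≤ normalizer (V : Set G)) (hf : H ⊓ centralizer (V : Set G) = ⊥) :
    Function.Injective (conjRep (p := p) hHV) := by
  rw [injective_iff_map_eq_one]
  intro h hh
  refine Subtype.ext ?_
  have h1 : (h : G) ∈ H ⊓ centralizer (V : Set G) := ⟨h.2, mem_centralizer_iff.2 fun v hv =>
    ((conjRep_fix_iff (p := p) hHV h (Additive.ofMul ⟨v, hv⟩)).1 (by rw [hh]; rfl)).eq.symm⟩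
  rwa [hf, mem_bot] at h1

theorem hyp_conjRep (hHV : H ≤ normalizer (V : Set G)) (hf : H ⊓ centralizer (V : Set G) = ⊥)
    (hS1 : centralizer (Cfsg.pPrimeCore p ↥H : Set ↥H) ≤ Cfsg.pPrimeCore p ↥H) :
    Hyp (conjRep (p := p) hHV) (Cfsg.pPrimeCore p ↥H) :=
  ⟨conjRep_injective hHV hf, Cfsg.Lib.Transfer.pPrimeCore_normal p, Cfsg.Lib.Solv.not_dvd_card_pPrimeCore p, hS1⟩

theorem card_fix_eq (hHV : H ≤ normalizer (V : Set G)) {A : Subgroup G} (hA : A ≤ H) :
    Nat.card (fix (conjRep (p := p) hHV) (A.subgroupOf H)) = Nat.card ↥(V ⊓ centralizer (A : Set G)) :=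
  Nat.card_congr
    { toFun := fun x => ⟨((Additive.toMul (x : Additive ↥V) : ↥V) : G), (Additive.toMul (x : Additive ↥V)).2,
        mem_centralizer_iff.2 fun a ha => ((conjRep_fix_iff (p := p) hHV ⟨a, hA ha⟩ _).1 (mem_fix.1 x.2 _ ha)).eq⟩
      invFun := fun v => ⟨Additive.ofMul ⟨v, v.2.1⟩, mem_fix.2 fun a ha =>
        (conjRep_fix_iff (p := p) hHV a _).2 (mem_centralizer_iff.1 v.2.2 _ ha)⟩
      left_inv := fun _ => rfl
      right_inv := fun _ => rfl }

theorem off_iff (hHV : H ≤ normalizer (V : Set G)) (hf : H ⊓ centralizer (V : Set G) = ⊥) {A : Subgroup G} (hA : A ≤ H) :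
    Cfsg.IsBestOffenderOn p V A ↔ Off (conjRep (p := p) hHV) (A.subgroupOf H) := by
  have hc : ∀ B : Subgroup G, B ≤ H → Nat.card ↥(B.subgroupOf H) = Nat.card ↥B := fun B hB =>
    Nat.card_congr (subgroupOfEquivOfLe hB).toEquiv
  have htriv : ∀ x ∈ H, x ∈ centralizer (V : Set G) → x = 1 := fun x h1 h2 => by
    have : x ∈ H ⊓ centralizer (V : Set G) := ⟨h1, h2⟩
    rwa [hf, mem_bot] at this
  constructor
  · rintro ⟨h1, h2, h3⟩
    refine ⟨fun B hB => ?_, elem_mk (fun x hx y hy => ?_) fun x hx => Subtype.ext ?_⟩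
    · obtain ⟨B', rfl⟩ : ∃ B' : Subgroup G, B = B'.subgroupOf H :=
        ⟨B.map H.subtype, (comap_map_eq_self_of_injective H.subtype_injective B).symm⟩
      have hle : (B'.subgroupOf H).map H.subtype ≤ A := by
        rw [map_le_iff_le_comap]; exact hB
      rw [subgroupOf_map_subtype] at hle
      have := h1 _ hle
      rw [← inf_subgroupOf_right, hc _ inf_le_right, hc A hA, card_fix_eq hHV inf_le_right, card_fix_eq hHV hA]
      exact this
    · refine Subtype.ext ?_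
      have h4 := htriv ⁅(x : G), (y : G)⁆
        (mul_mem (mul_mem (mul_mem x.2 y.2) (inv_mem x.2)) (inv_mem y.2))
        (h2 (commutator_mem_commutator hx hy))
      exact commutatorElement_eq_one_iff_mul_comm.1 h4
    · exact htriv _ (pow_mem x.2 p) (h3 _ hx)
  · rintro ⟨h1, h2⟩
    refine ⟨fun B hB => ?_, commutator_le.2 fun x hx y hy => ?_, fun a ha => ?_⟩
    · have := h1 (B.subgroupOf H) (comap_mono hB)
      rwa [hc B (hB.trans hA), hc A hA, card_fix_eq hHV (hB.trans hA), card_fix_eq hHV hA] at this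
    · have h4 : (⟨x, hA hx⟩ : ↥H) * ⟨y, hA hy⟩ = ⟨y, hA hy⟩ * ⟨x, hA hx⟩ := elem_comm h2 hx hy
      rw [commutatorElement_eq_one_iff_mul_comm.2 (congrArg Subtype.val h4 : x * y = y * x)]
      exact one_mem _
    · have h4 : (⟨a, hA ha⟩ : ↥H) ^ p = 1 := h2.2 _ ha
      rw [show a ^ p = 1 from congrArg Subtype.val h4]
      exact one_mem _

theorem commutator_eq_bot_iff' (hf : H ⊓ centralizer (V : Set G) = ⊥) {A : Subgroup G} (hA : A ≤ H) :
    ⁅V, A⁆ = ⊥ ↔ A = ⊥ := by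
  refine ⟨fun h => le_bot_iff.1 (hf ▸ le_inf hA ?_), fun h => by rw [h, commutator_bot_right]⟩
  rw [le_centralizer_iff]
  exact commutator_eq_bot_iff_le_centralizer.1 h

theorem mem_commutator_iff (hHV : H ≤ normalizer (V : Set G)) {A : Subgroup G} (hA : A ≤ H) (x : ↥V) :
    (x : G) ∈ ⁅V, A⁆ ↔ Additive.ofMul x ∈ bracket (conjRep (p := p) hHV) (A.subgroupOf H) := by
  let S : Submodule (ZMod p) (Additive ↥V) :=
    AddSubgroup.toZModSubmodule p ((⁅V, A⁆ : Subgroup G).subgroupOf V).toAddSubgroup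
  have hle : bracket (conjRep (p := p) hHV) (A.subgroupOf H) ≤ S := by
    refine bracket_le fun g hg v => ?_
    show ((Additive.toMul (conjRep (p := p) hHV g v - v) : ↥V) : G) ∈ ⁅V, A⁆
    have e : ((Additive.toMul (conjRep (p := p) hHV g v - v) : ↥V) : G) =
        (⁅((Additive.toMul v : ↥V) : G), (g : G)⁆)⁻¹ := by
      rw [toMul_sub, div_eq_mul_inv, Subgroup.coe_mul, InvMemClass.coe_inv, conjRep_apply, commutatorElement_def]
      group
    rw [e]
    exact inv_mem (commutator_mem_commutator (Additive.toMul v).2 hg)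
  constructor
  · intro hx
    let T : Subgroup G := ((bracket (conjRep (p := p) hHV) (A.subgroupOf H)).toAddSubgroup.toSubgroup').map V.subtype
    have hT : ⁅V, A⁆ ≤ T := by
      rw [commutator_le]
      intro v hv a ha
      refine ⟨Additive.toMul (Additive.ofMul (⟨v, hv⟩ : ↥V) - conjRep (p := p) hHV ⟨a, hA ha⟩ (Additive.ofMul ⟨v, hv⟩)), ?_, ?_⟩
      · show Additive.ofMul (⟨v, hv⟩ : ↥V) - conjRep (p := p) hHV ⟨a, hA ha⟩ (Additive.ofMul ⟨v, hv⟩) ∈
          bracket (conjRep (p := p) hHV) (A.subgroupOf H)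
        have := Submodule.neg_mem _ (sub_mem_bracket (ρ := conjRep (p := p) hHV) (show (⟨a, hA ha⟩ : ↥H) ∈ A.subgroupOf H from ha) (Additive.ofMul (⟨v, hv⟩ : ↥V)))
        rwa [neg_sub] at this
      · show ((Additive.toMul (Additive.ofMul (⟨v, hv⟩ : ↥V) - conjRep (p := p) hHV ⟨a, hA ha⟩ (Additive.ofMul ⟨v, hv⟩)) : ↥V) : G) = ⁅v, a⁆
        rw [toMul_sub, div_eq_mul_inv, Subgroup.coe_mul, InvMemClass.coe_inv, conjRep_apply, commutatorElement_def]
        simp [mul_assoc]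
    obtain ⟨y, hy, hyx⟩ := hT hx
    rw [← show y = x from Subtype.ext hyx]
    exact hy
  · exact fun hx => hle hx

theorem card_commutator_eq (hHV : H ≤ normalizer (V : Set G)) {A : Subgroup G} (hA : A ≤ H) :
    Nat.card ↥(⁅V, A⁆) = Nat.card (bracket (conjRep (p := p) hHV) (A.subgroupOf H)) := by
  have hle : ⁅V, A⁆ ≤ V := Cfsg.Lib.Solv.commutator_le_of_normalizes (hA.trans hHV)
  exact Nat.card_congr
    { toFun := fun x => ⟨Additive.ofMul ⟨x, hle x.2⟩, (mem_commutator_iff hHV hA _).1 x.2⟩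
      invFun := fun y => ⟨((Additive.toMul (y : Additive ↥V) : ↥V) : G), (mem_commutator_iff hHV hA _).2 y.2⟩
      left_inv := fun _ => rfl
      right_inv := fun _ => rfl }

theorem prime_card_of_minimal (hHV : H ≤ normalizer (V : Set G)) (hf : H ⊓ centralizer (V : Set G) = ⊥)
    (hS1 : centralizer (Cfsg.pPrimeCore p ↥H : Set ↥H) ≤ Cfsg.pPrimeCore p ↥H) {A : Subgroup G} (hAH : A ≤ H)
    (hA : Cfsg.IsBestOffenderOn p V A) (hAV : ⁅V, A⁆ ≠ ⊥)
    (hmin : ∀ B : Subgroup G, B ≤ A → Cfsg.IsBestOffenderOn p V B → ⁅V, B⁆ ≠ ⊥ → B = A) :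
    Off (conjRep (p := p) hHV) (A.subgroupOf H) ∧ Nat.card ↥(A.subgroupOf H) = p := by
  have hoff := (off_iff (p := p) hHV hf hAH).1 hA
  have hA1 : A ≠ ⊥ := fun e => hAV ((commutator_eq_bot_iff' hf hAH).2 e)
  refine ⟨hoff, card_prime_of_minimal (hyp_conjRep hHV hf hS1) hoff (fun e => hA1 ?_) fun B hB hBo hB1 => ?_⟩
  · rw [subgroupOf_eq_bot, disjoint_iff, inf_eq_left.2 hAH] at e
    exact e
  · have hle : B.map H.subtype ≤ A := map_le_iff_le_comap.2 hB
    have hBm : (B.map H.subtype).subgroupOf H = B := comap_map_eq_self_of_injective H.subtype_injective B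
    have e := hmin _ hle ((off_iff (p := p) hHV hf (hle.trans hAH)).2 (by rwa [hBm]))
      (fun e => hB1 (by
        rw [← hBm, (commutator_eq_bot_iff' hf (hle.trans hAH)).1 e, bot_subgroupOf]))
    rw [← hBm, e]

theorem map_blk {A : Subgroup G} (hA : A ≤ H) {K : Subgroup ↥H} :
    (blk K (A.subgroupOf H)).map H.subtype = ⁅K.map H.subtype, A⁆ ⊔ A := by
  rw [blk, Subgroup.map_sup, Subgroup.map_commutator, subgroupOf_map_subtype, inf_eq_left.2 hA]

theorem inf_centralizer_commutator_blk {K : Subgroup ↥H} (hHV : H ≤ normalizer (V : Set G))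
    (h : Hyp (conjRep (p := p) hHV) K) {B : Subgroup ↥H} (hB : Off (conjRep (p := p) hHV) B) (hc : Nat.card B = p) :
    (blk K B).map H.subtype ⊓ centralizer ((⁅V, (blk K B).map H.subtype⁆ : Subgroup G) : Set G) = ⊥ := by
  rw [eq_bot_iff]
  rintro _ ⟨⟨g, hg, rfl⟩, hcen⟩
  rw [mem_bot]
  refine congrArg Subtype.val (h.inj (a₂ := 1) (LinearMap.ext fun v => ?_))
  rw [map_one, Module.End.one_apply]
  obtain ⟨w, hw, z, hz, rfl⟩ := Submodule.mem_sup.1
    ((isCompl_blk h hB hc).sup_eq_top ▸ Submodule.mem_top : v ∈ bracket (conjRep (p := p) hHV) (blk K B) ⊔ _)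
  rw [map_add, mem_fix.1 hz g hg]
  congr 1
  rw [conjRep_fix_iff]
  refine (mem_centralizer_iff.1 hcen _ ?_).symm
  rw [SetLike.mem_coe, mem_commutator_iff (p := p) hHV (map_subtype_le _),
    show ((blk K B).map H.subtype).subgroupOf H = blk K B from comap_map_eq_self_of_injective H.subtype_injective _]
  exact hw

theorem gens_eq_top (hHV : H ≤ normalizer (V : Set G)) (hf : H ⊓ centralizer (V : Set G) = ⊥)
    (h : Hyp (conjRep (p := p) hHV) (Cfsg.pPrimeCore p ↥H))
    (hS3 : H = ⨆ A : {A : Subgroup G // A ≤ H ∧ Cfsg.IsBestOffenderOn p V A}, (A : Subgroup G)) :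
    sSup (Gens (conjRep (p := p) hHV)) = ⊤ := by
  apply map_injective H.subtype_injective
  refine le_antisymm (map_mono le_top) ?_
  rw [← MonoidHom.range_eq_map, range_subtype]
  conv_lhs => rw [hS3]
  refine iSup_le fun ⟨A, hAH, hA⟩ => ?_
  refine le_trans (le_of_eq ?_) (map_mono ((eq_iSup_prime h _ ((off_iff (p := p) hHV hf hAH).1 hA)).trans
    (sSup_le fun B hB => le_sSup ⟨hB.2.1, hB.2.2⟩)))
  rw [subgroupOf_map_subtype, inf_eq_left.2 hAH]

/-- The subgroup of `G` attached to a submodule of `V`. -/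
def toG (U : Submodule (ZMod p) (Additive ↥V)) : Subgroup G := U.toAddSubgroup.toSubgroup'.map V.subtype

theorem mem_toG {U : Submodule (ZMod p) (Additive ↥V)} {x : G} :
    x ∈ toG U ↔ ∃ hx : x ∈ V, Additive.ofMul (⟨x, hx⟩ : ↥V) ∈ U := by
  constructor
  · rintro ⟨y, hy, rfl⟩; exact ⟨y.2, hy⟩
  · rintro ⟨hx, hU⟩; exact ⟨⟨x, hx⟩, hU, rfl⟩

theorem toG_mono {U U' : Submodule (ZMod p) (Additive ↥V)} (h : U ≤ U') : toG U ≤ toG U' := fun x hx => by
  obtain ⟨hx, hU⟩ := mem_toG.1 hx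
  exact mem_toG.2 ⟨hx, h hU⟩

theorem toG_bot : toG (⊥ : Submodule (ZMod p) (Additive ↥V)) = ⊥ := by
  rw [eq_bot_iff]
  intro x hx
  obtain ⟨hx, hU⟩ := mem_toG.1 hx
  rw [Submodule.mem_bot] at hU
  exact mem_bot.2 (congrArg (fun y : Additive ↥V => ((Additive.toMul y : ↥V) : G)) hU)

theorem toG_top : toG (⊤ : Submodule (ZMod p) (Additive ↥V)) = V := by
  ext x
  rw [mem_toG]
  exact ⟨fun ⟨hx, _⟩ => hx, fun hx => ⟨hx, Submodule.mem_top⟩⟩

theorem toG_inf (U U' : Submodule (ZMod p) (Additive ↥V)) : toG (U ⊓ U') = toG U ⊓ toG U' := by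
  refine le_antisymm (le_inf (toG_mono inf_le_left) (toG_mono inf_le_right)) ?_
  rintro x ⟨h1, h2⟩
  obtain ⟨hx, hU⟩ := mem_toG.1 h1
  obtain ⟨_, hU'⟩ := mem_toG.1 h2
  exact mem_toG.2 ⟨hx, hU, hU'⟩

theorem toG_iSup {ι : Sort*} (U : ι → Submodule (ZMod p) (Additive ↥V)) : toG (⨆ i, U i) = ⨆ i, toG (U i) := by
  refine le_antisymm ?_ (iSup_le fun i => toG_mono (le_iSup U i))
  intro x hx
  obtain ⟨hx, hU⟩ := mem_toG.1 hx
  let T : Submodule (ZMod p) (Additive ↥V) :=
    AddSubgroup.toZModSubmodule p (((⨆ i, toG (U i)).subgroupOf V).toAddSubgroup)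
  have hle : (⨆ i, U i) ≤ T := iSup_le fun i y hy =>
    (le_iSup (fun i => toG (U i)) i) (mem_toG.2 ⟨(Additive.toMul y).2, hy⟩)
  exact hle hU

theorem toG_sup (U U' : Submodule (ZMod p) (Additive ↥V)) : toG (U ⊔ U') = toG U ⊔ toG U' := by
  rw [sup_eq_iSup, sup_eq_iSup, toG_iSup]
  exact iSup_congr fun b => by cases b <;> rfl

theorem toG_bracket (hHV : H ≤ normalizer (V : Set G)) {A : Subgroup G} (hA : A ≤ H) :
    ⁅V, A⁆ = toG (bracket (conjRep (p := p) hHV) (A.subgroupOf H)) := by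
  have hle : ⁅V, A⁆ ≤ V := Cfsg.Lib.Solv.commutator_le_of_normalizes (hA.trans hHV)
  ext x
  rw [mem_toG]
  exact ⟨fun h => ⟨hle h, (mem_commutator_iff hHV hA ⟨x, hle h⟩).1 h⟩,
    fun ⟨hx, h⟩ => (mem_commutator_iff hHV hA ⟨x, hx⟩).2 h⟩

theorem toG_fix (hHV : H ≤ normalizer (V : Set G)) {A : Subgroup G} (hA : A ≤ H) :
    V ⊓ centralizer (A : Set G) = toG (fix (conjRep (p := p) hHV) (A.subgroupOf H)) := by
  ext x
  rw [mem_toG]
  refine ⟨fun h => ⟨h.1, mem_fix.2 fun a ha => (conjRep_fix_iff (p := p) hHV a _).2 (mem_centralizer_iff.1 h.2 _ ha)⟩,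
    fun ⟨hx, h⟩ => ⟨hx, mem_centralizer_iff.2 fun a ha =>
      ((conjRep_fix_iff (p := p) hHV ⟨a, hA ha⟩ _).1 (mem_fix.1 h _ ha)).eq⟩⟩

theorem map_stab (hHV : H ≤ normalizer (V : Set G)) (U : Submodule (ZMod p) (Additive ↥V)) :
    (stab (conjRep (p := p) hHV) U).map H.subtype = H ⊓ centralizer (toG U : Set G) := by
  ext g
  constructor
  · rintro ⟨k, hk, rfl⟩
    refine ⟨k.2, mem_centralizer_iff.2 fun x hx => ?_⟩
    obtain ⟨hxV, hU⟩ := mem_toG.1 hx
    exact ((conjRep_fix_iff (p := p) hHV k _).1 (hk _ hU)).eq.symm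
  · rintro ⟨hgH, hg⟩
    exact ⟨⟨g, hgH⟩, fun x hx => (conjRep_fix_iff (p := p) hHV ⟨g, hgH⟩ x).2
      (mem_centralizer_iff.1 hg _ (mem_toG.2 ⟨(Additive.toMul x).2, hx⟩)).symm, rfl⟩

end Cfsg.Lib.PLocal.FF
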