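import Mathlib
import Cfsg.Agent.Lib.PLocal.FFFactors

/-!
Coprime operators on a product of `SL(2, p)` blocks: diagonal fixed subgroups.
-/

set_option autoImplicit false
set_option linter.unusedSectionVars false
set_option linter.style.haveILetI false

open scoped commutatorElement

namespace Cfsg.Lib.PLocal.FF

open Subgroup

variable {p : ℕ} [hp : Fact p.Prime] {M : Type*} [AddCommGroup M] [Module (ZMod p) M] [Finite M]
variable {Γ : Type*} [Group Γ] [Finite Γ] {ρ : Γ →* Module.End (ZMod p) M} {K B : Subgroup Γ}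
variable {X : Type*} [Group X] [Finite X]

/-- Operators of prime exponent `q` on `(Γ, M)`, with `q` prime to the order of `Γ`. -/
structure Ops (ρ : Γ →* Module.End (ZMod p) M) (K : Subgroup Γ) (q : ℕ) (α : X →* MulAut Γ)
    (τ : X →* Module.End (ZMod p) M) : Prop where
  compat : ∀ x g v, τ x (ρ g v) = ρ (α x g) (τ x v)
  core : ∀ x, K.map (α x).toMonoidHom = K
  prime : q.Prime
  exponent : ∀ x : X, x ^ q = 1
  coprime : ¬ q ∣ Nat.card Γ

variable {q : ℕ} {α : X →* MulAut Γ} {τ : X →* Module.End (ZMod p) M}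

theorem tau_cancel (x : X) (v : M) : τ x (τ x⁻¹ v) = v := by
  rw [← Module.End.mul_apply, ← map_mul, mul_inv_cancel, map_one, Module.End.one_apply]

theorem tau_cancel' (x : X) (v : M) : τ x⁻¹ (τ x v) = v := by
  rw [← Module.End.mul_apply, ← map_mul, inv_mul_cancel, map_one, Module.End.one_apply]

theorem Ops.fix_map (h : Ops ρ K q α τ) (x : X) (A : Subgroup Γ) :
    Nat.card (fix ρ (A.map (α x).toMonoidHom)) = Nat.card (fix ρ A) := by
  have hmem : ∀ v, v ∈ fix ρ A ↔ τ x v ∈ fix ρ (A.map (α x).toMonoidHom) := fun v => by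
    rw [mem_fix, mem_fix]
    constructor
    · rintro hv _ ⟨a, ha, rfl⟩
      show ρ (α x a) (τ x v) = τ x v
      rw [← h.compat, hv a ha]
    · intro hv a ha
      have h1 : ρ (α x a) (τ x v) = τ x v := hv _ ⟨a, ha, rfl⟩
      rw [← h.compat] at h1
      simpa [tau_cancel'] using congrArg (τ x⁻¹) h1
  refine Nat.card_congr (Equiv.ofBijective (fun v : fix ρ A => (⟨τ x v, (hmem v).1 v.2⟩ :
    fix ρ (A.map (α x).toMonoidHom))) ⟨fun v v' e => ?_, fun w => ?_⟩).symm
  · have h1 : τ x (v : M) = τ x (v' : M) := congrArg Subtype.val e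
    exact Subtype.ext (by simpa [tau_cancel'] using congrArg (τ x⁻¹) h1)
  · exact ⟨⟨τ x⁻¹ w, (hmem _).2 (by rw [tau_cancel]; exact w.2)⟩, Subtype.ext (tau_cancel x (w : M))⟩

theorem Ops.map_gens (hops : Ops ρ K q α τ) (h : Hyp ρ K) (x : X) (hB : B ∈ Gens ρ) :
    B.map (α x).toMonoidHom ∈ Gens ρ := by
  have hc : Nat.card ↥(B.map (α x).toMonoidHom) = Nat.card B :=
    card_map_of_injective (f := (α x).toMonoidHom) (α x).injective
  refine ⟨off_of_card_eq h (elem_map hB.1.2 _) ?_, hc.trans hB.2⟩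
  rw [hops.fix_map, hc]
  exact hB.1.card_eq h

theorem Ops.map_blk (hops : Ops ρ K q α τ) (x : X) (B : Subgroup Γ) :
    (blk K B).map (α x).toMonoidHom = blk K (B.map (α x).toMonoidHom) := by
  rw [blk, blk, Subgroup.map_sup, Subgroup.map_commutator, hops.core]

theorem Ops.map_pl (hops : Ops ρ K q α τ) (x : X) {y : M} (hy : y ∈ pl ρ K B) :
    τ x y ∈ pl ρ K (B.map (α x).toMonoidHom) := by
  have h : pl ρ K B ≤ (pl ρ K (B.map (α x).toMonoidHom)).comap (τ x) := by
    refine bracket_le fun g hg v => ?_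
    rw [Submodule.mem_comap, map_sub, hops.compat]
    exact sub_mem_bracket (by rw [← hops.map_blk]; exact ⟨g, hg, rfl⟩) _
  exact h hy

/-- The stabilizer of a block. -/
def blkStab (α : X →* MulAut Γ) (K B : Subgroup Γ) : Subgroup X where
  carrier := {x | (blk K B).map (α x).toMonoidHom = blk K B}
  mul_mem' {x y} hx hy := by
    show (blk K B).map (α (x * y)).toMonoidHom = blk K B
    rw [show (α (x * y)).toMonoidHom = (α x).toMonoidHom.comp (α y).toMonoidHom from by rw [map_mul]; rfl,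
      ← Subgroup.map_map]
    exact (congrArg (Subgroup.map (α x).toMonoidHom) hy).trans hx
  one_mem' := by
    show (blk K B).map (α 1).toMonoidHom = blk K B
    rw [map_one]; exact Subgroup.map_id _
  inv_mem' {x} hx := by
    show (blk K B).map (α x⁻¹).toMonoidHom = blk K B
    conv_lhs => rw [← show (blk K B).map (α x).toMonoidHom = blk K B from hx]
    rw [Subgroup.map_map, show (α x⁻¹).toMonoidHom.comp (α x).toMonoidHom = MonoidHom.id Γ from
      MonoidHom.ext fun g => by
        show α x⁻¹ (α x g) = g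
        rw [← MulAut.mul_apply, ← map_mul, inv_mul_cancel, map_one]; rfl]
    exact Subgroup.map_id _

theorem stab_fixes (h : Hyp ρ K) (hops : Ops ρ K q α τ) (hB : B ∈ Gens ρ) {x : X} (hx : x ∈ blkStab α K B) :
    (∀ w ∈ pl ρ K B, τ x w = w) ∧ ∀ e ∈ blk K B, α x e = e := by
  classical
  set W := pl ρ K B
  have hstab : ∀ z ∈ blkStab α K B, ∀ w ∈ W, τ z w ∈ W := fun z hz w hw => by
    have h1 := hops.map_pl z hw
    rwa [pl, ← hops.map_blk, show (blk K B).map (α z).toMonoidHom = blk K B from hz] at h1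
  let f : W ≃ₗ[ZMod p] W :=
    { toFun := fun w => ⟨τ x w, hstab x hx w w.2⟩
      invFun := fun w => ⟨τ x⁻¹ w, hstab _ (inv_mem hx) w w.2⟩
      left_inv := fun w => Subtype.ext (tau_cancel' x (w : M))
      right_inv := fun w => Subtype.ext (tau_cancel x (w : M))
      map_add' := fun u v => Subtype.ext (map_add (τ x) (u : M) v)
      map_smul' := fun c u => Subtype.ext (map_smul (τ x) c (u : M)) }
  have hfpow : ∀ (n : ℕ) (w : W), ((f ^ n) w : M) = τ (x ^ n) w := fun n => by
    induction n with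
    | zero => intro w; simp
    | succ n ih =>
      intro w
      rw [pow_succ, pow_succ, map_mul, Module.End.mul_apply]
      exact ih (f w)
  have hfq : f ^ q = 1 := LinearEquiv.ext fun w => Subtype.ext (by
    rw [hfpow, hops.exponent, map_one, Module.End.one_apply]; rfl)
  have hfr := finrank_pl h hB.1 hB.2
  let e₁ : W ≃ₗ[ZMod p] (Fin 2 → ZMod p) := LinearEquiv.ofFinrankEq _ _ (by rw [hfr]; simp)
  let g : GL (Fin 2) (ZMod p) :=
    ((Matrix.GeneralLinearGroup.toLin).trans (LinearMap.GeneralLinearGroup.generalLinearEquiv (ZMod p) (Fin 2 → ZMod p))).symm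
      (e₁.symm.trans (f.trans e₁))
  have hconj : ∀ n : ℕ, (e₁.symm.trans (f.trans e₁)) ^ n = e₁.symm.trans ((f ^ n).trans e₁) := fun n => by
    induction n with
    | zero => exact LinearEquiv.ext fun v => by simp
    | succ n ih =>
      rw [pow_succ, pow_succ, ih]
      exact LinearEquiv.ext fun v => by simp [LinearEquiv.mul_apply]
  have hgq : g ^ q = 1 := by
    rw [← map_pow, hconj, hfq, ← map_one ((Matrix.GeneralLinearGroup.toLin).trans
      (LinearMap.GeneralLinearGroup.generalLinearEquiv (ZMod p) (Fin 2 → ZMod p))).symm]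
    exact congrArg _ (LinearEquiv.ext fun v => by simp)
  have hg1 : g = 1 := by
    have h1 : orderOf g ∣ q := orderOf_dvd_of_pow_eq_one hgq
    rcases (Nat.dvd_prime hops.prime).1 h1 with h2 | h2
    · exact orderOf_eq_one_iff.1 h2
    exfalso
    have h3 : orderOf g ∣ Nat.card (GL (Fin 2) (ZMod p)) := orderOf_dvd_natCard g
    rw [Matrix.card_GL_field, h2] at h3
    have h4 := hops.coprime
    have hdiv : ∀ d, d ∣ Nat.card ↥(blk K B) → q ≠ d := fun d hd e => h4 (e ▸ hd.trans (Subgroup.card_subgroup_dvd_card _))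
    obtain ⟨eSL⟩ := slTwo_blk h hB.1 hB.2
    rcases prime_two_or_three h hB.1 hB.2 with rfl | rfl
    · have hc : Nat.card ↥(blk K B) = 6 := by rw [Nat.card_congr eSL.toEquiv, card_sl_two_two]
      simp [Fin.prod_univ_two] at h3
      have h6 : q ∣ 6 := h3
      exact h4 (h6.trans (hc ▸ Subgroup.card_subgroup_dvd_card _))
    · have hc : Nat.card ↥(blk K B) = 24 := by rw [Nat.card_congr eSL.toEquiv, card_sl_two_three]
      simp [Fin.prod_univ_two] at h3
      rcases (Nat.Prime.dvd_mul hops.prime).1 (show q ∣ 24 * 2 by simpa using h3) with h6 | h6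
      · exact h4 (h6.trans (hc ▸ Subgroup.card_subgroup_dvd_card _))
      · exact hdiv 2 (by rw [hc]; norm_num) ((Nat.prime_dvd_prime_iff_eq hops.prime Nat.prime_two).1 h6)
  have hf1 : ∀ w : W, f w = w := fun w => by
    have h1 := hg1
    rw [← map_one ((Matrix.GeneralLinearGroup.toLin).trans
      (LinearMap.GeneralLinearGroup.generalLinearEquiv (ZMod p) (Fin 2 → ZMod p))).symm] at h1
    have h2 := LinearEquiv.congr_fun ((MulEquiv.injective _) h1) (e₁ w)
    simpa using h2
  have hW : ∀ w ∈ W, τ x w = w := fun w hw => congrArg Subtype.val (hf1 ⟨w, hw⟩)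
  refine ⟨hW, fun e he => h.inj (LinearMap.ext fun v => ?_)⟩
  have hae : α x e ∈ blk K B := by
    rw [← show (blk K B).map (α x).toMonoidHom = blk K B from hx]
    exact ⟨e, he, rfl⟩
  obtain ⟨w, hw, z, hz, rfl⟩ := Submodule.mem_sup.1
    ((isCompl_blk h hB.1 hB.2).sup_eq_top ▸ Submodule.mem_top : v ∈ pl ρ K B ⊔ fix ρ (blk K B))
  rw [map_add, map_add, mem_fix.1 hz _ hae, mem_fix.1 hz _ he]
  congr 1
  have h1 := hops.compat x e w
  rw [hW w hw, hW _ (bracket_invariant (le_normalizer he) hw)] at h1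
  exact h1.symm

theorem img_ne (h : Hyp ρ K) (hops : Ops ρ K q α τ) (hB : B ∈ Gens ρ) {x y : X} (hxy : x⁻¹ * y ∉ blkStab α K B) :
    pl ρ K (B.map (α x).toMonoidHom) ≠ pl ρ K (B.map (α y).toMonoidHom) := by
  intro e
  refine hxy ?_
  have h1 := (blk_eq_iff h (hops.map_gens h x hB).1 (hops.map_gens h x hB).2 (hops.map_gens h y hB).1 (hops.map_gens h y hB).2).2 e
  rw [← hops.map_blk, ← hops.map_blk] at h1
  show (blk K B).map (α (x⁻¹ * y)).toMonoidHom = blk K B
  rw [show (α (x⁻¹ * y)).toMonoidHom = (α x⁻¹).toMonoidHom.comp (α y).toMonoidHom from by rw [map_mul]; rfl,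
    ← Subgroup.map_map, ← h1, Subgroup.map_map, show (α x⁻¹).toMonoidHom.comp (α x).toMonoidHom = MonoidHom.id Γ from
      MonoidHom.ext fun g => by
        show α x⁻¹ (α x g) = g
        rw [← MulAut.mul_apply, ← map_mul, inv_mul_cancel, map_one]; rfl]
  exact Subgroup.map_id _

/-- Diagonal subgroups and planes fixed by the operators. -/
theorem exists_diag (h : Hyp ρ K) (hgen : sSup (Gens ρ) = ⊤) (hops : Ops ρ K q α τ) (hB : B ∈ Gens ρ) :
    ∃ (D : ↥(blk K B) →* Γ) (L : ↥(pl ρ K B) →ₗ[ZMod p] M),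
      (∀ x e, α x (D e) = D e) ∧
      (∀ e : ↥(blk K B), ((e : Γ))⁻¹ * D e ∈ stab ρ (pl ρ K B) ⊓ centralizer (blk K B : Set Γ)) ∧
      (∀ x w, τ x (L w) = L w) ∧ Function.Injective L ∧
      (∀ (e : ↥(blk K B)) (w : ↥(pl ρ K B)),
        ρ (D e) (L w) = L ⟨ρ (e : Γ) (w : M), bracket_invariant (le_normalizer e.2) w.2⟩) := by
  classical
  set X0 := blkStab α K B
  haveI : Fintype (X ⧸ X0) := Fintype.ofFinite _
  have hfixX0 := fun (z : X) (hz : z ∈ X0) => stab_fixes h hops hB hz
  have hout : ∀ (x : X) (c : X ⧸ X0), ∃ z ∈ X0, x * c.out = (x • c).out * z := fun x c => by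
    refine ⟨(x • c).out⁻¹ * (x * c.out), ?_, by rw [mul_inv_cancel_left]⟩
    refine QuotientGroup.eq.1 ?_
    rw [QuotientGroup.out_eq', show ((x * c.out : X) : X ⧸ X0) = x • (c.out : X ⧸ X0) from rfl, QuotientGroup.out_eq']
  have hne : ∀ {c c' : X ⧸ X0}, c ≠ c' → c.out⁻¹ * c'.out ∉ X0 := fun {c c'} hcc hm => hcc (by
    rw [← QuotientGroup.out_eq' c, ← QuotientGroup.out_eq' c']
    exact QuotientGroup.eq.2 hm)
  let φ : ∀ _ : X ⧸ X0, ↥(blk K B) →* Γ := fun c => (α c.out).toMonoidHom.comp (blk K B).subtype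
  have hmemblk : ∀ (x : X) (e : ↥(blk K B)), α x (e : Γ) ∈ blk K (B.map (α x).toMonoidHom) := fun x e => by
    rw [← hops.map_blk]; exact ⟨e, e.2, rfl⟩
  have hcomm : Pairwise fun c c' => ∀ e e', Commute (φ c e) (φ c' e') := fun c c' hcc e e' => by
    have hg := hops.map_gens h c.out hB
    have hg' := hops.map_gens h c'.out hB
    have hne' := img_ne h hops hB (hne hcc)
    exact (mem_centralizer_iff.1 (stab_le_centralizer h hgen hg.1 hg.2
      (blk_le_stab_of_ne h hgen hg.1 hg.2 hg'.1 hg'.2 hne' (hmemblk c'.out e'))) _ (hmemblk c.out e))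
  let Φ := MonoidHom.noncommPiCoprod φ hcomm
  let D : ↥(blk K B) →* Γ := Φ.comp (MonoidHom.pi fun _ => MonoidHom.id ↥(blk K B))
  have hone : ((1 : X) : X ⧸ X0).out ∈ X0 := by
    have := QuotientGroup.eq.1 (QuotientGroup.out_eq' ((1 : X) : X ⧸ X0))
    rw [mul_one] at this
    exact inv_mem_iff.1 this
  set c₀ : X ⧸ X0 := ((1 : X) : X ⧸ X0)
  have hD1 : ∀ x e, α x (D e) = D e := by
    intro x e
    let π : (X ⧸ X0 → ↥(blk K B)) →* (X ⧸ X0 → ↥(blk K B)) :=
      MonoidHom.pi fun c => Pi.evalMonoidHom (fun _ : X ⧸ X0 => ↥(blk K B)) (x⁻¹ • c)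
    have hΦ : (α x).toMonoidHom.comp Φ = Φ.comp π := by
      refine MonoidHom.pi_ext fun c y => ?_
      have hπ : π (Pi.mulSingle c y) = Pi.mulSingle (x • c) y := by
        funext d
        show (Pi.mulSingle c y : X ⧸ X0 → ↥(blk K B)) (x⁻¹ • d) = (Pi.mulSingle (x • c) y : X ⧸ X0 → ↥(blk K B)) d
        by_cases hd : d = x • c
        · subst hd; simp
        · rw [Pi.mulSingle_eq_of_ne hd, Pi.mulSingle_eq_of_ne (fun e => hd (by rw [← e, smul_inv_smul]))]
      rw [MonoidHom.comp_apply, MonoidHom.comp_apply, hπ, MonoidHom.noncommPiCoprod_mulSingle,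
        MonoidHom.noncommPiCoprod_mulSingle]
      show α x (α c.out (y : Γ)) = α (x • c).out (y : Γ)
      obtain ⟨z, hz, hxz⟩ := hout x c
      rw [← MulAut.mul_apply, ← map_mul, hxz, map_mul, MulAut.mul_apply, (hfixX0 z hz).2 _ y.2]
    exact DFunLike.congr_fun hΦ (fun _ => e)
  have hD2 : ∀ e : ↥(blk K B), ((e : Γ))⁻¹ * D e ∈ stab ρ (pl ρ K B) ⊓ centralizer (blk K B : Set Γ) := by
    intro e
    set S := stab ρ (pl ρ K B) ⊓ centralizer (blk K B : Set Γ)
    have hsplit : D e = Φ (Pi.mulSingle c₀ e) * Φ (Function.update (fun _ => e) c₀ 1) := by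
      rw [← map_mul]
      show Φ (fun _ => e) = _
      congr 1
      funext d
      by_cases hd : d = c₀
      · subst hd; simp
      · simp [Function.update_of_ne hd, Pi.mulSingle_eq_of_ne hd]
    rw [hsplit, MonoidHom.noncommPiCoprod_mulSingle, show φ c₀ e = (e : Γ) from (hfixX0 _ hone).2 _ e.2, inv_mul_cancel_left]
    refine Subgroup.noncommProd_mem S (fun c _ d _ hcd => hcomm hcd _ _) ?_
    intro c _
    by_cases hc : c = c₀
    · subst hc; simp
    · have hg := hops.map_gens h c.out hB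
      have hne' : pl ρ K B ≠ pl ρ K (B.map (α c.out).toMonoidHom) := by
        have h1 := img_ne h hops hB (x := c₀.out) (y := c.out) (hne (Ne.symm hc))
        rwa [show pl ρ K (B.map (α c₀.out).toMonoidHom) = pl ρ K B by
          rw [pl, ← hops.map_blk, show (blk K B).map (α c₀.out).toMonoidHom = blk K B from hone]] at h1
      have h2 := blk_le_stab_of_ne h hgen hB.1 hB.2 hg.1 hg.2 hne' (hmemblk c.out (Function.update (fun _ => e) c₀ 1 c))
      exact ⟨h2, stab_le_centralizer h hgen hB.1 hB.2 h2⟩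
  let L : ↥(pl ρ K B) →ₗ[ZMod p] M := (∑ c : X ⧸ X0, τ c.out).comp (pl ρ K B).subtype
  have hL : ∀ w, L w = ∑ c : X ⧸ X0, τ c.out (w : M) := fun w => by simp [L, LinearMap.sum_apply]
  refine ⟨D, L, hD1, hD2, fun x w => ?_, ?_, fun e w => ?_⟩
  · rw [hL, map_sum]
    refine Fintype.sum_equiv (MulAction.toPerm x) _ _ fun c => ?_
    obtain ⟨z, hz, hxz⟩ := hout x c
    rw [← Module.End.mul_apply, ← map_mul, hxz, map_mul, Module.End.mul_apply, (hfixX0 z hz).1 _ w.2]
    rfl
  · rw [injective_iff_map_eq_zero]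
    intro w hw
    rw [hL, ← Finset.add_sum_erase _ _ (Finset.mem_univ c₀)] at hw
    have hrest : ∑ c ∈ Finset.univ.erase c₀, τ c.out (w : M) ∈ fix ρ (blk K B) := by
      refine Submodule.sum_mem _ fun c hc => ?_
      have hg := hops.map_gens h c.out hB
      have hne' : pl ρ K B ≠ pl ρ K (B.map (α c.out).toMonoidHom) := by
        have h1 := img_ne h hops hB (x := c₀.out) (y := c.out) (hne (Ne.symm (Finset.ne_of_mem_erase hc)))
        rwa [show pl ρ K (B.map (α c₀.out).toMonoidHom) = pl ρ K B by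
          rw [pl, ← hops.map_blk, show (blk K B).map (α c₀.out).toMonoidHom = blk K B from hone]] at h1
      exact pl_le_fix_of_ne h hgen hB.1 hB.2 hg.1 hg.2 hne' (hops.map_pl c.out w.2)
    rw [(hfixX0 _ hone).1 _ w.2, add_eq_zero_iff_eq_neg] at hw
    have : (w : M) ∈ pl ρ K B ⊓ fix ρ (blk K B) := ⟨w.2, hw ▸ Submodule.neg_mem _ hrest⟩
    rw [(isCompl_blk h hB.1 hB.2).inf_eq_bot, Submodule.mem_bot] at this
    exact Subtype.ext this
  · rw [hL, hL, map_sum]
    refine Finset.sum_congr rfl fun c _ => ?_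
    rw [← hD1 c.out e, ← hops.compat]
    congr 1
    have h1 := (hD2 e).1 _ w.2
    rw [apply_mul] at h1
    have h2 := congrArg (ρ (e : Γ)) h1
    rwa [apply_cancel_inv] at h2

end Cfsg.Lib.PLocal.FF
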