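import Mathlib
import Cfsg.Agent.Lib.Characters.TISylow
import Cfsg.Agent.Lib.PLocal.Constraint
import Cfsg.Agent.Lib.PLocal.Offender
import Cfsg.Agent.Lib.PLocal.FFBridge

/-!
The action of `G / C_G(V)` on a normal elementary abelian subgroup `V`.
-/

set_option autoImplicit false
set_option linter.unusedSectionVars false
set_option linter.style.haveILetI false

open scoped commutatorElement IsMulCommutative

namespace Cfsg.Lib.PLocal.FF

open Subgroup

variable {G : Type*} [Group G] [Finite G] {p : ℕ} [hp : Fact p.Prime] {V : Subgroup G} [V.Normal]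
variable [IsMulCommutative ↥V] [Module (ZMod p) (Additive ↥V)]

/-- Conjugation on `V` as a representation of `G`. -/
noncomputable def normalRep : G →* Module.End (ZMod p) (Additive ↥V) :=
  (conjRep (p := p) (V := V) (H := ⊤) (by rw [normalizer_eq_top])).comp Subgroup.topEquiv.symm.toMonoidHom

theorem normalRep_apply (g : G) (x : Additive ↥V) :
    ((Additive.toMul (normalRep (p := p) g x) : ↥V) : G) = g * (Additive.toMul x : ↥V) * g⁻¹ := rfl

theorem normalRep_fix_iff (g : G) (x : Additive ↥V) :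
    normalRep (p := p) g x = x ↔ Commute g ((Additive.toMul x : ↥V) : G) := by
  rw [← Additive.toMul.injective.eq_iff, Subtype.ext_iff, normalRep_apply]
  exact mul_inv_eq_iff_eq_mul

/-- The representation of `G / C_G(V)`. -/
noncomputable def quotRep : G ⧸ centralizer (V : Set G) →* Module.End (ZMod p) (Additive ↥V) :=
  QuotientGroup.lift _ (normalRep (p := p) (V := V)) fun g hg => by
    refine LinearMap.ext fun x => ?_
    rw [Module.End.one_apply, normalRep_fix_iff]
    exact (mem_centralizer_iff.1 hg _ (Additive.toMul x).2).symm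

theorem quotRep_mk (g : G) (x : Additive ↥V) :
    quotRep (p := p) (QuotientGroup.mk' (centralizer (V : Set G)) g) x = normalRep (p := p) g x := rfl

theorem quotRep_injective : Function.Injective (quotRep (p := p) (V := V)) := by
  rw [injective_iff_map_eq_one]
  intro y hy
  obtain ⟨g, rfl⟩ := QuotientGroup.mk'_surjective _ y
  refine (QuotientGroup.eq_one_iff g).2 (mem_centralizer_iff.2 fun v hv => ?_)
  have h : normalRep (p := p) g (Additive.ofMul (⟨v, hv⟩ : ↥V)) = Additive.ofMul (⟨v, hv⟩ : ↥V) := by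
    rw [← quotRep_mk, hy]; rfl
  exact ((normalRep_fix_iff _ _).1 h).eq.symm

theorem hyp_quotRep (hsep : Cfsg.IsPSolvable p G) (hO : Cfsg.pCore p (G ⧸ centralizer (V : Set G)) = ⊥) :
    Hyp (quotRep (p := p) (V := V)) (Cfsg.pPrimeCore p (G ⧸ centralizer (V : Set G))) :=
  ⟨quotRep_injective, Cfsg.Lib.Transfer.pPrimeCore_normal p, Cfsg.Lib.Solv.not_dvd_card_pPrimeCore p,
    Cfsg.Lib.Characters.centralizer_pPrimeCore_le
      (Cfsg.Lib.PLocal.IsPSolvable.of_surjective (QuotientGroup.mk' _) (QuotientGroup.mk'_surjective _) hsep) hO⟩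

theorem toG_fix_map (A : Subgroup G) :
    toG (fix (quotRep (p := p) (V := V)) (A.map (QuotientGroup.mk' (centralizer (V : Set G))))) =
      V ⊓ centralizer (A : Set G) := by
  ext x
  rw [mem_toG]
  constructor
  · rintro ⟨hx, h⟩
    exact ⟨hx, mem_centralizer_iff.2 fun a ha => ((normalRep_fix_iff _ _).1 (mem_fix.1 h _ ⟨a, ha, rfl⟩)).eq⟩
  · intro h
    refine ⟨h.1, mem_fix.2 ?_⟩
    rintro _ ⟨a, ha, rfl⟩
    exact (normalRep_fix_iff _ _).2 (mem_centralizer_iff.1 h.2 a ha)

theorem card_toG (U : Submodule (ZMod p) (Additive ↥V)) : Nat.card ↥(toG U) = Nat.card U := by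
  rw [toG, Subgroup.card_map_of_injective V.subtype_injective]
  rfl

theorem card_fix_map (A : Subgroup G) :
    Nat.card (fix (quotRep (p := p) (V := V)) (A.map (QuotientGroup.mk' (centralizer (V : Set G))))) =
      Nat.card ↥(V ⊓ centralizer (A : Set G)) := by
  rw [← toG_fix_map (p := p), card_toG]

theorem card_map_mul {C : Subgroup G} [C.Normal] (A : Subgroup G) :
    Nat.card ↥(A.map (QuotientGroup.mk' C)) * Nat.card ↥(A ⊓ C) = Nat.card A := by
  have h1 := Subgroup.card_eq_card_quotient_mul_card_subgroup (((QuotientGroup.mk' C).subgroupMap A)).ker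
  rw [Nat.card_congr (QuotientGroup.quotientKerEquivOfSurjective _ ((QuotientGroup.mk' C).subgroupMap_surjective A)).toEquiv] at h1
  rw [h1]
  congr 1
  refine Nat.card_congr (Equiv.ofBijective (fun x : ↥(A ⊓ C) =>
    (⟨⟨x, x.2.1⟩, Subtype.ext ((QuotientGroup.eq_one_iff _).2 x.2.2)⟩ : ((QuotientGroup.mk' C).subgroupMap A).ker))
    ⟨fun x y e => Subtype.ext (congrArg (fun z : ((QuotientGroup.mk' C).subgroupMap A).ker => ((z : ↥A) : G)) e), ?_⟩)
  rintro ⟨⟨z, hz⟩, hz2⟩
  exact ⟨⟨z, hz, (QuotientGroup.eq_one_iff _).1 (congrArg Subtype.val hz2)⟩, rfl⟩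

theorem off_map {A : Subgroup G} (hA : Cfsg.IsElementaryAbelian p A) (hbest : Cfsg.IsBestOffenderOn p V A) :
    Off (quotRep (p := p) (V := V)) (A.map (QuotientGroup.mk' (centralizer (V : Set G)))) := by
  refine ⟨fun B hB => ?_, elem_map hA _⟩
  set q := QuotientGroup.mk' (centralizer (V : Set G))
  set B' := A ⊓ B.comap q
  have hB' : B'.map q = B := by
    refine le_antisymm (by rw [map_le_iff_le_comap]; exact inf_le_right) fun y hy => ?_
    obtain ⟨a, ha, rfl⟩ := hB hy
    exact ⟨a, ⟨ha, hy⟩, rfl⟩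
  have h1 := hbest.1 B' inf_le_left
  rw [← card_map_mul (C := centralizer (V : Set G)) B', ← card_map_mul (C := centralizer (V : Set G)) A] at h1
  have h2 : B' ⊓ centralizer (V : Set G) = A ⊓ centralizer (V : Set G) := by
    refine le_antisymm (inf_le_inf_right _ inf_le_left) (le_inf (le_inf inf_le_left ?_) inf_le_right)
    intro x hx
    rw [mem_comap, show q x = 1 from (QuotientGroup.eq_one_iff x).2 hx.2]
    exact one_mem B
  rw [h2, hB', ← card_fix_map (p := p) B', hB', ← card_fix_map (p := p) A] at h1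
  refine Nat.le_of_mul_le_mul_left ?_ (Nat.card_pos (α := ↥(A ⊓ centralizer (V : Set G))))
  calc _ = Nat.card ↥B * Nat.card ↥(A ⊓ centralizer (V : Set G)) * Nat.card (fix (quotRep (p := p) (V := V)) B) := by ring
    _ ≤ _ := h1
    _ = _ := by ring

end Cfsg.Lib.PLocal.FF
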