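import Mathlib
import Cfsg.Agent.Lib.Solv.Subnormal
import Cfsg.Agent.Lib.PLocal.FFBridge

/-!
Two subnormal subgroups acting irreducibly on their commutator modules.
-/

set_option autoImplicit false
set_option linter.unusedSectionVars false
set_option linter.style.haveILetI false

open scoped commutatorElement

namespace Cfsg.Lib.PLocal.FF

open Subgroup

variable {p : ℕ} [hp : Fact p.Prime] {M : Type*} [AddCommGroup M] [Module (ZMod p) M] [Finite M]
variable {Γ : Type*} [Group Γ] [Finite Γ] {ρ : Γ →* Module.End (ZMod p) M}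

/-- Irreducibility on the commutator module. -/
def Irr (ρ : Γ →* Module.End (ZMod p) M) (D : Subgroup Γ) : Prop :=
  ∀ U : Submodule (ZMod p) M, U ≤ bracket ρ D → (∀ g ∈ D, ∀ x ∈ U, ρ g x ∈ U) → U = ⊥ ∨ U = bracket ρ D

theorem sub_mem_of_mem {D : Subgroup Γ} {g : Γ} (hg : g ∈ D) {x : M} (hx : x ∈ bracket ρ D) : ρ g x ∈ bracket ρ D :=
  bracket_invariant (le_normalizer hg) hx

theorem chain_trivial (hρ : Function.Injective ρ) (hO : Cfsg.pCore p Γ = ⊥) {D : Subgroup Γ} (hD : D.IsSubnormal)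
    {W : Submodule (ZMod p) M} (hinv : ∀ d ∈ D, ∀ x ∈ W, ρ d x ∈ W) {g : Γ} (hg : g ∈ D)
    (h1 : ∀ x ∈ W, ρ g x = x) (h2 : ∀ v, ρ g v - v ∈ W) : g = 1 := by
  let N : Subgroup Γ :=
    { carrier := {n | n ∈ D ∧ (∀ x ∈ W, ρ n x = x) ∧ ∀ v, ρ n v - v ∈ W}
      mul_mem' := fun {a b} ha hb => ⟨D.mul_mem ha.1 hb.1, fun x hx => by rw [apply_mul, hb.2.1 x hx, ha.2.1 x hx],
        fun v => by
          rw [apply_mul, show ρ a (ρ b v) - v = (ρ a (ρ b v) - ρ b v) + (ρ b v - v) by abel]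
          exact W.add_mem (ha.2.2 _) (hb.2.2 v)⟩
      one_mem' := ⟨D.one_mem, fun x _ => by simp, fun v => by simp⟩
      inv_mem' := fun {a} ha => ⟨D.inv_mem ha.1, fun x hx => by conv_lhs => rw [← ha.2.1 x hx, apply_inv_cancel],
        fun v => by
          have h := ha.2.2 (ρ a⁻¹ v)
          rw [apply_cancel_inv] at h
          rw [← neg_sub]; exact W.neg_mem h⟩ }
  have hND : N ≤ D := fun n hn => hn.1
  haveI : (N.subgroupOf D).Normal := ⟨fun n hn d => by
    refine ⟨(d * n * d⁻¹ : ↥D).2, fun x hx => ?_, fun v => ?_⟩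
    · show ρ ((d : Γ) * n * (d : Γ)⁻¹) x = x
      rw [apply_mul, apply_mul]
      refine (congrArg (ρ (d : Γ)) (hn.2.1 _ (hinv _ (D.inv_mem d.2) x hx))).trans ?_
      rw [apply_cancel_inv]
    · show ρ ((d : Γ) * n * (d : Γ)⁻¹) v - v ∈ W
      have := hinv (d : Γ) d.2 _ (hn.2.2 (ρ (d : Γ)⁻¹ v))
      rw [map_sub, apply_cancel_inv] at this
      rwa [apply_mul, apply_mul]⟩
  have hNsn : N.IsSubnormal := Subgroup.IsSubnormal.trans hND (Subgroup.Normal.isSubnormal inferInstance) hD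
  have hNp : IsPGroup p N := by
    rintro ⟨n, hn⟩
    refine ⟨1, Subtype.ext (hρ ?_)⟩
    show ρ (n ^ p ^ 1) = ρ 1
    have hmul : ∀ (i : ℕ) v, ρ (n ^ i) v = v + i • (ρ n v - v) := fun i v => by
      induction i with
      | zero => simp
      | succ i ih =>
        rw [pow_succ', apply_mul, ih, map_add, map_nsmul, hn.2.1 _ (hn.2.2 v), succ_nsmul]
        abel
    refine LinearMap.ext fun v => ?_
    rw [hmul, pow_one, map_one, Module.End.one_apply, ← Nat.cast_smul_eq_nsmul (ZMod p), ZMod.natCast_self, zero_smul,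
      add_zero]
  haveI : Group.IsNilpotent N := hNp.isNilpotent
  have hle : N ≤ Cfsg.pCore p Γ :=
    Cfsg.Lib.Solv.le_pCore_of_le_fitting (Cfsg.Lib.Solv.subnormal_nilpotent_le_fitting hNsn inferInstance) hNp
  have := hle (show g ∈ N from ⟨hg, h1, h2⟩)
  rwa [hO, mem_bot] at this

/-- The conclusion of the splitting. -/
def Split (ρ : Γ →* Module.End (ZMod p) M) (E₁ E₂ : Subgroup Γ) : Prop :=
  ⁅E₁, E₂⁆ = ⊥ ∧ E₁ ⊓ E₂ = ⊥ ∧ bracket ρ E₁ ⊓ bracket ρ E₂ = ⊥

theorem Split.symm' {E₁ E₂ : Subgroup Γ} (h : Split ρ E₁ E₂) : Split ρ E₂ E₁ :=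
  ⟨by rw [commutator_comm]; exact h.1, by rw [inf_comm]; exact h.2.1, by rw [inf_comm]; exact h.2.2⟩

theorem split_of_stable (hρ : Function.Injective ρ) (hO : Cfsg.pCore p Γ = ⊥) {E₁ E₂ : Subgroup Γ}
    (h₁ : E₁.IsSubnormal) (h₂ : E₂.IsSubnormal) (hi₂ : Irr ρ E₂)
    (h21 : ¬ bracket ρ E₂ ≤ bracket ρ E₁) (hst : ∀ f ∈ E₂, ∀ x ∈ bracket ρ E₁, ρ f x ∈ bracket ρ E₁) :
    Split ρ E₁ E₂ := by
  set W := bracket ρ E₁
  have hdis : W ⊓ bracket ρ E₂ = ⊥ := by
    refine (hi₂ _ inf_le_right fun g hg x hx => ⟨hst g hg x hx.1, sub_mem_of_mem hg hx.2⟩).resolve_right fun e => h21 ?_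
    rw [← e]; exact inf_le_left
  have htriv : ∀ f ∈ E₂, ∀ x ∈ W, ρ f x = x := fun f hf x hx => by
    have : ρ f x - x ∈ W ⊓ bracket ρ E₂ := ⟨W.sub_mem (hst f hf x hx) hx, sub_mem_bracket hf x⟩
    rwa [hdis, Submodule.mem_bot, sub_eq_zero] at this
  refine ⟨?_, ?_, hdis⟩
  · rw [eq_bot_iff, commutator_le]
    intro e he f hf
    rw [mem_bot]
    refine chain_trivial hρ hO (Cfsg.Lib.Solv.sup_isSubnormal h₁ h₂) (W := W) (fun d hd x hx => ?_)
      (mul_mem (mul_mem (mul_mem (mem_sup_left he) (mem_sup_right hf)) (inv_mem (mem_sup_left he))) (inv_mem (mem_sup_right hf)))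
      (fun x hx => ?_) fun v => ?_
    · have hle : E₁ ⊔ E₂ ≤ ({ carrier := {g | ∀ y, y ∈ W ↔ ρ g y ∈ W}
                              mul_mem' := fun {g k} hg hk y => by rw [apply_mul, hk y, hg]
                              one_mem' := fun y => by rw [map_one, Module.End.one_apply]
                              inv_mem' := fun {g} hg y => by rw [hg (ρ g⁻¹ y), apply_cancel_inv] } : Subgroup Γ) := by
        refine sup_le (fun g hg y => ⟨fun h => sub_mem_of_mem hg h, fun h => ?_⟩) (fun g hg y => ⟨fun h => hst g hg y h, fun h => ?_⟩)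
        · have := sub_mem_of_mem (E₁.inv_mem hg) h
          rwa [apply_inv_cancel] at this
        · have := hst _ (E₂.inv_mem hg) _ h
          rwa [apply_inv_cancel] at this
      exact (hle hd x).1 hx
    · rw [commutatorElement_def, apply_mul, apply_mul, apply_mul, htriv _ (inv_mem hf) x hx,
        htriv f hf _ (sub_mem_of_mem (inv_mem he) hx), apply_cancel_inv]
    · set z := ρ f⁻¹ v
      set y := ρ e⁻¹ z
      have hy : ρ f y - ρ f z ∈ W := by rw [← map_sub]; exact hst f hf _ (sub_mem_bracket (inv_mem he) z)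
      have hfz : ρ f z = v := apply_cancel_inv f v
      rw [commutatorElement_def, apply_mul, apply_mul, apply_mul]
      show ρ e (ρ f y) - v ∈ W
      rw [show ρ e (ρ f y) - v = (ρ e (ρ f y) - ρ f y) + (ρ f y - ρ f z) by rw [hfz]; abel]
      exact W.add_mem (sub_mem_bracket he _) hy
  · rw [eq_bot_iff]
    rintro g ⟨hg₁, hg₂⟩
    rw [mem_bot]
    exact chain_trivial hρ hO h₁ (W := W) (fun d hd x hx => sub_mem_of_mem hd hx) hg₁ (htriv g hg₂)
      (sub_mem_bracket hg₁)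

theorem card_bracket_conj (E : Subgroup Γ) (s : Γ) :
    Nat.card (bracket ρ (E.map (MulAut.conj s).toMonoidHom)) = Nat.card (bracket ρ E) := by
  refine (Nat.card_congr (Equiv.ofBijective (fun v : bracket ρ E =>
    (⟨ρ s v, bracket_conj s v.2⟩ : bracket ρ (E.map (MulAut.conj s).toMonoidHom))) ⟨fun v v' e => ?_, fun w => ?_⟩)).symm
  · have h1 : ρ s (v : M) = ρ s (v' : M) := congrArg Subtype.val e
    exact Subtype.ext (by simpa [apply_inv_cancel] using congrArg (ρ s⁻¹) h1)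
  · have h := bracket_conj (ρ := ρ) s⁻¹ w.2
    rw [Subgroup.map_map, show (MulAut.conj s⁻¹).toMonoidHom.comp (MulAut.conj s).toMonoidHom = MonoidHom.id Γ from
      MonoidHom.ext fun x => by simp [mul_assoc], Subgroup.map_id] at h
    exact ⟨⟨_, h⟩, Subtype.ext (apply_cancel_inv s (w : M))⟩

theorem irr_conj {E : Subgroup Γ} (hE : Irr ρ E) (s : Γ) : Irr ρ (E.map (MulAut.conj s).toMonoidHom) := by
  intro U hU hinv
  have hmap : ∀ x ∈ bracket ρ (E.map (MulAut.conj s).toMonoidHom), ρ s⁻¹ x ∈ bracket ρ E := fun x hx => by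
    have h := bracket_conj (ρ := ρ) s⁻¹ hx
    rwa [Subgroup.map_map, show (MulAut.conj s⁻¹).toMonoidHom.comp (MulAut.conj s).toMonoidHom = MonoidHom.id Γ from
      MonoidHom.ext fun y => by simp [mul_assoc], Subgroup.map_id] at h
  have hback : ∀ x, x ∈ U → x = ρ s (ρ s⁻¹ x) := fun x _ => (apply_cancel_inv s x).symm
  rcases hE (U.comap (ρ s)) (fun x hx => by
    have := hmap _ (hU hx)
    rwa [apply_inv_cancel] at this) (fun g hg x hx => by
      rw [Submodule.mem_comap] at hx ⊢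
      have h1 := hinv (s * g * s⁻¹) ⟨g, hg, rfl⟩ _ hx
      rwa [apply_mul, apply_mul, apply_inv_cancel] at h1) with h | h
  · left
    rw [eq_bot_iff]
    intro x hx
    have h2 : ρ s⁻¹ x ∈ U.comap (ρ s) := by rw [Submodule.mem_comap, apply_cancel_inv]; exact hx
    rw [h, Submodule.mem_bot] at h2
    rw [Submodule.mem_bot, hback x hx, h2, map_zero]
  · right
    refine le_antisymm hU fun x hx => ?_
    have h2 := h.ge (hmap x hx)
    rwa [Submodule.mem_comap, apply_cancel_inv] at h2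

theorem split_subnormal (hρ : Function.Injective ρ) (hO : Cfsg.pCore p Γ = ⊥) :
    ∀ (n : ℕ) (E₁ E₂ : Subgroup Γ), Nat.card ↥(E₁ ⊔ E₂) ≤ n → E₁.IsSubnormal → E₂.IsSubnormal → Irr ρ E₁ → Irr ρ E₂ →
      ¬ bracket ρ E₁ ≤ bracket ρ E₂ → ¬ bracket ρ E₂ ≤ bracket ρ E₁ → 2 < Nat.card E₁ → 2 < Nat.card E₂ →
      Split ρ E₁ E₂ := by
  intro n
  induction n with
  | zero => intro E₁ E₂ hn; exact absurd Nat.card_pos (Nat.not_lt.2 hn)
  | succ n ih =>
    intro E₁ E₂ hn h₁ h₂ hi₁ hi₂ h12 h21 hc₁ hc₂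
    set W := bracket ρ E₁
    by_cases hA : ∀ f ∈ E₂, ∀ x ∈ W, ρ f x ∈ W
    · exact split_of_stable hρ hO h₁ h₂ hi₂ h21 hA
    by_cases hB : ∀ e ∈ E₁, ∀ x ∈ bracket ρ E₂, ρ e x ∈ bracket ρ E₂
    · exact (split_of_stable hρ hO h₂ h₁ hi₁ h12 hB).symm'
    -- conjugates with a different module are centralized
    have key : ∀ (A B : Subgroup Γ), A ⊔ B = E₁ ⊔ E₂ → A.IsSubnormal → Irr ρ A → 2 < Nat.card A → A ≠ A ⊔ B →
        ∀ s ∈ B, ¬ (∀ x ∈ bracket ρ A, ρ s x ∈ bracket ρ A) →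
        (∀ e ∈ A, ∀ y ∈ bracket ρ A, ρ e (ρ s y) = ρ s y) ∧
          bracket ρ A ⊓ bracket ρ (A.map (MulAut.conj s).toMonoidHom) = ⊥ := by
      intro A B hAB hAs hAi hAc hne s hs hmove
      set A' := A.map (MulAut.conj s).toMonoidHom
      have hA's : A'.IsSubnormal := Cfsg.Lib.Solv.isSubnormal_conj s hAs
      have hle : ¬ bracket ρ A' ≤ bracket ρ A := fun h => hmove fun x hx => h (bracket_conj s hx)
      have hle' : ¬ bracket ρ A ≤ bracket ρ A' := fun h => hle (by
        have heq : bracket ρ A = bracket ρ A' := Submodule.eq_of_le_of_finrank_le h (by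
          have hc := card_bracket_conj (ρ := ρ) A s
          rw [Module.natCard_eq_pow_finrank (K := ZMod p), Module.natCard_eq_pow_finrank (K := ZMod p) (V := bracket ρ A),
            Nat.card_zmod] at hc
          exact (Nat.pow_right_injective hp.out.two_le hc).le)
        exact heq.ge)
      have hlt : Nat.card ↥(A ⊔ A') ≤ n := by
        obtain ⟨N, hN, hAN, hNlt⟩ := ((hAs.subgroupOf (K := A ⊔ B)).lt_normal).resolve_left fun e => hne
          (le_antisymm le_sup_left (subgroupOf_eq_top.1 e))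
        have hsub : A ⊔ A' ≤ N.map (A ⊔ B).subtype := by
          refine sup_le (fun a ha => ⟨⟨a, mem_sup_left ha⟩, hAN ha, rfl⟩) ?_
          rintro _ ⟨a, ha, rfl⟩
          exact ⟨⟨s, mem_sup_right hs⟩ * ⟨a, mem_sup_left ha⟩ * ⟨s, mem_sup_right hs⟩⁻¹, hN.conj_mem ⟨a, mem_sup_left ha⟩ (hAN ha) _, rfl⟩
        have h1 := Subgroup.card_le_card_group N
        have h2 : Nat.card N < Nat.card ↥(A ⊔ B) := lt_of_le_of_ne h1 fun e => hNlt.ne (Subgroup.eq_top_of_card_eq N e)
        have h3 := Nat.le_of_dvd Nat.card_pos (Subgroup.card_dvd_of_le hsub)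
        rw [Subgroup.card_map_of_injective (A ⊔ B).subtype_injective] at h3
        have h4 : Nat.card ↥(A ⊔ B) = Nat.card ↥(E₁ ⊔ E₂) := by rw [hAB]
        omega
      have hs' := ih A A' hlt hAs hA's hAi (irr_conj hAi s) hle' hle hAc
        (by rw [Subgroup.card_map_of_injective (f := (MulAut.conj s).toMonoidHom) (MulAut.conj s).injective]; exact hAc)
      refine ⟨fun e he y hy => ?_, hs'.2.2⟩
      have hnm : e ∈ normalizer (A' : Set Γ) := by
        refine centralizer_le_normalizer _ ?_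
        rw [mem_centralizer_iff]
        intro a ha
        have hc := Subgroup.commutator_mem_commutator he ha
        rw [hs'.1, mem_bot, commutatorElement_eq_one_iff_mul_comm] at hc
        exact hc.symm
      have hm : ρ e (ρ s y) - ρ s y ∈ bracket ρ A ⊓ bracket ρ A' :=
        ⟨sub_mem_bracket he _, Submodule.sub_mem _ (bracket_invariant hnm (bracket_conj s hy)) (bracket_conj s hy)⟩
      rwa [hs'.2.2, Submodule.mem_bot, sub_eq_zero] at hm
    have hne₁ : E₁ ≠ E₁ ⊔ E₂ := fun e => hA fun f hf x hx => sub_mem_of_mem (e ▸ mem_sup_right hf) hx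
    have hne₂ : E₂ ≠ E₂ ⊔ E₁ := fun e => hB fun f hf x hx => sub_mem_of_mem (e ▸ mem_sup_right hf) hx
    obtain ⟨s, hs, hsmove⟩ : ∃ s ∈ E₂, ¬ ∀ x ∈ W, ρ s x ∈ W := by
      by_contra hc; push Not at hc; exact hA hc
    obtain ⟨htr, hdis⟩ := key E₁ E₂ rfl h₁ hi₁ hc₁ hne₁ s hs hsmove
    -- every mover acts as -1
    have hneg : ∀ e ∈ E₁, (¬ ∀ x ∈ bracket ρ E₂, ρ e x ∈ bracket ρ E₂) → ∀ w ∈ W, ρ e w = -w := by
      intro e he hmove w hw
      obtain ⟨htr2, -⟩ := key E₂ E₁ (sup_comm _ _) h₂ hi₂ hc₂ hne₂ e he hmove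
      have hfix : ∀ u ∈ W, ρ s (ρ e u) - ρ s (ρ s u) = ρ e u - ρ s u := fun u hu => by
        have hv : u - ρ s u ∈ bracket ρ E₂ := by rw [← neg_sub]; exact Submodule.neg_mem _ (sub_mem_bracket hs u)
        have := htr2 s hs _ hv
        rwa [map_sub, htr e he u hu, map_sub] at this
      by_cases h2m : ∀ x ∈ W, ρ (s * s) x ∈ W
      · have h3 := hfix w hw
        have hm : ρ s (ρ e w + w) ∈ W ⊓ bracket ρ (E₁.map (MulAut.conj s).toMonoidHom) := by
          refine ⟨?_, bracket_conj s (Submodule.add_mem _ (sub_mem_of_mem he hw) hw)⟩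
          rw [map_add, show ρ s (ρ e w) + ρ s w = ρ e w + ρ s (ρ s w) by
            rw [← sub_eq_zero] at h3; rw [← sub_eq_zero, ← h3]; abel]
          exact Submodule.add_mem _ (sub_mem_of_mem he hw) (by rw [← apply_mul]; exact h2m w hw)
        rw [hdis, Submodule.mem_bot] at hm
        have h4 := congrArg (ρ s⁻¹) hm
        rw [apply_inv_cancel, map_zero] at h4
        exact eq_neg_of_add_eq_zero_left h4
      · exfalso
        obtain ⟨htr', -⟩ := key E₁ E₂ rfl h₁ hi₁ hc₁ hne₁ (s * s) (E₂.mul_mem hs hs) h2m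
        have hE₁ : E₁ = ⊥ := (Subgroup.eq_bot_iff_forall E₁).2 fun f hf => by
          refine chain_trivial hρ hO h₁ (W := W) (fun d hd x hx => sub_mem_of_mem hd hx) hf (fun x hx => ?_) (sub_mem_bracket hf)
          have hu : ρ e⁻¹ x ∈ W := sub_mem_of_mem (E₁.inv_mem he) hx
          have h3 := hfix _ hu
          rw [apply_cancel_inv, ← apply_mul s s] at h3
          have h5 := congrArg (ρ f) h3
          rw [map_sub, map_sub, htr f hf x hx, htr' f hf _ hu, htr f hf _ hu, h3, sub_left_inj] at h5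
          exact h5.symm
        rw [hE₁, Subgroup.card_bot] at hc₁
        omega
    obtain ⟨e₀, he₀, hmove₀⟩ : ∃ e ∈ E₁, ¬ ∀ x ∈ bracket ρ E₂, ρ e x ∈ bracket ρ E₂ := by
      by_contra hc; push Not at hc; exact hB hc
    have huniq : ∀ e ∈ E₁, (¬ ∀ x ∈ bracket ρ E₂, ρ e x ∈ bracket ρ E₂) → e = e₀ := fun e he hm => by
      refine inv_mul_eq_one.1 (?_ : e⁻¹ * e₀ = 1)
      refine chain_trivial hρ hO h₁ (W := W) (fun d hd x hx => sub_mem_of_mem hd hx) (mul_mem (inv_mem he) he₀)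
        (fun x hx => ?_) (sub_mem_bracket (mul_mem (inv_mem he) he₀))
      rw [apply_mul, hneg e₀ he₀ hmove₀ x hx, map_neg]
      have := hneg e he hm x hx
      conv_rhs => rw [← apply_inv_cancel (ρ := ρ) e x, this, map_neg]
    exfalso
    have hle2 : (E₁ : Set Γ) ⊆ {1, e₀} := fun g hg => by
      by_cases hgm : ∀ x ∈ bracket ρ E₂, ρ g x ∈ bracket ρ E₂
      · left
        have h5 : g * e₀ = e₀ := huniq _ (mul_mem hg he₀) fun hall => hmove₀ fun x hx => by
          have h6 := hall x hx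
          rw [apply_mul] at h6
          let φ : ↥(bracket ρ E₂) → ↥(bracket ρ E₂) := fun y => ⟨ρ g y, hgm y y.2⟩
          have hsur : Function.Surjective φ := Finite.surjective_of_injective fun y y' h =>
            Subtype.ext (by simpa [φ, apply_inv_cancel] using congrArg (ρ g⁻¹) (congrArg Subtype.val h))
          obtain ⟨⟨y, hy⟩, hyx⟩ := hsur ⟨_, h6⟩
          have h7 := congrArg (ρ g⁻¹) (congrArg Subtype.val hyx)
          simp only [φ, apply_inv_cancel] at h7
          rwa [← h7]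
        exact mul_eq_right.1 h5
      · exact Or.inr (huniq g hg hgm)
    have h7 := Nat.card_mono (Set.toFinite _) hle2
    have h8 : Nat.card ({1, e₀} : Set Γ) ≤ 2 := by
      rw [Nat.card_coe_set_eq]
      exact (Set.ncard_insert_le _ _).trans (by rw [Set.ncard_singleton])
    exact absurd (h7.trans h8) (Nat.not_le.2 hc₁)

end Cfsg.Lib.PLocal.FF
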