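import Mathlib
import Cfsg.Prelude.Def_ConjugacyFunctors
import Cfsg.Agent.Lib.PLocal.Constraint
import Cfsg.Agent.Lib.PLocal.TransferControl

/-!
Transport of the data in hypotheses on sections along isomorphisms.
-/

set_option autoImplicit false

namespace Cfsg.Lib.PLocal.SectionTransport

open Cfsg

universe u

variable {p : ℕ} {A L : Type u} [Group A] [Group L]

theorem map_pCore [Finite A] [Fact p.Prime] (e : A ≃* L) : (pCore p A).map e.toMonoidHom = pCore p L :=
  PLocal.map_pCore_equiv e

theorem centralizer_le_of_equiv [Finite L] [Fact p.Prime] (e : A ≃* L)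
    (h : Subgroup.centralizer (pCore p L : Set L) ≤ pCore p L) :
    Subgroup.centralizer (pCore p A : Set A) ≤ pCore p A :=
  PLocal.selfCentralizingCore_congr e.symm h

theorem exists_sylow_map [Fact p.Prime] (e : A ≃* L) (S : Sylow p L) :
    ∃ T : Sylow p A, (T : Subgroup A).map e.toMonoidHom = S :=
  ⟨S.comapOfInjective e.toMonoidHom e.injective (fun y _ => ⟨e.symm y, e.apply_symm_apply y⟩),
    Subgroup.map_comap_eq_self_of_surjective e.surjective _⟩

theorem map_normalizer_induced [Finite A] [Fact p.Prime] {W : ∀ (Q : Type u) [Group Q], Subgroup Q}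
    (hW : IsCharPFunctor.{u} p W) (e : A ≃* L) (T : Sylow p A) (S : Sylow p L)
    (hT : (T : Subgroup A).map e.toMonoidHom = S) :
    (Subgroup.normalizer ((inducedFunctor W (T : Subgroup A) : Subgroup A) : Set A)).map e.toMonoidHom =
      Subgroup.normalizer ((inducedFunctor W (S : Subgroup L) : Subgroup L) : Set L) := by
  rw [← hT, TransferControl.induced_map hW e.toMonoidHom _ T.isPGroup' e.injective.injOn]
  exact Subgroup.map_equiv_normalizer_eq _ e

theorem normal_induced [Finite A] [Fact p.Prime] {W : ∀ (Q : Type u) [Group Q], Subgroup Q}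
    (hW : IsCharPFunctor.{u} p W) (e : A ≃* L) (T : Sylow p A) (S : Sylow p L)
    (hT : (T : Subgroup A).map e.toMonoidHom = S) (h : (inducedFunctor W (T : Subgroup A)).Normal) :
    (inducedFunctor W (S : Subgroup L)).Normal := by
  rw [← hT, TransferControl.induced_map hW e.toMonoidHom _ T.isPGroup' e.injective.injOn]
  exact h.map _ e.surjective

end Cfsg.Lib.PLocal.SectionTransport
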