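import Mathlib
import Cfsg.Prelude.Def_PLocal
import Cfsg.Agent.Lib.PLocal.FamilyInd
import Cfsg.Agent.Lib.PLocal.SectionTransport

/-!
A factorization through the centralizer of `Ω₁Z(S)` in the constrained sections gives one in every group in
which `Ω₁Z(S)` lies in the `p`-core.
-/

set_option autoImplicit false
set_option linter.unusedSectionVars false
set_option linter.style.haveILetI false

open scoped commutatorElement Pointwise

namespace Cfsg.Lib.PLocal.FamilyOmega

open Cfsg

universe u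

variable {p : ℕ} [Fact p.Prime]

/-- `Ω₁Z(T)`. -/
abbrev zOm (p : ℕ) {X : Type u} [Group X] (T : Subgroup X) : Subgroup X :=
  omegaOne p (T ⊓ Subgroup.centralizer (T : Set X))

theorem zOm_le {X : Type u} [Group X] (T : Subgroup X) : zOm p T ≤ T ⊓ Subgroup.centralizer (T : Set X) :=
  (Subgroup.closure_le _).2 fun _ hx => hx.1

theorem zOm_map {X Y : Type u} [Group X] [Group Y] (f : X →* Y) (T : Subgroup X) (hf : Set.InjOn f T) :
    zOm p (T.map f) = (zOm p T).map f := by
  refine le_antisymm ((Subgroup.closure_le _).2 ?_) ?_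
  · rintro y ⟨⟨⟨t, ht, rfl⟩, hC⟩, hpow⟩
    refine ⟨t, Subgroup.subset_closure ⟨⟨ht, Subgroup.mem_centralizer_iff.2 fun s hs => ?_⟩, ?_⟩, rfl⟩
    · refine hf (T.mul_mem hs ht) (T.mul_mem ht hs) ?_
      rw [map_mul, map_mul]
      exact Subgroup.mem_centralizer_iff.1 hC _ ⟨s, hs, rfl⟩
    · refine hf (T.pow_mem ht p) T.one_mem ?_
      rw [map_pow, map_one]
      exact hpow
  · rw [Subgroup.map_le_iff_le_comap]
    refine (Subgroup.closure_le _).2 fun t ht => Subgroup.subset_closure ⟨⟨⟨t, ht.1.1, rfl⟩, ?_⟩, ?_⟩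
    · refine Subgroup.mem_centralizer_iff.2 ?_
      rintro _ ⟨s, hs, rfl⟩
      rw [← map_mul, ← map_mul, Subgroup.mem_centralizer_iff.1 ht.1.2 s hs]
    · rw [← map_pow, ht.2, map_one]

/-- `X = C(Ω₁Z(S)) N(W(S))`. -/
def Fac (W : ∀ (Q : Type u) [Group Q], Subgroup Q) (X : Type u) [Group X] (T : Subgroup X) (p : ℕ) : Prop :=
  ∀ x : X, ∃ a ∈ Subgroup.centralizer ((zOm p T : Subgroup X) : Set X),
    ∃ b ∈ Subgroup.normalizer ((inducedFunctor W T : Subgroup X) : Set X), x = a * b

/-- The factorization in every constrained section. -/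
def Hyp (p : ℕ) (W : ∀ (Q : Type u) [Group Q], Subgroup Q) (X : Type u) [Group X] : Prop :=
  ∀ (L : Type u) [Group L] [Finite L], Involves L X →
    Subgroup.centralizer (pCore p L : Set L) ≤ pCore p L → ∀ T : Sylow p L, Fac W L (T : Subgroup L) p

theorem Hyp.of_involves {W : ∀ (Q : Type u) [Group Q], Subgroup Q} {X G : Type u} [Group X] [Group G]
    (h : Hyp p W G) (hX : Involves X G) : Hyp p W X :=
  fun L _ _ hL hc T => h L (TransferControl.involves_trans hL hX) hc T

theorem hyp_of_sections {W : ∀ (Q : Type u) [Group Q], Subgroup Q} (hW : IsCharPFunctor.{u} p W)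
    {G : Type u} [Group G] [Finite G]
    (hloc : ∀ (K R : Subgroup G) [hR : (R.subgroupOf K).Normal],
      Subgroup.centralizer ((pCore p (↥K ⧸ R.subgroupOf K) : Subgroup (↥K ⧸ R.subgroupOf K)) :
        Set (↥K ⧸ R.subgroupOf K)) ≤ pCore p (↥K ⧸ R.subgroupOf K) →
      ∀ T : Sylow p (↥K ⧸ R.subgroupOf K), Fac W (↥K ⧸ R.subgroupOf K) (T : Subgroup (↥K ⧸ R.subgroupOf K)) p) :
    Hyp p W G := by
  intro L _ _ hL hc T x
  obtain ⟨K, R, hR, ⟨e⟩⟩ := hL
  obtain ⟨T', hT'⟩ := SectionTransport.exists_sylow_map e T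
  obtain ⟨a, ha, b, hb, hab⟩ := hloc K R (PLocal.selfCentralizingCore_congr e.symm hc) T' (e.symm x)
  refine ⟨e a, ?_, e b, ?_, by rw [← map_mul, ← hab, e.apply_symm_apply]⟩
  · rw [← hT', zOm_map e.toMonoidHom _ e.injective.injOn]
    refine Subgroup.mem_centralizer_iff.2 ?_
    rintro _ ⟨z, hz, rfl⟩
    show e z * e a = e a * e z
    rw [← map_mul, ← map_mul, Subgroup.mem_centralizer_iff.1 ha z hz]
  · rw [← SectionTransport.map_normalizer_induced hW e T' T hT']
    exact ⟨b, hb, rfl⟩

/-- The factorization in a group whose `p`-core contains `Ω₁Z(S)`. -/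
theorem fac_of_hyp {W : ∀ (Q : Type u) [Group Q], Subgroup Q} (hW : IsCharPFunctor.{u} p W) :
    ∀ (n : ℕ) (H : Type u) [Group H] [Finite H], Nat.card H = n → Hyp p W H → ∀ S : Sylow p H,
      zOm p (S : Subgroup H) ≤ pCore p H → Fac W H (S : Subgroup H) p := by
  intro n
  induction n using Nat.strong_induction_on with
  | _ n ih =>
  intro H _ _ hn hH S hZ x
  subst hn
  haveI := Transfer.pCore_normal (G := H) p
  set Y := pCore p H with hY
  have hYp : IsPGroup p Y := Transfer.pCore_isPGroup p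
  have hYS : Y ≤ (S : Subgroup H) := Transfer.pCore_le_sylow S
  set C := Subgroup.centralizer (Y : Set H) with hC
  by_cases hCY : C ≤ Y
  · exact hH H (TransferControl.involves_refl H) hCY S x
  set Z := zOm p (S : Subgroup H) with hZdef
  have hCZ : C ≤ Subgroup.centralizer (Z : Set H) := Subgroup.centralizer_le hZ
  haveI hCn : C.Normal := inferInstance
  obtain ⟨Cs, hCs⟩ := Solv.sylow_inf_subnormal (H := C) (Subgroup.Normal.isSubnormal hCn) S
  set U := Y ⊔ ((S : Subgroup H) ⊓ C) with hU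
  have hUS : U ≤ (S : Subgroup H) := sup_le hYS inf_le_left
  by_cases hUn : Subgroup.normalizer (U : Set H) = ⊤
  · haveI : U.Normal := Subgroup.normalizer_eq_top_iff.1 hUn
    have hUY : U ≤ Y := Transfer.le_pCore inferInstance (S.isPGroup'.to_le hUS)
    have hCsY : ∀ c : C, c ∈ (Cs : Subgroup C) → (c : H) ∈ Y := fun c hc => by
      rw [hCs] at hc
      exact hUY (Subgroup.mem_sup_right ⟨hc, c.2⟩)
    have hcent : Subgroup.normalizer ((Cs : Subgroup C) : Set C) ≤
        Subgroup.centralizer ((Cs : Subgroup C) : Set C) := fun c _ =>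
      Subgroup.mem_centralizer_iff.2 fun y hy => Subtype.ext
        (Subgroup.mem_centralizer_iff.1 c.2 _ (hCsY y hy))
    have hK₀c : (Nat.card (pResidual p C)).Coprime p :=
      Transfer.hasNormalPComplement_iff_pResidual.1
        ⟨Cs, _, inferInstance, MonoidHom.ker_transferSylow_isComplement' Cs hcent⟩
    haveI : (pResidual p C).Characteristic := Transfer.pResidual_characteristic p
    set K := (pResidual p C).map C.subtype with hK
    haveI hKn : K.Normal := ConjAct.normal_of_characteristic_of_normal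
    have hKc : (Nat.card K).Coprime p := by
      rw [hK, Subgroup.card_map_of_injective C.subtype_injective]
      exact hK₀c
    have hK1 : K ≠ ⊥ := fun hK1 => hCY fun c hc => by
      have h1 : pResidual p C = ⊥ :=
        (Subgroup.map_eq_bot_iff_of_injective _ C.subtype_injective).1 hK1
      have h2 := Transfer.pResidual_sup_sylow Cs
      rw [h1, bot_sup_eq] at h2
      exact hCsY ⟨c, hc⟩ (h2 ▸ Subgroup.mem_top _)
    set q := QuotientGroup.mk' K with hq
    have hqs : Function.Surjective q := QuotientGroup.mk'_surjective K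
    have hinj : Set.InjOn q (S : Subgroup H) := by
      intro a ha b hb h
      obtain ⟨k, hk⟩ := S.isPGroup' ⟨a⁻¹ * b, (S : Subgroup H).mul_mem ((S : Subgroup H).inv_mem ha) hb⟩
      have h1 := Subgroup.orderOf_dvd_natCard (s := K) (QuotientGroup.eq.1 h)
      have h2 := orderOf_dvd_of_pow_eq_one (congrArg Subtype.val hk : (a⁻¹ * b) ^ p ^ k = 1)
      exact inv_mul_eq_one.1
        (orderOf_eq_one_iff.1 (Nat.eq_one_of_dvd_coprimes (hKc.pow_right k) h1 h2))
    have hcard : Nat.card (H ⧸ K) < Nat.card H := by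
      rw [Subgroup.card_eq_card_quotient_mul_card_subgroup K]
      haveI : Nontrivial K := (Subgroup.nontrivial_iff_ne_bot K).2 hK1
      exact lt_mul_of_one_lt_right Nat.card_pos Finite.one_lt_card
    have hS' : ((S.mapSurjective hqs : Sylow p (H ⧸ K)) : Subgroup (H ⧸ K)) = (S : Subgroup H).map q := rfl
    obtain ⟨a, ha, b, hb, hab⟩ := ih _ hcard (H ⧸ K) rfl (hH.of_involves (TransferControl.involves_quotient K))
      (S.mapSurjective hqs) (by
        rw [hS', zOm_map q _ hinj]
        exact (Subgroup.map_mono hZ).trans (Solv.map_pCore_le (f := q) p hqs)) (q x)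
    rw [hS', zOm_map q _ hinj] at ha
    rw [hS', TransferControl.induced_map hW q _ S.isPGroup' hinj] at hb
    obtain ⟨b0, rfl⟩ := hqs b
    set V := inducedFunctor W (S : Subgroup H) with hV
    obtain ⟨o, ho, hob⟩ := exists_mul_mem_normalizer K V hKc
      (S.isPGroup'.to_le (TransferControl.induced_le W _)) (g := b0) (by
      rintro _ ⟨z, hz, rfl⟩
      obtain ⟨z', hz', e⟩ : q b0 * q z * (q b0)⁻¹ ∈ V.map q :=
        (Subgroup.mem_normalizer_iff.1 hb _).1 ⟨z, hz, rfl⟩
      rw [← map_inv, ← map_mul, ← map_mul] at e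
      have h1 : z'⁻¹ * (b0 * z * b0⁻¹) ∈ K := QuotientGroup.eq.1 e
      show b0 * z * b0⁻¹ ∈ K ⊔ V
      rw [← mul_inv_cancel_left z' (b0 * z * b0⁻¹)]
      exact Subgroup.mul_mem _ (Subgroup.mem_sup_right hz') (Subgroup.mem_sup_left h1))
    refine ⟨x * (o * b0)⁻¹, Subgroup.mem_centralizer_iff.2 fun z hz => ?_, o * b0, hob, by group⟩
    have hqa : q (x * (o * b0)⁻¹) = a := by
      rw [map_mul, map_inv, map_mul, show q o = 1 from (QuotientGroup.eq_one_iff o).2 ho, one_mul, hab,
        mul_inv_cancel_right]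
    set a' := x * (o * b0)⁻¹ with ha'
    refine mul_inv_eq_iff_eq_mul.1 (hinj (hYS ((inferInstance : Y.Normal).conj_mem z (hZ hz) a')) (hYS (hZ hz)) ?_) |>.symm
    rw [map_mul, map_mul, map_inv, hqa, ← Subgroup.mem_centralizer_iff.1 ha (q z) ⟨z, hz, rfl⟩,
      mul_inv_cancel_right]
  -- `H = C N(U)`
  set N := Subgroup.normalizer (U : Set H) with hN
  have hSN : (S : Subgroup H) ≤ N := by
    intro s hs
    refine mem_normalizer_of_conj_le fun y hy => ?_
    have h1 : U ≤ U.comap (MulAut.conj s).toMonoidHom := sup_le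
      (fun z hz => Subgroup.mem_sup_left ((inferInstance : Y.Normal).conj_mem z hz s))
      (fun z hz => Subgroup.mem_sup_right ⟨(S : Subgroup H).mul_mem ((S : Subgroup H).mul_mem hs hz.1)
        ((S : Subgroup H).inv_mem hs), hCn.conj_mem z hz.2 s⟩)
    exact h1 hy
  have hfr := Sylow.normalizer_sup_eq_top Cs
  rw [hCs, Subgroup.subgroupOf_map_subtype] at hfr
  obtain ⟨c, hc, m, hm, rfl⟩ := Subgroup.mem_sup_of_normal_left.1
    (show x ∈ C ⊔ N from by
      have h : x ∈ Subgroup.normalizer (((S : Subgroup H) ⊓ C : Subgroup H) : Set H) ⊔ C := by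
        rw [hfr]; trivial
      rw [sup_comm] at h
      refine sup_le_sup_left (fun y hy => ?_) C h
      refine mem_normalizer_of_conj_le fun u hu => ?_
      have h1 : U ≤ U.comap (MulAut.conj y).toMonoidHom := sup_le
        (fun z hz => Subgroup.mem_sup_left ((inferInstance : Y.Normal).conj_mem z hz y))
        (fun z hz => Subgroup.mem_sup_right ((Subgroup.mem_normalizer_iff.1 hy z).1 hz))
      exact h1 hu)
  let S' : Sylow p N := S.subtype hSN
  have hS'map : (S' : Subgroup N).map N.subtype = (S : Subgroup H) := Subgroup.map_subgroupOf_eq_of_le hSN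
  have hinjN : Set.InjOn N.subtype (S' : Subgroup N) := N.subtype_injective.injOn
  have hUN : (U.subgroupOf N).Normal := Subgroup.normal_in_normalizer
  obtain ⟨a, ha, b, hb, hab⟩ := ih _ (card_lt_of_ne_top hUn) N rfl
    (hH.of_involves (TransferControl.involves_subgroup N)) S' (by
      intro z hz
      have h1 : (z : H) ∈ Z := by
        rw [hZdef, ← hS'map, zOm_map _ _ hinjN]
        exact ⟨z, hz, rfl⟩
      exact Transfer.le_pCore hUN ((S.isPGroup'.to_le hUS).comap_of_injective N.subtype N.subtype_injective)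
        (show z ∈ U.subgroupOf N from Subgroup.mem_sup_left (hZ h1))) ⟨m, hm⟩
  refine ⟨c * (a : H), Subgroup.mul_mem _ (hCZ hc) (Subgroup.mem_centralizer_iff.2 fun z hz => ?_), (b : H), ?_, ?_⟩
  · rw [hZdef, ← hS'map, zOm_map _ _ hinjN] at hz
    obtain ⟨z', hz', rfl⟩ := hz
    exact congrArg Subtype.val (Subgroup.mem_centralizer_iff.1 ha z' hz')
  · rw [← hS'map, TransferControl.induced_map hW N.subtype _ S'.isPGroup' hinjN]
    refine mem_normalizer_of_conj_le ?_
    rintro _ ⟨u, hu, rfl⟩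
    exact ⟨_, (Subgroup.mem_normalizer_iff.1 hb u).1 hu, rfl⟩
  · rw [mul_assoc]
    exact congrArg (c * ·) (congrArg Subtype.val hab)

/-- Conjugates of `Ω₁Z(S)` by elements normalizing a functor value above it. -/
theorem conj_eq_of_fac {G : Type u} [Group G] [Finite G] (S : Sylow p G)
    {W₁ W₂ : ∀ (Q : Type u) [Group Q], Subgroup Q} (hW₁ : IsCharPFunctor.{u} p W₁)
    (hW₂ : IsCharPFunctor.{u} p W₂) (h : Hyp p W₁ G)
    (hZ : zOm p (S : Subgroup G) ≤ inducedFunctor W₂ (S : Subgroup G)) {n : G}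
    (hn : n ∈ Subgroup.normalizer ((inducedFunctor W₂ (S : Subgroup G) : Subgroup G) : Set G)) :
    ∃ m ∈ Subgroup.normalizer ((inducedFunctor W₁ (S : Subgroup G) : Subgroup G) : Set G),
      ∀ z ∈ zOm p (S : Subgroup G), n * z * n⁻¹ = m * z * m⁻¹ := by
  set V := inducedFunctor W₂ (S : Subgroup G) with hV
  set N := Subgroup.normalizer (V : Set G) with hN
  have hSN : (S : Subgroup G) ≤ N :=
    Subgroup.le_normalizer.trans (TransferControl.normalizer_le hW₂ _ S.isPGroup')
  let S' : Sylow p N := S.subtype hSN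
  have hS'map : (S' : Subgroup N).map N.subtype = (S : Subgroup G) := Subgroup.map_subgroupOf_eq_of_le hSN
  have hinjN : Set.InjOn N.subtype (S' : Subgroup N) := N.subtype_injective.injOn
  obtain ⟨a, ha, b, hb, hab⟩ := fac_of_hyp hW₁ _ N rfl (h.of_involves (TransferControl.involves_subgroup N)) S' (by
    intro z hz
    have h1 : (z : G) ∈ zOm p (S : Subgroup G) := by
      rw [← hS'map, zOm_map _ _ hinjN]
      exact ⟨z, hz, rfl⟩
    exact Transfer.le_pCore (Subgroup.normal_in_normalizer)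
      ((S.isPGroup'.to_le (TransferControl.induced_le W₂ _)).comap_of_injective N.subtype N.subtype_injective)
      (show z ∈ V.subgroupOf N from hZ h1)) ⟨n⁻¹, N.inv_mem hn⟩
  refine ⟨(b : G)⁻¹, ?_, fun z hz => ?_⟩
  · refine Subgroup.inv_mem _ ?_
    rw [← hS'map, TransferControl.induced_map hW₁ N.subtype _ S'.isPGroup' hinjN]
    refine mem_normalizer_of_conj_le ?_
    rintro _ ⟨u, hu, rfl⟩
    exact ⟨_, (Subgroup.mem_normalizer_iff.1 hb u).1 hu, rfl⟩
  · rw [← hS'map, zOm_map _ _ hinjN] at hz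
    obtain ⟨z', hz', rfl⟩ := hz
    have h2 : n⁻¹ = (a : G) * (b : G) := congrArg Subtype.val hab
    have h3 : (z' : G) * (a : G) = (a : G) * (z' : G) :=
      congrArg Subtype.val (Subgroup.mem_centralizer_iff.1 ha z' hz')
    rw [inv_eq_iff_eq_inv.1 h2]
    show ((a : G) * b)⁻¹ * (z' : G) * ((a : G) * b)⁻¹⁻¹ = (b : G)⁻¹ * (z' : G) * (b : G)⁻¹⁻¹
    calc ((a : G) * b)⁻¹ * (z' : G) * ((a : G) * b)⁻¹⁻¹ = (b : G)⁻¹ * ((a : G)⁻¹ * ((z' : G) * a)) * b := by group
      _ = (b : G)⁻¹ * ((a : G)⁻¹ * ((a : G) * z')) * b := by rw [h3]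
      _ = _ := by group

end Cfsg.Lib.PLocal.FamilyOmega
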