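import Mathlib
import Cfsg.Prelude.Def_ConjugacyFunctors
import Cfsg.Prelude.Def_LocalEven
import Cfsg.Agent.Lib.PLocal.NormalComplement
import Cfsg.Agent.Lib.Fusion.Submodel

/-!
The normal `p`-complement theorem for functors controlling fusion in stable sections.
-/

set_option autoImplicit false

open scoped commutatorElement

namespace Cfsg.Lib.PLocal

open Cfsg

universe u

variable {p : ℕ} [hp : Fact p.Prime]

theorem mem_pCore_congr {G : Type*} [Group G] {q : ℕ} {N1 N2 : Subgroup G} [N1.Normal] [N2.Normal] (h : N1 = N2)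
    (a b : G) (hab : (QuotientGroup.mk a : G ⧸ N1) ∈ pCore q (G ⧸ N1)) :
    a = b → (QuotientGroup.mk b : G ⧸ N2) ∈ pCore q (G ⧸ N2) := by
  subst h
  rintro rfl
  exact hab

/-- A functor on `p`-subgroups commuting with injections. -/
structure IsPFunctor (p : ℕ) (W : ∀ {G : Type u} [Group G], Subgroup G → Subgroup G) : Prop where
  map : ∀ {G H : Type u} [Group G] [Group H] [Finite G] (f : G →* H) (Q : Subgroup G), IsPGroup p Q →
    Set.InjOn f Q → W (Q.map f) = (W Q).map f
  le : ∀ {G : Type u} [Group G] [Finite G] (Q : Subgroup G), W Q ≤ Q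
  ne_bot : ∀ {G : Type u} [Group G] [Finite G] (Q : Subgroup G), IsPGroup p Q → Q ≠ ⊥ → W Q ≠ ⊥

theorem IsPFunctor.normalizer_le {G : Type u} [Group G] [Finite G]
    {W : ∀ {G : Type u} [Group G], Subgroup G → Subgroup G} (hW : IsPFunctor p W)
    (Q : Subgroup G) (hQ : IsPGroup p Q) :
    Subgroup.normalizer (Q : Set G) ≤ Subgroup.normalizer (W Q : Set G) := by
  intro g hg
  refine mem_normalizer_of_map_conj ?_
  rw [← hW.map (MulAut.conj g).toMonoidHom Q hQ (Function.Injective.injOn (MulAut.conj g).injective)]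
  congr 1
  refine Subgroup.eq_of_le_of_card_ge ?_ (Subgroup.card_map_of_injective (MulAut.conj g).injective).ge
  rintro _ ⟨x, hx, rfl⟩
  exact (Subgroup.mem_normalizer_iff.1 hg x).1 hx

/-- `W` controls fusion of elements in all sections whose sections are all stable. -/
def ControlledFusion (p : ℕ) (W : ∀ {G : Type u} [Group G], Subgroup G → Subgroup G) (X : Type u) [Group X] :
    Prop :=
  ∀ (L : Type u) [Group L] [Finite L], Cfsg.Involves L X →
    (∀ (M : Type u) [Group M] [Finite M], Cfsg.Involves M L → Cfsg.IsNormalizerPStable p M) →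
    ∀ (T : Sylow p L), ∀ a ∈ (T : Subgroup L), ∀ g : L, g * a * g⁻¹ ∈ (T : Subgroup L) →
      ∃ x ∈ Subgroup.normalizer (W (T : Subgroup L) : Set L), x * a * x⁻¹ = g * a * g⁻¹

/-- An abelian `p'`-group between two `p`-groups. -/
def HasStableShape (p : ℕ) (X : Type u) [Group X] : Prop :=
  ∃ R K : Subgroup X, R.Normal ∧ K.Normal ∧ IsPGroup p R ∧ (∃ m : ℕ, m.Coprime p ∧ ∀ k ∈ K, k ^ m ∈ R) ∧
    ⁅K, K⁆ ≤ R ∧ ∀ x : X, ∃ i : ℕ, x ^ p ^ i ∈ K

section
variable {X Y : Type u} [Group X] [Group Y]

theorem HasStableShape.of_injective (f : Y →* X) (hf : Function.Injective f) (h : HasStableShape p X) :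
    HasStableShape p Y := by
  obtain ⟨R, K, hR, hK, hRp, ⟨m, hm, hmK⟩, hc, hi⟩ := h
  refine ⟨R.comap f, K.comap f, hR.comap f, hK.comap f, hRp.comap_of_injective f hf,
    ⟨m, hm, fun k hk => ?_⟩, ?_, fun x => ?_⟩
  · rw [Subgroup.mem_comap, map_pow]; exact hmK _ hk
  · refine Subgroup.commutator_le.2 fun a ha b hb => ?_
    rw [Subgroup.mem_comap, map_commutatorElement]
    exact hc (Subgroup.commutator_mem_commutator ha hb)
  · obtain ⟨i, hi⟩ := hi (f x)
    exact ⟨i, by rw [Subgroup.mem_comap, map_pow]; exact hi⟩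

theorem HasStableShape.of_surjective (f : X →* Y) (hf : Function.Surjective f) (h : HasStableShape p X) :
    HasStableShape p Y := by
  obtain ⟨R, K, hR, hK, hRp, ⟨m, hm, hmK⟩, hc, hi⟩ := h
  refine ⟨R.map f, K.map f, hR.map f hf, hK.map f hf, hRp.map f, ⟨m, hm, ?_⟩, ?_, fun y => ?_⟩
  · rintro _ ⟨k, hk, rfl⟩
    exact ⟨_, hmK k hk, map_pow f k m⟩
  · rw [← Subgroup.map_commutator]; exact Subgroup.map_mono hc
  · obtain ⟨x, rfl⟩ := hf y
    obtain ⟨i, hi⟩ := hi x
    exact ⟨i, _, hi, map_pow f x _⟩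

theorem HasStableShape.of_involves (h : HasStableShape p X) (hY : Cfsg.Involves Y X) : HasStableShape p Y := by
  obtain ⟨K, R, hn, ⟨e⟩⟩ := hY
  exact ((h.of_injective K.subtype K.subtype_injective).of_surjective (QuotientGroup.mk' _)
    (QuotientGroup.mk'_surjective (R.subgroupOf K))).of_surjective e.toMonoidHom e.surjective

theorem HasStableShape.isNormalizerPStable [Finite X] (hp2 : p ≠ 2) (h : HasStableShape p X) :
    Cfsg.IsNormalizerPStable p X := by
  intro P hP g hg hq
  set N := Subgroup.normalizer (P : Set X) with hN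
  obtain ⟨R, K, hRn, hKn, hRp, ⟨m, hm, hmK⟩, hc, hi⟩ := h.of_injective N.subtype N.subtype_injective
  haveI := hRn
  haveI := hKn
  set B := P.subgroupOf N with hB
  haveI hBn : B.Normal := Subgroup.normal_in_normalizer
  have hBp : IsPGroup p B := hP.comap_of_injective N.subtype N.subtype_injective
  set g' : N := ⟨g, hg⟩ with hg'
  have hqB : ⁅⁅B, Subgroup.zpowers g'⁆, Subgroup.zpowers g'⁆ = ⊥ := by
    rw [← Subgroup.map_eq_bot_iff_of_injective _ N.subtype_injective, Subgroup.map_commutator,
      Subgroup.map_commutator, Subgroup.map_subgroupOf_eq_of_le Subgroup.le_normalizer, MonoidHom.map_zpowers]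
    exact hq
  -- the `p`-part and the `p'`-part
  set n1 := ordProj[p] (orderOf g') with hn1
  set n2 := ordCompl[p] (orderOf g') with hn2
  obtain ⟨u, v, huv⟩ : ∃ u v : ℤ, u * n1 + v * n2 = 1 := by
    have hcop : Nat.Coprime n1 n2 :=
      (Nat.coprime_ordCompl hp.out (orderOf_pos g').ne').pow_left _
    exact (Nat.isCoprime_iff_coprime.2 hcop)
  set gq := g' ^ (u * n1) with hgq
  set gp := g' ^ (v * n2) with hgp
  have hmemz : ∀ i : ℤ, Subgroup.zpowers (g' ^ i) ≤ Subgroup.zpowers g' := fun i =>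
    Subgroup.zpowers_le.2 (Subgroup.zpow_mem_zpowers g' i)
  have hqi : ∀ i : ℤ, ⁅⁅B, Subgroup.zpowers (g' ^ i)⁆, Subgroup.zpowers (g' ^ i)⁆ = ⊥ := fun i =>
    le_bot_iff.1 ((Subgroup.commutator_mono (Subgroup.commutator_mono le_rfl (hmemz i)) (hmemz i)).trans hqB.le)
  have hgqC : gq ∈ Subgroup.centralizer (B : Set N) := by
    have hd : orderOf gq ∣ n2 := by
      refine orderOf_dvd_of_pow_eq_one ?_
      have e : n1 * n2 = orderOf g' := Nat.ordProj_mul_ordCompl_eq_self _ _
      rw [hgq, ← zpow_natCast, ← zpow_mul, show u * (n1 : ℤ) * (n2 : ℤ) = ((n1 * n2 : ℕ) : ℤ) * u by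
        push_cast; ring, e, zpow_mul, zpow_natCast, pow_orderOf_eq_one, one_zpow]
    have hcop : (Nat.card (Subgroup.zpowers gq)).Coprime (Nat.card B) := by
      obtain ⟨j, hj⟩ := IsPGroup.iff_card.1 hBp
      rw [Nat.card_zpowers, hj]
      exact ((Nat.coprime_ordCompl hp.out (orderOf_pos g').ne').symm.coprime_dvd_left hd).pow_right j
    have h1 := Solv.centralizes_of_commutator_commutator_eq_bot (Subgroup.zpowers gq) B
      (by rw [Subgroup.normalizer_eq_top]; exact le_top) hcop
      (Or.inr (by haveI := hBp.isNilpotent; infer_instance)) (hqi _)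
    rw [Subgroup.commutator_eq_bot_iff_le_centralizer, Subgroup.le_centralizer_iff, Subgroup.zpowers_le] at h1
    exact h1
  have hgpP : IsPGroup p (Subgroup.zpowers gp) := by
    have hd : orderOf gp ∣ n1 := by
      refine orderOf_dvd_of_pow_eq_one ?_
      have e : n1 * n2 = orderOf g' := Nat.ordProj_mul_ordCompl_eq_self _ _
      rw [hgp, ← zpow_natCast, ← zpow_mul, show v * (n2 : ℤ) * (n1 : ℤ) = ((n1 * n2 : ℕ) : ℤ) * v by
        push_cast; ring, e, zpow_mul, zpow_natCast, pow_orderOf_eq_one, one_zpow]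
    obtain ⟨j, -, hj⟩ := (Nat.dvd_prime_pow hp.out).1 hd
    exact IsPGroup.of_card (by rw [Nat.card_zpowers, hj])
  obtain ⟨S, hS⟩ := hgpP.exists_le_sylow
  have hKS : K ⊔ (S : Subgroup N) = ⊤ := by
    have hquot : IsPGroup p (N ⧸ K) := fun y => by
      obtain ⟨x, rfl⟩ := QuotientGroup.mk'_surjective K y
      obtain ⟨i, hi⟩ := hi x
      exact ⟨i, by rw [← map_pow]; exact (QuotientGroup.eq_one_iff _).2 hi⟩
    obtain ⟨k, hk⟩ := IsPGroup.iff_card.1 hquot
    have hk' : K.index = p ^ k := by rw [Subgroup.index_eq_card]; exact hk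
    exact Transfer.sup_sylow_eq_top_of_index_eq_pow K S hk'
  have hst := stableFor_of_abelian hp2 R K hRp hm hmK hc (S : Subgroup N) S.isPGroup' hKS B hBp gp
    (hS (Subgroup.mem_zpowers gp)) (hqi _)
  have hfin : (QuotientGroup.mk g' : N ⧸ Subgroup.centralizer (B : Set N)) ∈
      pCore p (N ⧸ Subgroup.centralizer (B : Set N)) := by
    have e : g' = gq * gp := by rw [hgq, hgp, ← zpow_add, huv, zpow_one]
    rw [e, QuotientGroup.mk_mul, (QuotientGroup.eq_one_iff gq).2 hgqC, one_mul]
    exact hst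
  have hCeq : Subgroup.centralizer (B : Set N) = (Subgroup.centralizer (P : Set X)).subgroupOf N := by
    ext y
    rw [Subgroup.mem_subgroupOf, Subgroup.mem_centralizer_iff, Subgroup.mem_centralizer_iff]
    exact ⟨fun h t ht => congrArg Subtype.val (h ⟨t, Subgroup.le_normalizer ht⟩ ht),
      fun h t ht => Subtype.ext (h t ht)⟩
  exact mem_pCore_congr hCeq _ _ hfin rfl

end

theorem ControlledFusion.subgroup {W : ∀ {G : Type u} [Group G], Subgroup G → Subgroup G} {G : Type u} [Group G]
    (h : ControlledFusion p (fun {X} [Group X] Q => W Q) G) (H : Subgroup G) :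
    ControlledFusion p (fun {X} [Group X] Q => W Q) H :=
  fun L _ _ hL => h L (Fusion.involves_of_injective H.subtype H.subtype_injective hL)

theorem ControlledFusion.quotient {W : ∀ {G : Type u} [Group G], Subgroup G → Subgroup G} {G : Type u} [Group G]
    (h : ControlledFusion p (fun {X} [Group X] Q => W Q) G) (O : Subgroup G) [O.Normal] :
    ControlledFusion p (fun {X} [Group X] Q => W Q) (G ⧸ O) :=
  fun L _ _ hL => h L (Fusion.involves_of_surjective (QuotientGroup.mk' O) (QuotientGroup.mk'_surjective O) hL)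

theorem ControlledFusion.fusion {W : ∀ {G : Type u} [Group G], Subgroup G → Subgroup G} {G : Type u} [Group G]
    [Finite G] (h : ControlledFusion p (fun {X} [Group X] Q => W Q) G) (hp2 : p ≠ 2) (hG : HasStableShape p G)
    (P : Sylow p G) (a : G) (ha : a ∈ (P : Subgroup G)) (g : G) (hg : g * a * g⁻¹ ∈ (P : Subgroup G)) :
    ∃ x ∈ Subgroup.normalizer (W (P : Subgroup G) : Set G), x * a * x⁻¹ = g * a * g⁻¹ := by
  refine h G ?_ (fun M _ _ hM => (hG.of_involves hM).isNormalizerPStable hp2) P a ha g hg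
  have hn : ((⊥ : Subgroup G).subgroupOf ⊤).Normal := by rw [Subgroup.bot_subgroupOf]; infer_instance
  exact ⟨⊤, ⊥, hn, ⟨((QuotientGroup.quotientMulEquivOfEq (Subgroup.bot_subgroupOf ⊤)).trans
    QuotientGroup.quotientBot).trans Subgroup.topEquiv⟩⟩

/-- The criterion with the last step left open. -/
theorem functor_complement_core {W : ∀ {G : Type u} [Group G], Subgroup G → Subgroup G} (hW : IsPFunctor p W)
    (C : ∀ (X : Type u) [Group X], Prop) (hsubC : ∀ (X : Type u) [Group X] (H : Subgroup X), C X → C H)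
    (hquotC : ∀ (X : Type u) [Group X] (O : Subgroup X) [O.Normal], C X → C (X ⧸ O))
    (hfin : ∀ (X : Type u) [Group X] [Finite X], C X →
      Subgroup.centralizer (pCore p X : Set X) ≤ pCore p X → ∀ (P : Sylow p X) (K : Subgroup X) (m : ℕ),
      K.Normal → pCore p X ≤ K → ⁅K, K⁆ ≤ pCore p X → m.Coprime p → (∀ k ∈ K, k ^ m ∈ pCore p X) →
      K ⊔ (P : Subgroup X) = ⊤ →
      (∀ N : Subgroup X, N.Normal → pCore p X ≤ N → N ≤ K → N = pCore p X ∨ N = K) →
      HasNormalPComplement p ↥(Subgroup.normalizer (W (P : Subgroup X) : Set X)) → HasNormalPComplement p X) :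
    ∀ (n : ℕ) (G : Type u) [Group G] [Finite G], Nat.card G ≤ n → C G →
    (∃ P : Sylow p G, HasNormalPComplement p ↥(Subgroup.normalizer (W (P : Subgroup G) : Set G))) →
    HasNormalPComplement p G := by
  intro n
  induction n with
  | zero => intro G _ _ hn _ _; exact absurd hn (Nat.card_pos (α := G)).not_ge
  | succ n ih =>
  intro G _ _ hn hctl ⟨P₀, hN₀⟩
  by_contra hG
  -- all Sylow subgroups
  have hall : ∀ P : Sylow p G, HasNormalPComplement p ↥(Subgroup.normalizer (W (P : Subgroup G) : Set G)) := by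
    intro P
    obtain ⟨g, rfl⟩ := MulAction.exists_smul_eq G P₀ P
    have e : ((g • P₀ : Sylow p G) : Subgroup G) = (P₀ : Subgroup G).map (MulAut.conj g).toMonoidHom := rfl
    rw [e, hW.map (MulAut.conj g).toMonoidHom _ P₀.isPGroup' (Function.Injective.injOn (MulAut.conj g).injective), ← Subgroup.map_equiv_normalizer_eq]
    exact Transfer.hasNormalPComplement_of_surjective
      ((MulAut.conj g).subgroupMap _).toMonoidHom ((MulAut.conj g).subgroupMap _).surjective hN₀
  -- proper subgroups
  have hprop : ∀ (H : Subgroup G), H ≠ ⊤ → ∀ R : Sylow p H,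
      HasNormalPComplement p ↥(H ⊓ Subgroup.normalizer (W ((R : Subgroup H).map H.subtype) : Set G)) →
      HasNormalPComplement p H := by
    intro H hH R hR
    have hlt : Nat.card H < Nat.card G := by
      rw [← Subgroup.card_top (G := G)]
      exact lt_of_le_of_ne (Subgroup.card_le_of_le le_top) fun e => hH (Subgroup.eq_of_le_of_card_ge le_top e.ge)
    refine ih H (by omega) (hsubC G H hctl) ⟨R, ?_⟩
    have hz : W ((R : Subgroup H).map H.subtype) = (W (R : Subgroup H)).map H.subtype :=
      hW.map H.subtype _ R.isPGroup' H.subtype_injective.injOn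
    have hle : (Subgroup.normalizer (W (R : Subgroup H) : Set H)).map H.subtype ≤
        H ⊓ Subgroup.normalizer (W ((R : Subgroup H).map H.subtype) : Set G) := by
      rw [hz]
      exact le_inf (Subgroup.map_subtype_le _) (Subgroup.le_normalizer_map _)
    let e := ((Subgroup.normalizer (W (R : Subgroup H) : Set H)).equivMapOfInjective H.subtype
      H.subtype_injective).symm
    exact Transfer.hasNormalPComplement_of_surjective e.toMonoidHom e.surjective (npc_of_le hle hR)
  have hsub : ∀ (H : Subgroup G), H ≠ ⊤ → ∀ P : Sylow p G, (P : Subgroup G) ≤ H → HasNormalPComplement p H := by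
    intro H hH P hP
    refine hprop H hH (P.subtype hP) ?_
    have e : ((P.subtype hP : Sylow p H) : Subgroup H).map H.subtype = (P : Subgroup G) := by
      rw [Sylow.coe_subtype, Subgroup.map_subgroupOf_eq_of_le hP]
    rw [e]
    exact npc_of_le inf_le_right (hall P)
  -- trivial `p'`-core
  haveI hK0 := Transfer.pPrimeCore_normal (G := G) p
  have hlift : ∀ (O : Subgroup G) [O.Normal], (Nat.card O).Coprime p → HasNormalPComplement p (G ⧸ O) →
      HasNormalPComplement p G := by
    intro O _ hO h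
    rw [Transfer.hasNormalPComplement_iff_pResidual] at h
    haveI := Transfer.pResidual_normal (G := G ⧸ O) p
    obtain ⟨k, hk⟩ := Transfer.exists_index_pResidual_eq_pow (G := G ⧸ O) (p := p)
    set N := (pResidual p (G ⧸ O)).comap (QuotientGroup.mk' O)
    haveI : N.Normal := Subgroup.Normal.comap inferInstance _
    refine Transfer.hasNormalPComplement_of N ?_ (k := k) ?_
    · have h1 := (O.subgroupOf N).card_mul_index
      have hON : O ≤ N := fun x hx => by
        show QuotientGroup.mk' O x ∈ pResidual p (G ⧸ O)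
        rw [show QuotientGroup.mk' O x = 1 from (QuotientGroup.eq_one_iff x).2 hx]
        exact one_mem _
      rw [Nat.card_congr (Subgroup.subgroupOfEquivOfLe hON).toEquiv, ← Subgroup.relIndex] at h1
      have hk := Subgroup.relIndex_ker (QuotientGroup.mk' O) (K := N)
      rw [QuotientGroup.ker_mk', Subgroup.map_comap_eq_self_of_surjective (QuotientGroup.mk'_surjective O)] at hk
      rw [← h1, hk]
      exact hO.mul_left h
    · rw [Subgroup.index_comap_of_surjective _ (QuotientGroup.mk'_surjective O), hk]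
  have hO' : pPrimeCore p G = ⊥ := by
    by_contra hne
    set O := pPrimeCore p G
    set q := QuotientGroup.mk' O
    have hd : O ⊓ (P₀ : Subgroup G) = ⊥ := by
      obtain ⟨m, hm⟩ := IsPGroup.iff_card.1 P₀.isPGroup'
      exact Subgroup.inf_eq_bot_of_coprime (by rw [hm]; exact (Transfer.coprime_card_pPrimeCore p).pow_right m)
    have hinj : Set.InjOn q (P₀ : Subgroup G) := fun x hx y hy h => injOn_mk O _ hd hx hy h
    have hlt : Nat.card (G ⧸ O) < Nat.card G := by
      rw [← O.card_mul_index, Subgroup.index]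
      exact lt_mul_of_one_lt_left Nat.card_pos (Subgroup.one_lt_card_iff_ne_bot O |>.2 hne)
    refine hG (hlift O (Transfer.coprime_card_pPrimeCore p) (ih _ (by omega) (hquotC G O hctl)
      ⟨P₀.mapSurjective (QuotientGroup.mk'_surjective O), ?_⟩))
    show HasNormalPComplement p ↥(Subgroup.normalizer (W ((P₀ : Subgroup G).map q) : Set (G ⧸ O)))
    rw [hW.map q _ P₀.isPGroup' hinj]
    have e := map_normalizer_mk (p := p) (P := W (P₀ : Subgroup G)) (P₀.isPGroup'.to_le (hW.le _))
    rw [← e]
    exact Transfer.hasNormalPComplement_of_surjective (q.subgroupMap _) (q.subgroupMap_surjective _) hN₀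
  -- nontrivial `p`-core
  haveI hO0 := Transfer.pCore_normal (G := G) p
  have hO1 : pCore p G ≠ ⊥ := by
    intro hO
    have hproper : ∀ X : Subgroup G, IsPGroup p X → X ≠ ⊥ → Subgroup.normalizer (X : Set G) ≠ ⊤ := by
      intro X hX hX1 h
      exact hX1 (le_bot_iff.1 (hO ▸ Transfer.le_pCore (Subgroup.normalizer_eq_top_iff.1 h) hX))
    obtain ⟨Q, ⟨hQp, hQ1, hQN⟩, hmax⟩ := (Set.toFinite {Q : Subgroup G | IsPGroup p Q ∧ Q ≠ ⊥ ∧
        ¬ HasNormalPComplement p ↥(Subgroup.normalizer (Q : Set G))}).exists_maximalFor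
      (fun Q : Subgroup G => (Nat.card (Subgroup.normalizer (Q : Set G))).factorization p) _ (exists_bad P₀ hG)
    set N := Subgroup.normalizer (Q : Set G) with hNdef
    obtain ⟨R⟩ : Nonempty (Sylow p N) := inferInstance
    set R' := (R : Subgroup N).map N.subtype
    have hR'p : IsPGroup p R' := R.isPGroup'.map _
    obtain ⟨P1, hP1⟩ := hR'p.exists_le_sylow
    rcases eq_or_lt_of_le hP1 with he | hlt
    · exact hQN (hsub N (hproper Q hQp hQ1) P1 (he ▸ Subgroup.map_subtype_le _))
    have hQR : Q ≤ R' := by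
      haveI : (Q.subgroupOf N).Normal := Subgroup.normal_in_normalizer
      have := (hQp.of_equiv (Subgroup.subgroupOfEquivOfLe Subgroup.le_normalizer).symm).le_sylow_of_normal R
      intro x hx
      exact ⟨⟨x, Subgroup.le_normalizer hx⟩, this hx, rfl⟩
    have hR1 : R' ≠ ⊥ := fun h => hQ1 (le_bot_iff.1 (h ▸ hQR))
    set X := W R'
    have hXbad : ¬ HasNormalPComplement p ↥(Subgroup.normalizer (X : Set G)) := fun h =>
      hQN (hprop N (hproper Q hQp hQ1) R (npc_of_le inf_le_right h))
    have hbig : (Nat.card N).factorization p < (Nat.card (Subgroup.normalizer (X : Set G))).factorization p := by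
      set U := (P1 : Subgroup G) ⊓ Subgroup.normalizer (R' : Set G)
      have hU : R' < U := Transfer.lt_inf_normalizer hlt
      have hUX : U ≤ Subgroup.normalizer (X : Set G) := inf_le_right.trans (hW.normalizer_le R' hR'p)
      obtain ⟨j, hj⟩ := IsPGroup.iff_card.1 (P1.isPGroup'.to_le (inf_le_left : U ≤ P1))
      have h1 : Nat.card R' < p ^ j := hj ▸ lt_of_le_of_ne (Subgroup.card_le_of_le hU.le) fun e =>
        hU.ne (Subgroup.eq_of_le_of_card_ge hU.le e.ge)
      rw [Subgroup.card_map_of_injective N.subtype_injective, R.card_eq_multiplicity] at h1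
      have h2 : j ≤ (Nat.card (Subgroup.normalizer (X : Set G))).factorization p :=
        (hp.out.pow_dvd_iff_le_factorization Nat.card_pos.ne').1 (hj ▸ Subgroup.card_dvd_of_le hUX)
      exact lt_of_lt_of_le ((Nat.pow_lt_pow_iff_right hp.out.one_lt).1 h1) h2
    exact hbig.not_ge (hmax ⟨hR'p.to_le (hW.le _), hW.ne_bot _ hR'p hR1, hXbad⟩ hbig.le)
  -- the quotient by the `p`-core
  set O := pCore p G with hOdef
  have hOp : IsPGroup p O := Transfer.pCore_isPGroup p
  set q := QuotientGroup.mk' O with hq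
  have hsurj : Function.Surjective q := QuotientGroup.mk'_surjective O
  have hcardQ : Nat.card (G ⧸ O) < Nat.card G := by
    rw [← O.card_mul_index, Subgroup.index]
    exact lt_mul_of_one_lt_left Nat.card_pos (Subgroup.one_lt_card_iff_ne_bot O |>.2 hO1)
  have hcoreQ : pCore p (G ⧸ O) = ⊥ := Solv.pCore_quotient_eq_bot p
  have hOP : O ≤ (P₀ : Subgroup G) := Transfer.pCore_le_sylow P₀
  have hP0 : (P₀ : Subgroup G) ≠ O := by
    intro e
    refine hG (hasNormalPComplement_congr_top ?_ hN₀)
    rw [eq_top_iff]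
    refine le_trans ?_ (hW.normalizer_le _ P₀.isPGroup')
    rw [e, Subgroup.normalizer_eq_top]
  have hQnpc : HasNormalPComplement p (G ⧸ O) := by
    set P' := P₀.mapSurjective hsurj
    refine ih _ (by omega) (hquotC G O hctl) ⟨P', ?_⟩
    set Z' := W (P' : Subgroup (G ⧸ O))
    have hP'1 : (P' : Subgroup (G ⧸ O)) ≠ ⊥ := by
      intro h
      refine hP0 (le_antisymm ?_ hOP)
      rw [← QuotientGroup.ker_mk' O, ← Subgroup.map_eq_bot_iff]
      exact h
    set H1 := Z'.comap q
    have hH1p : IsPGroup p H1 := by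
      refine (P'.isPGroup'.to_le (hW.le _)).comap_of_ker_isPGroup q ?_
      rw [hq, QuotientGroup.ker_mk']; exact hOp
    have hne : Subgroup.normalizer (H1 : Set G) ≠ ⊤ := by
      intro h
      refine hW.ne_bot _ P'.isPGroup' hP'1 (le_bot_iff.1 ?_)
      have hle := Subgroup.map_mono (f := q) (Transfer.le_pCore (Subgroup.normalizer_eq_top_iff.1 h) hH1p)
      rw [Subgroup.map_comap_eq_self_of_surjective hsurj, ← hOdef, hq, QuotientGroup.map_mk'_self] at hle
      exact hle
    have hNH : Subgroup.normalizer (H1 : Set G) = (Subgroup.normalizer (Z' : Set (G ⧸ O))).comap q :=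
      (Subgroup.comap_normalizer_eq_of_surjective _ hsurj).symm
    have hP : (P₀ : Subgroup G) ≤ Subgroup.normalizer (H1 : Set G) := by
      rw [hNH, ← Subgroup.map_le_iff_le_comap]
      exact le_trans Subgroup.le_normalizer (hW.normalizer_le _ P'.isPGroup')
    have h1 := hsub _ hne P₀ hP
    rw [hNH] at h1
    have h2 := Transfer.hasNormalPComplement_of_surjective (q.subgroupMap _) (q.subgroupMap_surjective _) h1
    rwa [Subgroup.map_comap_eq_self_of_surjective hsurj] at h2
  rw [Transfer.hasNormalPComplement_iff_pResidual] at hQnpc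
  set Kb := pResidual p (G ⧸ O) with hKb
  haveI : Kb.Normal := Transfer.pResidual_normal p
  obtain ⟨k, hk⟩ := Transfer.exists_index_pResidual_eq_pow (G := G ⧸ O) (p := p)
  set K := Kb.comap q
  haveI : K.Normal := Subgroup.Normal.comap inferInstance _
  have hOK : O ≤ K := fun x hx => by
    show q x ∈ Kb
    rw [show q x = 1 from (QuotientGroup.eq_one_iff x).2 hx]; exact one_mem _
  have hKO : ∀ X : Subgroup G, X ≤ K → IsPGroup p X → X ≤ O := by
    intro X hX hXp
    rw [← QuotientGroup.ker_mk' O, ← Subgroup.map_eq_bot_iff]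
    have h1 : X.map q ≤ Kb := Subgroup.map_le_iff_le_comap.2 hX
    obtain ⟨j, hj⟩ := IsPGroup.iff_card.1 (hXp.map q)
    rw [← inf_eq_left.2 h1]
    exact Subgroup.inf_eq_bot_of_coprime (by rw [hj]; exact (hQnpc.pow_right j).symm)
  -- self-centralizing
  set C := Subgroup.centralizer (O : Set G) with hC
  have hCK : C ⊓ K ≤ O := by
    set D := C ⊓ K
    haveI : D.Normal := inferInstance
    set A : Subgroup D := (O ⊓ C).subgroupOf D
    have hAc : A ≤ Subgroup.center D := fun x hx => Subgroup.mem_center_iff.2 fun y => Subtype.ext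
      (Subgroup.mem_centralizer_iff.1 y.2.1 _ hx.1).symm
    have hAp : IsPGroup p A := (hOp.to_le inf_le_left).of_equiv
      (Subgroup.subgroupOfEquivOfLe (le_inf inf_le_right (inf_le_left.trans hOK))).symm
    obtain ⟨S, hS⟩ := hAp.exists_le_sylow
    have hSA : (S : Subgroup D) = A := by
      refine le_antisymm (fun x hx => ?_) hS
      refine ⟨hKO ((S : Subgroup D).map D.subtype) ((Subgroup.map_subtype_le _).trans inf_le_right)
        (S.isPGroup'.map _) ⟨x, hx, rfl⟩, x.2.1⟩
    have hnpc : HasNormalPComplement p D := Transfer.hasNormalPComplement_of_normalizer_le_centralizer S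
      fun x _ => Subgroup.mem_centralizer_iff.2 fun y hy => (Subgroup.mem_center_iff.1 (hAc (hSA.le hy)) x).symm
    rw [Transfer.hasNormalPComplement_iff_pResidual] at hnpc
    haveI : (pResidual p D).Characteristic := Transfer.pResidual_characteristic p
    set M := (pResidual p D).map D.subtype
    have hM : M = ⊥ := le_bot_iff.1 (hO' ▸ Transfer.le_pPrimeCore (inferInstance : M.Normal)
      (by rw [Subgroup.card_map_of_injective D.subtype_injective]; exact hnpc))
    have hDp : IsPGroup p D := by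
      obtain ⟨j, hj⟩ := Transfer.exists_index_pResidual_eq_pow (G := D) (p := p)
      rw [(Subgroup.map_eq_bot_iff_of_injective _ D.subtype_injective).1 hM, Subgroup.index_bot] at hj
      exact IsPGroup.of_card hj
    exact hKO D inf_le_right hDp
  have hCO : C ≤ O := by
    have hCq : IsPGroup p (C.map q) := by
      refine IsPGroup.of_card_dvd_pow (n := k) ?_
      rw [← hk, ← Subgroup.relIndex_top_right]
      have : Nat.card (C.map q) = Kb.relIndex (C.map q) := by
        rw [← Subgroup.inf_relIndex_right, show Kb ⊓ C.map q = ⊥ from ?_, Subgroup.relIndex_bot_left]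
        rw [eq_bot_iff]
        rintro _ ⟨hx, c, hc, rfl⟩
        exact (QuotientGroup.eq_one_iff c).2 (hCK ⟨hc, hx⟩)
      rw [this]
      exact Subgroup.relIndex_dvd_index_of_normal Kb (C.map q) |>.trans (by rw [Subgroup.relIndex_top_right])
    have := Transfer.le_pCore (Subgroup.Normal.map inferInstance q hsurj) hCq
    rwa [hcoreQ, le_bot_iff, Subgroup.map_eq_bot_iff, hq, QuotientGroup.ker_mk'] at this
  -- invariant subgroups of `Kb`
  set P' := P₀.mapSurjective hsurj
  have hP'coe : (P' : Subgroup (G ⧸ O)) = (P₀ : Subgroup G).map q := rfl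
  have hinv : ∀ L : Subgroup (G ⧸ O), L ≤ Kb → (P' : Subgroup (G ⧸ O)) ≤ Subgroup.normalizer (L : Set (G ⧸ O)) →
      L = ⊥ ∨ L = Kb := by
    intro L hL hLn
    by_cases htop : L.comap q ⊔ (P₀ : Subgroup G) = ⊤
    · right
      refine le_antisymm hL fun x hx => ?_
      have h1 : x ∈ L ⊔ (P' : Subgroup (G ⧸ O)) := by
        obtain ⟨g, rfl⟩ := hsurj x
        have := Subgroup.mem_map_of_mem q (htop ▸ Subgroup.mem_top g : g ∈ L.comap q ⊔ (P₀ : Subgroup G))
        rwa [Subgroup.map_sup, Subgroup.map_comap_eq_self_of_surjective hsurj] at this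
      rw [sup_comm, ← SetLike.mem_coe, Subgroup.coe_mul_of_left_le_normalizer_right _ _ hLn] at h1
      obtain ⟨u, hu, l, hl, rfl⟩ := h1
      have huK : u ∈ Kb := by
        have := mul_mem hx (inv_mem (hL hl))
        rwa [mul_inv_cancel_right] at this
      have hu1 : u = 1 := by
        obtain ⟨j, hj⟩ := IsPGroup.iff_card.1 P'.isPGroup'
        have : (P' : Subgroup (G ⧸ O)) ⊓ Kb = ⊥ :=
          Subgroup.inf_eq_bot_of_coprime (by rw [hj]; exact (hQnpc.pow_right j).symm)
        exact Subgroup.mem_bot.1 (this ▸ (⟨hu, huK⟩ : u ∈ (P' : Subgroup (G ⧸ O)) ⊓ Kb))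
      show u * l ∈ L
      rw [hu1, one_mul]; exact hl
    left
    set H := L.comap q ⊔ (P₀ : Subgroup G)
    have hH := hsub H htop P₀ le_sup_right
    rw [Transfer.hasNormalPComplement_iff_pResidual] at hH
    haveI := Transfer.pResidual_normal (G := H) p
    have hOH : O ≤ H := hOP.trans le_sup_right
    have hMd : pResidual p H ⊓ O.subgroupOf H = ⊥ := by
      obtain ⟨j, hj⟩ := IsPGroup.iff_card.1 (hOp.of_equiv (Subgroup.subgroupOfEquivOfLe hOH).symm)
      exact Subgroup.inf_eq_bot_of_coprime (by rw [hj]; exact hH.pow_right j)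
    have hM : pResidual p H = ⊥ := by
      rw [eq_bot_iff, ← hMd]
      refine le_inf le_rfl fun x hx => hCO (Subgroup.mem_centralizer_iff.2 fun y hy => ?_)
      exact congrArg Subtype.val (Subgroup.mem_centralizer_iff.1 (commute_of_normal_disjoint _ _ hMd hx) ⟨y, hOH hy⟩ hy)
    have hHp : IsPGroup p H := by
      obtain ⟨j, hj⟩ := Transfer.exists_index_pResidual_eq_pow (G := H) (p := p)
      rw [hM, Subgroup.index_bot] at hj
      exact IsPGroup.of_card hj
    obtain ⟨j, hj⟩ := IsPGroup.iff_card.1 ((hHp.to_le (le_sup_left : L.comap q ≤ H)).map q)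
    rw [Subgroup.map_comap_eq_self_of_surjective hsurj] at hj
    rw [← inf_idem L]
    exact Subgroup.inf_eq_bot_of_coprime (by
      rw [hj]
      exact ((Nat.Coprime.coprime_dvd_left (Subgroup.card_dvd_of_le hL) hQnpc).pow_right j |> fun h => by
        rw [hj] at h; exact h))
  have hKb1 : Kb ≠ ⊥ := by
    intro h
    rw [hKb] at h
    have hidx := hk
    rw [h, Subgroup.index_bot] at hidx
    have : (⊤ : Subgroup (G ⧸ O)) ≤ pCore p (G ⧸ O) := Transfer.le_pCore inferInstance
      ((IsPGroup.of_card hidx).to_subgroup _)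
    rw [hcoreQ, le_bot_iff] at this
    refine hP0 (le_antisymm ?_ hOP)
    rw [← QuotientGroup.ker_mk' O, ← Subgroup.map_eq_bot_iff]
    exact le_bot_iff.1 (this ▸ le_top)
  -- an invariant Sylow subgroup
  obtain ⟨r, hr, hrd⟩ := Nat.exists_prime_and_dvd (n := Nat.card Kb) (Subgroup.one_lt_card_iff_ne_bot Kb |>.2 hKb1).ne'
  haveI : Fact r.Prime := ⟨hr⟩
  obtain ⟨T⟩ : Nonempty (Sylow r Kb) := inferInstance
  set T' := (T : Subgroup Kb).map Kb.subtype
  have hfr : Subgroup.normalizer (T' : Set (G ⧸ O)) ⊔ Kb = ⊤ := T.normalizer_sup_eq_top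
  set NT := Subgroup.normalizer (T' : Set (G ⧸ O))
  have hidx : ¬ p ∣ NT.index := by
    intro hd
    have h0 := card_sup_mul_card_inf_normal NT Kb
    rw [hfr, Subgroup.card_top, ← NT.card_mul_index, mul_assoc] at h0
    have h1 : NT.index ∣ Nat.card Kb :=
      ⟨_, (Nat.eq_of_mul_eq_mul_left Nat.card_pos h0).symm⟩
    exact hp.out.coprime_iff_not_dvd.1 hQnpc.symm (hd.trans h1)
  obtain ⟨P1, hP1⟩ : ∃ P1 : Sylow p (G ⧸ O), (P1 : Subgroup (G ⧸ O)) ≤ NT := by
    obtain ⟨S⟩ : Nonempty (Sylow p NT) := inferInstance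
    refine ⟨(S.isPGroup'.map NT.subtype).toSylow ?_, Subgroup.map_subtype_le _⟩
    rw [Subgroup.index_map_subtype]
    exact hp.out.not_dvd_mul S.not_dvd_index hidx
  obtain ⟨g, hg⟩ := MulAction.exists_smul_eq (G ⧸ O) P1 P'
  set T1 := T'.map (MulAut.conj g).toMonoidHom
  have hT1 : T1 ≤ Kb := by
    rintro _ ⟨x, hx, rfl⟩
    exact (inferInstance : Kb.Normal).conj_mem x (Subgroup.map_subtype_le _ hx) g
  have hT1n : (P' : Subgroup (G ⧸ O)) ≤ Subgroup.normalizer (T1 : Set (G ⧸ O)) := by
    rw [← hg]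
    rintro _ ⟨x, hx, rfl⟩
    exact map_conj_le_normalizer g (hP1 hx)
  have hT1p : IsPGroup r T1 := (T.isPGroup'.map _).map _
  have hKr : IsPGroup r Kb := by
    rcases hinv T1 hT1 hT1n with h | h
    · exfalso
      have hT0 : (T : Subgroup Kb) ≠ ⊥ := T.ne_bot_of_dvd_card hrd
      rw [Subgroup.map_eq_bot_iff_of_injective _ (MulAut.conj g).injective,
        Subgroup.map_eq_bot_iff_of_injective _ Kb.subtype_injective] at h
      exact hT0 h
    · exact h ▸ hT1p
  have hKab : ⁅Kb, Kb⁆ = ⊥ := by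
    have hlt := commutator_lt_self hKr hKb1
    refine (hinv _ hlt.le ?_).resolve_right hlt.ne
    exact fun x _ => by rw [Subgroup.normalizer_eq_top]; exact Subgroup.mem_top x
  have hKS : K ⊔ (P₀ : Subgroup G) = ⊤ := by
    have h := Transfer.pResidual_sup_sylow P'
    rw [← hKb, hP'coe] at h
    have h2 := congrArg (Subgroup.comap q) h
    rw [Subgroup.comap_top, ← Subgroup.map_comap_eq_self_of_surjective hsurj Kb, ← Subgroup.map_sup,
      Subgroup.comap_map_eq_self (by rw [hq, QuotientGroup.ker_mk']; exact le_sup_of_le_right hOP)] at h2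
    exact h2
  refine hG (hfin G hctl hCO P₀ K (Nat.card Kb) inferInstance hOK ?_ hQnpc ?_ hKS ?_ hN₀)
  · show ⁅K, K⁆ ≤ O
    rw [← QuotientGroup.ker_mk' O, ← Subgroup.map_eq_bot_iff, Subgroup.map_commutator,
      Subgroup.map_comap_eq_self_of_surjective hsurj]
    exact hKab
  · intro x hx
    show x ^ Nat.card Kb ∈ O
    rw [← QuotientGroup.eq_one_iff]
    show q (x ^ Nat.card Kb) = 1
    rw [map_pow]
    exact congrArg Subtype.val (pow_card_eq_one' (x := (⟨q x, hx⟩ : Kb)))
  · intro N hN hON hNK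
    haveI : (N.map q).Normal := hN.map q hsurj
    have e : N = (N.map q).comap q := (Subgroup.comap_map_eq_self (by rw [hq, QuotientGroup.ker_mk']; exact hON)).symm
    rcases hinv (N.map q) (Subgroup.map_le_iff_le_comap.2 hNK)
      (fun x _ => by rw [Subgroup.normalizer_eq_top]; exact Subgroup.mem_top x) with h | h
    · left
      rw [e, h, MonoidHom.comap_bot, hq, QuotientGroup.ker_mk']
    · right
      rw [e, h]

theorem functor_complement_aux (hp2 : p ≠ 2) {W : ∀ {G : Type u} [Group G], Subgroup G → Subgroup G}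
    (hW : IsPFunctor p W) : ∀ (n : ℕ) (G : Type u) [Group G] [Finite G],
    Nat.card G ≤ n → ControlledFusion p (fun {X} [Group X] Q => W Q) G →
    (∃ P : Sylow p G, HasNormalPComplement p ↥(Subgroup.normalizer (W (P : Subgroup G) : Set G))) →
    HasNormalPComplement p G := by
  refine functor_complement_core hW (fun X _ => ControlledFusion p (fun {Y} [Group Y] Q => W Q) X)
    (fun X _ H h => h.subgroup H) (fun X _ O _ h => h.quotient O) ?_
  intro X _ _ hctl _ P₀ K m hK hOK hKc hm hKm hKS _ hN₀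
  haveI := hK
  have hstable : HasStableShape p X := by
    haveI := Transfer.pCore_normal (G := X) p
    refine ⟨pCore p X, K, inferInstance, hK, Transfer.pCore_isPGroup p, ⟨m, hm, hKm⟩, hKc, fun x => ?_⟩
    have hx : x ∈ K ⊔ (P₀ : Subgroup X) := hKS ▸ Subgroup.mem_top x
    rw [← SetLike.mem_coe, Subgroup.normal_mul] at hx
    obtain ⟨k, hk, s, hs, rfl⟩ := hx
    obtain ⟨i, hi⟩ := P₀.isPGroup' ⟨s, hs⟩
    refine ⟨i, (QuotientGroup.eq_one_iff _).1 ?_⟩
    show QuotientGroup.mk' K ((k * s) ^ p ^ i) = 1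
    rw [map_pow, map_mul, show QuotientGroup.mk' K k = 1 from (QuotientGroup.eq_one_iff k).2 hk, one_mul, ← map_pow,
      show s ^ p ^ i = 1 from congrArg Subtype.val hi, map_one]
  -- control of fusion
  set NW := Subgroup.normalizer (W (P₀ : Subgroup X) : Set X) with hNWdef
  have hPN : (P₀ : Subgroup X) ≤ NW := Subgroup.le_normalizer.trans (hW.normalizer_le _ P₀.isPGroup')
  have hown := (Transfer.controlsOwnFusion_iff (P₀.subtype hPN)).2 hN₀
  refine Transfer.hasNormalPComplement_of_controls (P := P₀) ?_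
  intro a ha b hb hab
  obtain ⟨g, hg⟩ := hab
  obtain ⟨x, hx, hxa⟩ := hctl.fusion hp2 hstable P₀ a ha g (by rw [hg]; exact hb)
  obtain ⟨z, hz, hz'⟩ := hown (⟨a, hPN ha⟩ : NW) ha ⟨b, hPN hb⟩ hb
    ⟨⟨x, hx⟩, Subtype.ext (hxa.trans hg)⟩
  exact ⟨z, hz, congrArg Subtype.val hz'⟩

end Cfsg.Lib.PLocal
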