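import Mathlib
import Cfsg.Prelude.Def_PLocal
import Cfsg.Prelude.Def_LocalEven
import Cfsg.Agent.Lib.Transfer.Basic
import Cfsg.Agent.Lib.PLocal.Displacement
import Cfsg.Agent.Lib.PLocal.WeakClosureEngel

/-!
In a group with an abelian `p'`-group between the `p`-core and the group, no element of a Sylow subgroup acts
nontrivially with degree below `p` on a chief factor inside the `p`-core.
-/

set_option autoImplicit false
set_option linter.unusedSectionVars false
set_option linter.style.haveILetI false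

open scoped commutatorElement Classical

namespace Cfsg.Lib.PLocal.FunctorEngel

open Cfsg

universe u

variable {p : ℕ} [Fact p.Prime]

/-- An element of small degree centralizes an abelian `p'`-group of automorphisms. -/
theorem commute_of_small_degree {M : Type u} [CommGroup M] [Finite M] (hM : ∀ m : M, m ^ p = 1)
    (A : Subgroup (MulAut M)) (hA : ∀ a ∈ A, ∀ b ∈ A, a * b = b * a) {m : ℕ} (hm : m.Coprime p)
    (hAm : ∀ a ∈ A, a ^ m = 1) (γ : MulAut M) {k : ℕ} (hγ : γ ^ p ^ k = 1)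
    (hγA : ∀ a ∈ A, γ * a * γ⁻¹ ∈ A) (hdeg : ∀ v : M, (fun w => γ w * w⁻¹)^[p - 1] v = 1) :
    ∀ a ∈ A, γ * a = a * γ := by
  let toEnd : MulAut M →* AddMonoid.End (Additive M) :=
    { toFun := fun a => MonoidHom.toAdditive a.toMonoidHom
      map_one' := rfl
      map_mul' := fun _ _ => rfl }
  have hY : ∀ y : Additive M, p • y = 0 := fun y => hM y.toMul
  -- the image of `a ↦ [a, γ]`
  let L : Subgroup (MulAut M) :=
    { carrier := {l | ∃ a ∈ A, l = a⁻¹ * (γ * a * γ⁻¹)}
      one_mem' := ⟨1, A.one_mem, by group⟩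
      mul_mem' := by
        rintro _ _ ⟨a, ha, rfl⟩ ⟨b, hb, rfl⟩
        refine ⟨a * b, A.mul_mem ha hb, ?_⟩
        calc a⁻¹ * (γ * a * γ⁻¹) * (b⁻¹ * (γ * b * γ⁻¹))
            = a⁻¹ * ((γ * a * γ⁻¹) * b⁻¹) * (γ * b * γ⁻¹) := by group
          _ = a⁻¹ * (b⁻¹ * (γ * a * γ⁻¹)) * (γ * b * γ⁻¹) := by rw [hA _ (hγA a ha) _ (A.inv_mem hb)]
          _ = (a⁻¹ * b⁻¹) * (γ * (a * b) * γ⁻¹) := by group
          _ = (b⁻¹ * a⁻¹) * (γ * (a * b) * γ⁻¹) := by rw [hA _ (A.inv_mem ha) _ (A.inv_mem hb)]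
          _ = _ := by group
      inv_mem' := by
        rintro _ ⟨a, ha, rfl⟩
        refine ⟨a⁻¹, A.inv_mem ha, ?_⟩
        calc (a⁻¹ * (γ * a * γ⁻¹))⁻¹ = (γ * a⁻¹ * γ⁻¹) * a := by group
          _ = a * (γ * a⁻¹ * γ⁻¹) := hA _ (hγA _ (A.inv_mem ha)) _ ha
          _ = _ := by group }
  have hLA : ∀ l ∈ L, l ∈ A := by
    rintro _ ⟨a, ha, rfl⟩
    exact A.mul_mem (A.inv_mem ha) (hγA a ha)
  have hγL : ∀ l ∈ L, γ * l * γ⁻¹ ∈ L := by
    rintro _ ⟨a, ha, rfl⟩
    exact ⟨γ * a * γ⁻¹, hγA a ha, by group⟩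
  have hLfix : ∀ l ∈ L, γ * l * γ⁻¹ = l → l = 1 := by
    rintro _ ⟨a, ha, rfl⟩ hfix
    set l := a⁻¹ * (γ * a * γ⁻¹) with hl
    have hit : ∀ n : ℕ, γ ^ n * a * (γ ^ n)⁻¹ = a * l ^ n := by
      intro n
      induction n with
      | zero => simp
      | succ n ih =>
        have hpow : γ * l ^ n * γ⁻¹ = l ^ n := by rw [← conj_pow, hfix]
        calc γ ^ (n + 1) * a * (γ ^ (n + 1))⁻¹ = γ * (γ ^ n * a * (γ ^ n)⁻¹) * γ⁻¹ := by rw [pow_succ']; group
          _ = (γ * a * γ⁻¹) * (γ * l ^ n * γ⁻¹) := by rw [ih]; group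
          _ = (γ * a * γ⁻¹) * l ^ n := by rw [hpow]
          _ = a * l * l ^ n := by rw [hl]; group
          _ = _ := by rw [mul_assoc, ← pow_succ']
    have h1 := hit (p ^ k)
    rw [hγ] at h1
    have h2 : l ^ p ^ k = 1 := by simpa using h1.symm
    exact orderOf_eq_one_iff.1 (Nat.eq_one_of_dvd_coprimes (hm.pow_right k)
      (orderOf_dvd_of_pow_eq_one (hAm _ (A.mul_mem (A.inv_mem ha) (hγA a ha)))) (orderOf_dvd_of_pow_eq_one h2))
  -- the cyclic group generated by `γ` acts on `L`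
  set J := Subgroup.zpowers γ with hJ
  have hnorm : ∀ j ∈ J, ∀ l ∈ L, j * l * j⁻¹ ∈ L := by
    have hγN : γ ∈ Subgroup.normalizer (L : Set (MulAut M)) := by
      refine Subgroup.mem_normalizer_fintype fun l hl => hγL l hl
    exact fun j hj l hl => (Subgroup.mem_normalizer_iff.1 ((Subgroup.zpowers_le.2 hγN) hj) l).1 hl
  letI : MulAction J L :=
    { smul := fun j l => ⟨(j : MulAut M) * l * (j : MulAut M)⁻¹, hnorm j j.2 l l.2⟩
      one_smul := fun l => Subtype.ext (by show (1 : MulAut M) * l * (1 : MulAut M)⁻¹ = l; group)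
      mul_smul := fun i j l => Subtype.ext (by
        show ((i : MulAut M) * j) * l * ((i : MulAut M) * j)⁻¹ = i * (j * l * (j : MulAut M)⁻¹) * (i : MulAut M)⁻¹
        group) }
  haveI : Fintype L := Fintype.ofFinite L
  have hJp : IsPGroup p J := fun j => ⟨k, by
    obtain ⟨j, hj⟩ := j
    obtain ⟨z, rfl⟩ := Subgroup.mem_zpowers_iff.1 hj
    apply Subtype.ext
    show (γ ^ z) ^ p ^ k = 1
    rw [← zpow_natCast, ← zpow_mul, mul_comm, zpow_mul, zpow_natCast, hγ, one_zpow]⟩
  set G := toEnd γ with hG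
  have hG1 : ∀ v : Additive M, ((G - 1) ^ (p - 1)) v = 0 := by
    intro v
    have h : ∀ n : ℕ, ((G - 1) ^ n) v = Additive.ofMul ((fun w => γ w * w⁻¹)^[n] v.toMul) := by
      intro n
      induction n with
      | zero => rfl
      | succ n ih =>
        rw [pow_succ', Function.iterate_succ_apply']
        show (G - 1) (((G - 1) ^ n) v) = _
        rw [ih]
        show G (Additive.ofMul ((fun w => γ w * w⁻¹)^[n] v.toMul)) - Additive.ofMul ((fun w => γ w * w⁻¹)^[n] v.toMul) = _
        rw [sub_eq_add_neg]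
        rfl
    rw [h, hdeg]
    rfl
  have hsum : ∀ v : Additive M, G v = v → ∑ l : L, toEnd (l : MulAut M) v = v := by
    intro v hv
    have hJv : ∀ j ∈ J, toEnd j v = v := by
      have h1 : γ ∈ MulAction.stabilizer (MulAut M) v.toMul := hv
      exact fun j hj => (Subgroup.zpowers_le.2 h1) hj
    have h := PLocal.WeakClosure.sum_eq_apply_fixed hJp hY (toEnd.comp J.subtype)
      (fun l : L => toEnd (l : MulAut M) v) (fun j l => by
        show toEnd ((j : MulAut M) * l * (j : MulAut M)⁻¹) v = toEnd (j : MulAut M) (toEnd (l : MulAut M) v)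
        rw [map_mul, map_mul]
        exact congrArg (fun w => toEnd (j : MulAut M) (toEnd (l : MulAut M) w)) (hJv _ (J.inv_mem j.2)))
      {⟨γ, Subgroup.mem_zpowers γ⟩} (by
        refine eq_top_iff.2 fun j _ => ?_
        obtain ⟨j, hj⟩ := j
        obtain ⟨z, rfl⟩ := Subgroup.mem_zpowers_iff.1 hj
        exact Subgroup.mem_closure_singleton.2 ⟨z, Subtype.ext (by simp)⟩)
      (fun s hs => by rw [Set.mem_singleton_iff.1 hs]; exact AddMonoidHom.ext hG1) (1 : L)
      (fun l => ⟨fun h => Subtype.ext (hLfix l l.2 (congrArg Subtype.val (h ⟨γ, Subgroup.mem_zpowers γ⟩))),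
        fun h j => by
          subst h
          apply Subtype.ext
          show (j : MulAut M) * 1 * (j : MulAut M)⁻¹ = 1
          group⟩)
    simpa using h
  set T : AddMonoid.End (Additive M) := ∑ l : L, toEnd (l : MulAut M) with hT
  have hTapp : ∀ v, T v = ∑ l : L, toEnd (l : MulAut M) v := fun v => AddMonoidHom.finsetSum_apply _ _ _
  have hTmul : ∀ l ∈ L, T * toEnd l = T := by
    intro l hl
    rw [hT, Finset.sum_mul]
    exact (Equiv.sum_comp (Equiv.mulRight (⟨l, hl⟩ : L)) fun a : L => toEnd (a : MulAut M)).symm.trans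
      (Finset.sum_congr rfl fun a _ => map_mul toEnd _ _) |>.symm
  have hTG : T * G = G * T := by
    rw [hT, Finset.sum_mul, Finset.mul_sum]
    refine Finset.sum_nbij' (fun l => ⟨γ⁻¹ * l * γ, by simpa using hnorm γ⁻¹ (J.inv_mem (Subgroup.mem_zpowers γ)) l l.2⟩)
      (fun l => ⟨γ * l * γ⁻¹, hγL l l.2⟩) (fun _ _ => Finset.mem_univ _) (fun _ _ => Finset.mem_univ _)
      (fun l _ => Subtype.ext (by simp [mul_assoc])) (fun l _ => Subtype.ext (by simp [mul_assoc])) fun l _ => ?_
    rw [hG, ← map_mul, ← map_mul]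
    congr 1
    show (l : MulAut M) * γ = γ * (γ⁻¹ * l * γ)
    group
  have hinj : ∀ v, T v = 0 → v = 0 := by
    intro v hv
    have hzero : ∀ (n : ℕ) (w : Additive M), T w = 0 → ((G - 1) ^ n) w = 0 → w = 0 := by
      intro n
      induction n with
      | zero => exact fun w _ h => h
      | succ n ih =>
        intro w hw h
        refine ih w hw ?_
        set z := ((G - 1) ^ n) w with hz
        have hTz : T z = 0 := by
          have hc : Commute T ((G - 1) ^ n) := (Commute.sub_right hTG (Commute.one_right T)).pow_right n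
          have := DFunLike.congr_fun hc.eq w
          show T (((G - 1) ^ n) w) = 0
          rw [show T (((G - 1) ^ n) w) = ((G - 1) ^ n) (T w) from this, hw, map_zero]
        have hfix : G z = z := by
          rw [pow_succ'] at h
          exact sub_eq_zero.1 h
        rw [hTapp, hsum z hfix] at hTz
        exact hTz
    exact hzero _ v hv (hG1 v)
  intro a ha
  have hl : a⁻¹ * (γ * a * γ⁻¹) ∈ L := ⟨a, ha, rfl⟩
  set l := a⁻¹ * (γ * a * γ⁻¹) with hldef
  have hl1 : l = 1 := by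
    ext v
    have h1 := DFunLike.congr_fun (hTmul l hl) (Additive.ofMul v)
    have h2 := hinj (toEnd l (Additive.ofMul v) - Additive.ofMul v) (by
      rw [map_sub]
      exact sub_eq_zero.2 h1)
    exact (sub_eq_zero.1 h2 : Additive.ofMul (l v) = Additive.ofMul v)
  rw [hldef, inv_mul_eq_one] at hl1
  exact (mul_inv_eq_iff_eq_mul.1 hl1.symm)

/-- No element of a Sylow subgroup acts nontrivially with degree below `p`. -/
theorem engel_fails {X : Type u} [Group X] [Finite X] (P : Sylow p X) (K : Subgroup X) [hKn : K.Normal] {m : ℕ}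
    (hKc : ⁅K, K⁆ ≤ pCore p X) (hm : m.Coprime p) (hKm : ∀ k ∈ K, k ^ m ∈ pCore p X)
    (hKP : K ⊔ (P : Subgroup X) = ⊤) {U V : Subgroup X} (hUV : IsChiefFactor U V) (hU : U ≤ pCore p X)
    {g : X} (hg : g ∈ (P : Subgroup X)) (hdeg : iterCommutator U (Subgroup.zpowers g) (p - 1) ≤ V) :
    ⁅U, Subgroup.zpowers g⁆ ≤ V := by
  haveI hOn := Transfer.pCore_normal (G := X) p
  have hOp : IsPGroup p (pCore p X) := Transfer.pCore_isPGroup p
  obtain ⟨hlt, hUn, hVn, hmin⟩ := hUV
  haveI := hUn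
  haveI := hVn
  obtain ⟨hOU, hUU⟩ := Displacement.chief_commutator_le (p := p) ⟨hlt, hUn, hVn, hmin⟩ (Q := pCore p X) hOp hU
  set V' := V.subgroupOf U with hV'
  haveI : V'.Normal := Subgroup.normal_subgroupOf
  letI : CommGroup (U ⧸ V') :=
    { (inferInstance : Group (U ⧸ V')) with
      mul_comm := by
        rintro ⟨a⟩ ⟨b⟩
        refine QuotientGroup.eq.2 ?_
        show ((a * b)⁻¹ * (b * a) : U) ∈ V'
        rw [hV', Subgroup.mem_subgroupOf]
        have h := hUU (Subgroup.commutator_mem_commutator (U.inv_mem b.2) (U.inv_mem a.2))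
        simpa [commutatorElement_def, mul_assoc] using h }
  set π := QuotientGroup.mk' V' with hπ
  have hπ1 : ∀ a : U, π a = 1 ↔ (a : X) ∈ V := fun a => QuotientGroup.eq_one_iff a
  -- the action
  have hmap : ∀ x : X, V'.map (MulAut.conjNormal x : MulAut U).toMonoidHom = V' := by
    intro x
    refine Subgroup.eq_of_le_of_card_ge ?_ (Subgroup.card_map_of_injective (MulAut.conjNormal x : MulAut U).injective).ge
    rintro _ ⟨a, ha, rfl⟩
    show ((MulAut.conjNormal x a : U) : X) ∈ V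
    rw [MulAut.conjNormal_apply]
    exact hVn.conj_mem _ ha x
  let φ : X →* MulAut (U ⧸ V') :=
    { toFun := fun x => QuotientGroup.congr V' V' (MulAut.conjNormal x) (hmap x)
      map_one' := MulEquiv.ext fun a => by
        obtain ⟨a, rfl⟩ := QuotientGroup.mk'_surjective V' a
        show (QuotientGroup.mk (MulAut.conjNormal (1 : X) a) : U ⧸ V') = QuotientGroup.mk a
        rw [map_one]
        rfl
      map_mul' := fun x y => MulEquiv.ext fun a => by
        obtain ⟨a, rfl⟩ := QuotientGroup.mk'_surjective V' a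
        show (QuotientGroup.mk (MulAut.conjNormal (x * y) a) : U ⧸ V') = _
        rw [map_mul]
        rfl }
  have hφ : ∀ (x : X) (a : U), φ x (π a) = π (MulAut.conjNormal x a) := fun x a => rfl
  have hφO : ∀ x ∈ pCore p X, φ x = 1 := by
    intro x hx
    refine MulEquiv.ext fun a => ?_
    obtain ⟨a, rfl⟩ := QuotientGroup.mk'_surjective V' a
    rw [hφ]
    refine (QuotientGroup.eq.2 ?_).symm
    rw [hV', Subgroup.mem_subgroupOf, Subgroup.coe_mul, Subgroup.coe_inv, MulAut.conjNormal_apply]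
    have h := hOU (Subgroup.commutator_mem_commutator hx a.2)
    rw [show (a : X)⁻¹ * (x * a * x⁻¹) = (a : X)⁻¹ * ⁅x, (a : X)⁆ * (a : X)⁻¹⁻¹ by
      simp [commutatorElement_def, mul_assoc]]
    exact hVn.conj_mem _ h _
  -- exponent `p`
  have hexp : ∀ v : U ⧸ V', v ^ p = 1 := by
    set E := ((powMonoidHom p : (U ⧸ V') →* (U ⧸ V')).ker.comap π).map U.subtype with hE
    have hmemE : ∀ a : U, (a : X) ∈ E ↔ π a ^ p = 1 := fun a => by
      rw [hE]
      exact (Subgroup.mem_map_iff_mem U.subtype_injective).trans Iff.rfl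
    haveI hEn : E.Normal := ⟨fun e he x => by
      obtain ⟨a, ha, rfl⟩ := he
      have h1 : π (MulAut.conjNormal x a) ^ p = 1 := by
        rw [← hφ, ← map_pow, show π a ^ p = 1 from ha, map_one]
      have h2 := (hmemE _).2 h1
      rwa [MulAut.conjNormal_apply] at h2⟩
    have hVE : V ≤ E := fun v hv => (hmemE ⟨v, hlt.le hv⟩).2 (by
      rw [(hπ1 ⟨v, hlt.le hv⟩).2 hv, one_pow])
    rcases hmin E hEn hVE (Subgroup.map_subtype_le _) with e | e
    · exfalso
      haveI : Nontrivial (U ⧸ V') := QuotientGroup.nontrivial_iff.2 fun h =>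
        hlt.not_ge (Subgroup.subgroupOf_eq_top.1 h)
      have hp : IsPGroup p (U ⧸ V') := (hOp.to_le hU).to_quotient V'
      obtain ⟨n, hn, hc⟩ := hp.nontrivial_iff_card.1 inferInstance
      obtain ⟨v, hv⟩ := exists_prime_orderOf_dvd_card' (G := U ⧸ V') p (hc ▸ dvd_pow_self p hn.ne')
      obtain ⟨a, rfl⟩ := QuotientGroup.mk'_surjective V' v
      have h1 : (a : X) ∈ E := (hmemE a).2 (by rw [← hv]; exact pow_orderOf_eq_one _)
      rw [e] at h1
      rw [(hπ1 a).2 h1, orderOf_one] at hv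
      exact (Fact.out : p.Prime).ne_one hv.symm
    · intro v
      obtain ⟨a, rfl⟩ := QuotientGroup.mk'_surjective V' v
      exact (hmemE a).1 (e.symm ▸ a.2)
  set A := K.map φ with hA
  obtain ⟨k, hk⟩ := P.isPGroup' ⟨g, hg⟩
  have hγ : φ g ^ p ^ k = 1 := by
    rw [← map_pow, show g ^ p ^ k = 1 from congrArg Subtype.val hk, map_one]
  have hcomm : ∀ a ∈ A, φ g * a = a * φ g := by
    refine commute_of_small_degree hexp A ?_ hm ?_ (φ g) hγ ?_ ?_
    · rintro _ ⟨a, ha, rfl⟩ _ ⟨b, hb, rfl⟩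
      rw [← commutatorElement_eq_one_iff_mul_comm, ← map_commutatorElement]
      exact hφO _ (hKc (Subgroup.commutator_mem_commutator ha hb))
    · rintro _ ⟨a, ha, rfl⟩
      rw [← map_pow]
      exact hφO _ (hKm a ha)
    · rintro _ ⟨a, ha, rfl⟩
      exact ⟨g * a * g⁻¹, hKn.conj_mem a ha g, by simp⟩
    · intro v
      obtain ⟨a, rfl⟩ := QuotientGroup.mk'_surjective V' v
      have h : ∀ n : ℕ, ∃ b : U, (b : X) ∈ iterCommutator U (Subgroup.zpowers g) n ∧
          (fun w => φ g w * w⁻¹)^[n] (π a) = π b := by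
        intro n
        induction n with
        | zero => exact ⟨a, a.2, rfl⟩
        | succ n ih =>
          obtain ⟨b, hb, he⟩ := ih
          refine ⟨MulAut.conjNormal g b * b⁻¹, ?_, ?_⟩
          · rw [Subgroup.coe_mul, Subgroup.coe_inv, MulAut.conjNormal_apply]
            show g * (b : X) * g⁻¹ * (b : X)⁻¹ ∈ ⁅iterCommutator U (Subgroup.zpowers g) n, Subgroup.zpowers g⁆
            have h1 := Subgroup.inv_mem _ (Subgroup.commutator_mem_commutator hb (Subgroup.mem_zpowers g))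
            rwa [show ⁅(b : X), g⁆⁻¹ = g * (b : X) * g⁻¹ * (b : X)⁻¹ by
              simp [commutatorElement_def, mul_assoc]] at h1
          · rw [Function.iterate_succ_apply', he]
            show φ g (π b) * (π b)⁻¹ = _
            rw [hφ, map_mul, map_inv]
      obtain ⟨b, hb, he⟩ := h (p - 1)
      rw [he]
      exact (hπ1 b).2 (hdeg hb)
  set Q := (P : Subgroup X).map φ ⊓ Subgroup.centralizer (A : Set (MulAut (U ⧸ V'))) with hQ
  have hQp : IsPGroup p Q := (P.isPGroup'.map φ).to_le inf_le_left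
  have hQn : ∀ x : X, φ x ∈ Subgroup.normalizer (Q : Set (MulAut (U ⧸ V'))) := by
    intro x
    have hx : x ∈ K ⊔ (P : Subgroup X) := hKP ▸ Subgroup.mem_top x
    obtain ⟨c, hc, s, hs, rfl⟩ := Subgroup.mem_sup_of_normal_left.1 hx
    rw [map_mul]
    refine Subgroup.mul_mem _ (Subgroup.mem_normalizer_fintype fun q hq => ?_)
      (Subgroup.mem_normalizer_fintype fun q hq => ⟨?_, ?_⟩)
    · rw [Subgroup.mem_centralizer_iff.1 hq.2 (φ c) ⟨c, hc, rfl⟩, mul_inv_cancel_right]
      exact hq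
    · exact ((P : Subgroup X).map φ).mul_mem (((P : Subgroup X).map φ).mul_mem ⟨s, hs, rfl⟩ hq.1)
        (((P : Subgroup X).map φ).inv_mem ⟨s, hs, rfl⟩)
    · refine Subgroup.mem_centralizer_iff.2 ?_
      rintro _ ⟨a, ha, rfl⟩
      have h1 := Subgroup.mem_centralizer_iff.1 hq.2 (φ (s⁻¹ * a * s))
        ⟨_, by simpa using hKn.conj_mem a ha s⁻¹, rfl⟩
      rw [map_mul, map_mul, map_inv] at h1
      calc φ a * (φ s * q * (φ s)⁻¹) = φ s * ((φ s)⁻¹ * φ a * φ s * q) * (φ s)⁻¹ := by group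
        _ = φ s * (q * ((φ s)⁻¹ * φ a * φ s)) * (φ s)⁻¹ := by rw [h1]
        _ = _ := by group
  -- the fixed points of `Q`
  let F : Subgroup (U ⧸ V') :=
    { carrier := {v | ∀ q ∈ Q, q v = v}
      one_mem' := fun q _ => map_one q
      mul_mem' := fun {a b} ha hb q hq => by rw [map_mul, ha q hq, hb q hq]
      inv_mem' := fun {a} ha q hq => by rw [map_inv, ha q hq] }
  set E := (F.comap π).map U.subtype with hE
  have hmemE : ∀ a : U, (a : X) ∈ E ↔ π a ∈ F := fun a => by
    rw [hE]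
    exact (Subgroup.mem_map_iff_mem U.subtype_injective).trans Iff.rfl
  have hEn : E.Normal := ⟨fun e he x => by
    obtain ⟨a, ha, rfl⟩ := he
    have h1 : π (MulAut.conjNormal x a) ∈ F := fun q hq => by
      rw [← hφ]
      have h2 : (φ x)⁻¹ * q * φ x ∈ Q := (Subgroup.mem_normalizer_iff''.1 (hQn x) q).1 hq
      have h3 := ha _ h2
      have h4 := congrArg (φ x) h3
      simpa using h4
    have h2 := (hmemE _).2 h1
    rwa [MulAut.conjNormal_apply] at h2⟩
  have hVE : V ≤ E := fun v hv => (hmemE ⟨v, hlt.le hv⟩).2 (by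
    rw [(hπ1 ⟨v, hlt.le hv⟩).2 hv]; exact F.one_mem)
  have hFtop : ∀ v, v ∈ F := by
    rcases hmin E hEn hVE (Subgroup.map_subtype_le _) with e | e
    · exfalso
      haveI : Nontrivial (U ⧸ V') := QuotientGroup.nontrivial_iff.2 fun h =>
        hlt.not_ge (Subgroup.subgroupOf_eq_top.1 h)
      have hp : IsPGroup p (U ⧸ V') := (hOp.to_le hU).to_quotient V'
      obtain ⟨n, hn, hc⟩ := hp.nontrivial_iff_card.1 inferInstance
      have hone : (1 : U ⧸ V') ∈ MulAction.fixedPoints Q (U ⧸ V') := fun q => map_one (q : MulAut (U ⧸ V'))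
      obtain ⟨v, hv, hne⟩ := hQp.exists_fixed_point_of_prime_dvd_card_of_fixed_point (U ⧸ V')
        (hc ▸ dvd_pow_self p hn.ne') hone
      obtain ⟨a, rfl⟩ := QuotientGroup.mk'_surjective V' v
      have h1 : (a : X) ∈ E := (hmemE a).2 fun q hq => hv ⟨q, hq⟩
      rw [e] at h1
      exact hne ((hπ1 a).2 h1).symm
    · intro v
      obtain ⟨a, rfl⟩ := QuotientGroup.mk'_surjective V' v
      exact (hmemE a).1 (e.symm ▸ a.2)
  have hgQ : φ g ∈ Q := ⟨⟨g, hg, rfl⟩, Subgroup.mem_centralizer_iff.2 fun a ha => (hcomm a ha).symm⟩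
  let E' : Subgroup X :=
    { carrier := {x | φ x = 1}
      one_mem' := map_one φ
      mul_mem' := fun {a b} ha hb => by
        show φ (a * b) = 1
        rw [map_mul, show φ a = 1 from ha, show φ b = 1 from hb, one_mul]
      inv_mem' := fun {a} ha => by
        show φ a⁻¹ = 1
        rw [map_inv, show φ a = 1 from ha, inv_one] }
  have hgE : Subgroup.zpowers g ≤ E' := Subgroup.zpowers_le.2 (MulEquiv.ext fun v => hFtop v _ hgQ)
  refine Subgroup.commutator_le.2 fun u hu y hy => ?_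
  have h1 := hφ y ⟨u, hu⟩
  rw [show φ y = 1 from hgE hy] at h1
  have h2 := QuotientGroup.eq.1 h1.symm
  rw [hV', Subgroup.mem_subgroupOf, Subgroup.coe_mul, Subgroup.coe_inv, MulAut.conjNormal_apply] at h2
  have h3 : (y * u * y⁻¹)⁻¹ * u ∈ V := h2
  rw [show ⁅u, y⁆ = (y * u * y⁻¹) * ((y * u * y⁻¹)⁻¹ * u) * (y * u * y⁻¹)⁻¹ by
    simp [commutatorElement_def, mul_assoc]]
  exact hVn.conj_mem _ h3 _

end Cfsg.Lib.PLocal.FunctorEngel
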