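import Mathlib
import Cfsg.Agent.Lib.PLocal.FunctorComplement
import Cfsg.Agent.Lib.PLocal.FunctorEngel
import Cfsg.Agent.Lib.PLocal.SectionTransport
import Cfsg.Agent.Lib.PLocal.TransferDegree

/-!
Normal `p`-complements from functors that are normal in small constrained sections.
-/

set_option autoImplicit false
set_option linter.unusedSectionVars false
set_option linter.style.haveILetI false

open scoped commutatorElement

namespace Cfsg.Lib.PLocal.FunctorCriterion

open Cfsg

universe u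

variable {p : ℕ} [Fact p.Prime]

/-- The functor value at a Sylow subgroup is normal in the small constrained sections. -/
def SmallNormal (p : ℕ) (W : ∀ (Q : Type u) [Group Q], Subgroup Q) (X : Type u) [Group X] : Prop :=
  ∀ (L : Type u) [Group L] [Finite L], Involves L X →
    Subgroup.centralizer (pCore p L : Set L) ≤ pCore p L → ∀ (T : Sylow p L) (K : Subgroup L) (m : ℕ),
    K.Normal → pCore p L ≤ K → ⁅K, K⁆ ≤ pCore p L → m.Coprime p → (∀ k ∈ K, k ^ m ∈ pCore p L) →
    K ⊔ (T : Subgroup L) = ⊤ →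
    (∀ N : Subgroup L, N.Normal → pCore p L ≤ N → N ≤ K → N = pCore p L ∨ N = K) →
    (inducedFunctor W (T : Subgroup L)).Normal

theorem smallNormal_of_sections {W : ∀ (Q : Type u) [Group Q], Subgroup Q} (hW : IsCharPFunctor.{u} p W)
    {G : Type u} [Group G] [Finite G]
    (hloc : ∀ (A R : Subgroup G) [hR : (R.subgroupOf A).Normal],
      Subgroup.centralizer ((pCore p (↥A ⧸ R.subgroupOf A) : Subgroup (↥A ⧸ R.subgroupOf A)) :
        Set (↥A ⧸ R.subgroupOf A)) ≤ pCore p (↥A ⧸ R.subgroupOf A) →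
      ∀ (T : Sylow p (↥A ⧸ R.subgroupOf A)) (K : Subgroup (↥A ⧸ R.subgroupOf A)) (m : ℕ),
      K.Normal → pCore p (↥A ⧸ R.subgroupOf A) ≤ K → ⁅K, K⁆ ≤ pCore p (↥A ⧸ R.subgroupOf A) → m.Coprime p →
      (∀ k ∈ K, k ^ m ∈ pCore p (↥A ⧸ R.subgroupOf A)) →
      K ⊔ (T : Subgroup (↥A ⧸ R.subgroupOf A)) = ⊤ →
      (∀ N : Subgroup (↥A ⧸ R.subgroupOf A), N.Normal → pCore p (↥A ⧸ R.subgroupOf A) ≤ N → N ≤ K →
        N = pCore p (↥A ⧸ R.subgroupOf A) ∨ N = K) →
      (inducedFunctor W (T : Subgroup (↥A ⧸ R.subgroupOf A))).Normal) :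
    SmallNormal p W G := by
  intro L _ _ hL hc T K m hKn hOK hKc hm hKm hKT hmin
  obtain ⟨A, R, hR, ⟨e⟩⟩ := hL
  obtain ⟨T', hT'⟩ := SectionTransport.exists_sylow_map e T
  have hO := SectionTransport.map_pCore (p := p) e
  set K' := K.comap e.toMonoidHom with hK'
  have hK'map : K'.map e.toMonoidHom = K := Subgroup.map_comap_eq_self_of_surjective e.surjective K
  have hinj : Function.Injective (Subgroup.map e.toMonoidHom) := Subgroup.map_injective e.injective
  refine SectionTransport.normal_induced hW e T' T hT'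
    (hloc A R (SectionTransport.centralizer_le_of_equiv e hc) T' K' m (hKn.comap _) ?_ ?_ hm ?_ ?_ ?_)
  · rw [← Subgroup.map_le_map_iff_of_injective (f := e.toMonoidHom) e.injective, hO, hK'map]; exact hOK
  · rw [← Subgroup.map_le_map_iff_of_injective (f := e.toMonoidHom) e.injective, Subgroup.map_commutator, hO, hK'map]; exact hKc
  · intro k hk
    have h1 := hKm (e k) hk
    rw [← hO] at h1
    obtain ⟨y, hy, hye⟩ := h1
    have h2 : y = k ^ m := e.injective (hye.trans (map_pow e k m).symm)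
    exact h2 ▸ hy
  · refine hinj ?_
    rw [Subgroup.map_sup, hK'map, hT', hKT, Subgroup.map_top_of_surjective _ e.surjective]
  · intro N hN hON hNK
    rcases hmin (N.map e.toMonoidHom) (hN.map _ e.surjective) (hO ▸ Subgroup.map_mono hON)
      (hK'map ▸ Subgroup.map_mono hNK) with h | h
    · exact Or.inl (hinj (h.trans hO.symm))
    · exact Or.inr (hinj (h.trans hK'map.symm))

theorem isPFunctor_induced {W : ∀ (Q : Type u) [Group Q], Subgroup Q} (hW : IsCharPFunctor.{u} p W) :
    IsPFunctor p (fun {G : Type u} [Group G] (Q : Subgroup G) => inducedFunctor W Q) where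
  map := fun f Q hQ hf => TransferControl.induced_map hW f Q hQ hf
  le := fun Q => TransferControl.induced_le W Q
  ne_bot := fun Q hQ hne => TransferControl.induced_ne_bot hW Q hQ hne

/-- The criterion. -/
theorem complement_of_smallNormal {W : ∀ (Q : Type u) [Group Q], Subgroup Q} (hW : IsCharPFunctor.{u} p W)
    {G : Type u} [Group G] [Finite G] (hG : SmallNormal p W G) (S : Sylow p G)
    (hN : HasNormalPComplement p ↥(Subgroup.normalizer ((inducedFunctor W (S : Subgroup G) : Subgroup G) : Set G))) :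
    HasNormalPComplement p G := by
  refine functor_complement_core (isPFunctor_induced hW) (fun X _ => SmallNormal p W X)
    (fun X _ H h L _ _ hL => h L (TransferControl.involves_trans hL (TransferControl.involves_subgroup H)))
    (fun X _ O _ h L _ _ hL => h L (TransferControl.involves_trans hL (TransferControl.involves_quotient O))) ?_
    (Nat.card G) G le_rfl hG ⟨S, hN⟩
  intro X _ _ hX hc P K m hK hOK hKc hm hKm hKP hmin hNP
  have hn := hX X (TransferControl.involves_refl X) hc P K m hK hOK hKc hm hKm hKP hmin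
  have e : Subgroup.normalizer ((inducedFunctor W (P : Subgroup X) : Subgroup X) : Set X) = ⊤ :=
    Subgroup.normalizer_eq_top_iff.2 hn
  exact Transfer.hasNormalPComplement_of_surjective
    (Subgroup.normalizer ((inducedFunctor W (P : Subgroup X) : Subgroup X) : Set X)).subtype
    (fun x => ⟨⟨x, e ▸ Subgroup.mem_top x⟩, rfl⟩) hNP

/-- A Sylow subgroup is maximal in the small constrained configuration. -/
theorem isCoatom_sylow {L : Type u} [Group L] [Finite L] (T : Sylow p L) (K : Subgroup L) [K.Normal]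
    (hKc : ⁅K, K⁆ ≤ pCore p L) (hKT : K ⊔ (T : Subgroup L) = ⊤)
    (hmin : ∀ N : Subgroup L, N.Normal → pCore p L ≤ N → N ≤ K → N = pCore p L ∨ N = K) (hOK : pCore p L ≤ K)
    (hne : (T : Subgroup L) ≠ ⊤) : IsCoatom (T : Subgroup L) := by
  refine ⟨hne, fun M hM => ?_⟩
  have hOT : pCore p L ≤ (T : Subgroup L) := Transfer.pCore_le_sylow T
  have hmem : ∀ x : L, ∃ k ∈ K, ∃ t ∈ (T : Subgroup L), k * t = x := fun x =>
    Subgroup.mem_sup_of_normal_left.1 (hKT ▸ Subgroup.mem_top x)
  have hN : (M ⊓ K).Normal := by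
    refine ⟨fun y hy x => ?_⟩
    obtain ⟨k, hk, t, ht, rfl⟩ := hmem x
    have h1 : t * y * t⁻¹ ∈ M ⊓ K := ⟨M.mul_mem (M.mul_mem (hM.le ht) hy.1) (M.inv_mem (hM.le ht)),
      (inferInstance : K.Normal).conj_mem y hy.2 t⟩
    rw [show k * t * y * (k * t)⁻¹ = ⁅k, t * y * t⁻¹⁆ * (t * y * t⁻¹) by simp [commutatorElement_def, mul_assoc]]
    refine (M ⊓ K).mul_mem ?_ h1
    have h2 := hKc (Subgroup.commutator_mem_commutator hk h1.2)
    exact ⟨hM.le (hOT h2), hOK h2⟩
  rcases hmin _ hN (le_inf (hOT.trans hM.le) hOK) inf_le_right with h | h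
  · exfalso
    refine hM.not_ge fun x hx => ?_
    obtain ⟨k, hk, t, ht, rfl⟩ := hmem x
    have h3 : k ∈ M ⊓ K := ⟨by simpa using M.mul_mem hx (M.inv_mem (hM.le ht)), hk⟩
    rw [h] at h3
    exact (T : Subgroup L).mul_mem (hOT h3) ht
  · rw [eq_top_iff, ← hKT]
    exact sup_le (inf_eq_right.1 h) hM.le

/-- The quotient by the core has a normal complement in that configuration. -/
theorem quotient_complement {L : Type u} [Group L] [Finite L] (T : Sylow p L) (K : Subgroup L) [K.Normal] {m : ℕ}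
    (hm : m.Coprime p) (hKm : ∀ k ∈ K, k ^ m ∈ pCore p L) (hKT : K ⊔ (T : Subgroup L) = ⊤)
    [(pCore p L).Normal] : HasNormalPComplement p (L ⧸ pCore p L) := by
  set q := QuotientGroup.mk' (pCore p L)
  have hqs : Function.Surjective q := QuotientGroup.mk'_surjective _
  set P := T.mapSurjective hqs
  refine ⟨P, K.map q, (inferInstance : K.Normal).map q hqs, Subgroup.isComplement'_of_disjoint_and_mul_eq_univ ?_ ?_⟩
  · rw [disjoint_iff, eq_bot_iff]
    rintro x ⟨⟨k, hk, rfl⟩, hx⟩
    obtain ⟨j, hj⟩ := P.isPGroup' ⟨q k, hx⟩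
    have h1 : (q k) ^ m = 1 := by
      rw [← map_pow]; exact (QuotientGroup.eq_one_iff _).2 (hKm k hk)
    exact Subgroup.mem_bot.2 (orderOf_eq_one_iff.1 (Nat.eq_one_of_dvd_coprimes (hm.pow_right j)
      (orderOf_dvd_of_pow_eq_one h1) (orderOf_dvd_of_pow_eq_one (congrArg Subtype.val hj))))
  · refine Set.eq_univ_of_forall fun x => ?_
    obtain ⟨x, rfl⟩ := hqs x
    obtain ⟨k, hk, t, ht, rfl⟩ := Subgroup.mem_sup_of_normal_left.1 (hKT ▸ Subgroup.mem_top x)
    exact ⟨q k, ⟨k, hk, rfl⟩, q t, ⟨t, ht, rfl⟩, (map_mul q k t).symm⟩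

end Cfsg.Lib.PLocal.FunctorCriterion
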