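import Mathlib
import Cfsg.Prelude.Def_JComponents
import Cfsg.Agent.Lib.PLocal.FStarAction

/-!
A subgroup normalized by a `J(T)`-component normalizes it.
-/

set_option autoImplicit false
set_option linter.style.haveILetI false
set_option linter.unusedSectionVars false

namespace Cfsg.Lib.JCompNorm

open Subgroup
open scoped Pointwise
open scoped commutatorElement

variable {G : Type*} [Group G] [Finite G]

theorem normalizes (J K Q : Subgroup G) (hJ : IsPGroup 2 ↥J)
    (hgen : Subgroup.closure {g : G | g ∈ K ∧ Odd (orderOf g)} = K) (hKJ : ⁅K, J⁆ = K)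
    (hQ1 : K ⊔ J ≤ normalizer (Q : Set G)) (hQ2 : Q ≤ normalizer (J : Set G)) :
    Q ≤ normalizer (K : Set G) := by
  haveI : Fact (Nat.Prime 2) := ⟨Nat.prime_two⟩
  have hJK : J ≤ normalizer (K : Set G) := by
    have h := Solv.le_normalizer_commutator_right K J
    rwa [hKJ] at h
  -- conjugation by `Q` maps `K` into `K ⊔ J`
  have hconj : ∀ q ∈ Q, ∀ k ∈ K, q * k * q⁻¹ ∈ K ⊔ J := by
    intro q hq k hk
    rw [← hKJ] at hk
    have hle : ⁅K, J⁆ ≤ (K ⊔ J).comap (MulAut.conj q).toMonoidHom := by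
      refine commutator_le.2 fun a ha b hb => ?_
      show q * ⁅a, b⁆ * q⁻¹ ∈ K ⊔ J
      have hb' : q * b * q⁻¹ ∈ J := (mem_normalizer_iff.1 (hQ2 hq) b).1 hb
      have hq' : a⁻¹ * q * a ∈ Q := by
        have := (mem_normalizer_iff.1 (hQ1 (mem_sup_left (K.inv_mem ha))) q).1 hq
        simpa using this
      set q' := a⁻¹ * q * a * q⁻¹ with hq'def
      have hq'' : q' ∈ Q := Q.mul_mem hq' (Q.inv_mem hq)
      have hc : ⁅q', q * b * q⁻¹⁆ ∈ J := by
        rw [_root_.commutatorElement_def]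
        exact J.mul_mem ((mem_normalizer_iff.1 (hQ2 hq'') _).1 hb') (J.inv_mem hb')
      have e : q * ⁅a, b⁆ * q⁻¹ = a * ⁅q', q * b * q⁻¹⁆ * a⁻¹ * ⁅a, q * b * q⁻¹⁆ := by
        simp only [_root_.commutatorElement_def, hq'def]; group
      rw [e]
      exact mul_mem (mul_mem (mul_mem (mem_sup_left ha) (mem_sup_right hc)) (inv_mem (mem_sup_left ha)))
        (mem_sup_left (hKJ.le (commutator_mem_commutator ha hb')))
    exact hle hk
  -- odd elements of `K ⊔ J` lie in `K`
  have hodd : ∀ x ∈ K ⊔ J, Odd (orderOf x) → x ∈ K := by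
    intro x hx ho
    set X := K ⊔ J with hX
    haveI : (K.subgroupOf X).Normal := normal_subgroupOf_of_le_normalizer (sup_le le_normalizer hJK)
    set f := QuotientGroup.mk' (K.subgroupOf X)
    obtain ⟨k, hk, j, hj, hkj⟩ : (x : G) ∈ ((K : Set G) * (J : Set G)) := by
      have h2 : ((K ⊔ J : Subgroup G) : Set G) = (K : Set G) * (J : Set G) :=
        coe_mul_of_right_le_normalizer_left K J hJK
      rw [← h2]; exact hx
    set jX : ↥X := ⟨j, mem_sup_right hj⟩
    set kX : ↥X := ⟨k, mem_sup_left hk⟩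
    set xX : ↥X := ⟨x, hx⟩
    have he : f xX = f jX := by
      rw [show xX = kX * jX from Subtype.ext hkj.symm, map_mul,
        show f kX = 1 from (QuotientGroup.eq_one_iff kX).2 hk, one_mul]
    obtain ⟨n, hn⟩ := hJ ⟨j, hj⟩
    have h1 : f xX ^ 2 ^ n = 1 := by
      rw [he, ← map_pow, show jX ^ 2 ^ n = 1 from Subtype.ext (congrArg Subtype.val hn : j ^ 2 ^ n = 1), map_one]
    have h2 : f xX ^ orderOf x = 1 := by
      rw [← map_pow, show xX ^ orderOf x = 1 from Subtype.ext (pow_orderOf_eq_one x), map_one]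
    have h3 := pow_gcd_eq_one.2 ⟨h1, h2⟩
    rw [(Nat.coprime_two_left.2 ho).pow_left n, pow_one] at h3
    exact (QuotientGroup.eq_one_iff xX).1 h3
  refine FStarAction.le_normalizer_of_conj fun q hq k hk => ?_
  rw [← hgen] at hk
  have hle : Subgroup.closure {g : G | g ∈ K ∧ Odd (orderOf g)} ≤ K.comap (MulAut.conj q).toMonoidHom := by
    refine (closure_le _).2 fun a ha => ?_
    refine hodd _ (hconj q hq a ha.1) ?_
    show Odd (orderOf (q * a * q⁻¹))
    rw [show orderOf (q * a * q⁻¹) = orderOf a from MulEquiv.orderOf_eq (MulAut.conj q) a]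
    exact ha.2
  exact hle hk

end Cfsg.Lib.JCompNorm
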