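import Mathlib
import Cfsg.Agent.Lib.PLocal.KInfTransfer
import Cfsg.Agent.Lib.PLocal.StrongControlInd
import Cfsg.Agent.Lib.PLocal.TransferDegree

/-!
In a group with stable sections both K-infinity subgroups of a Sylow subgroup control strong fusion.
-/

set_option autoImplicit false
set_option linter.unusedVariables false
set_option linter.unusedSectionVars false
set_option linter.style.haveILetI false

open scoped commutatorElement

namespace Cfsg.Lib.PLocal.KInfSmall

open Cfsg Cfsg.Lib.PLocal

universe u

variable {p : ℕ} [Fact p.Prime]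

/-- Normalizer stability is invariant under isomorphism. -/
theorem normalizerPStable_of_equiv {A B : Type u} [Group A] [Finite A] [Group B] [Finite B] (e : A ≃* B)
    (h : IsNormalizerPStable p A) : IsNormalizerPStable p B := by
  intro P hP g hg hq
  set P' := P.map e.symm.toMonoidHom
  have hP'e : P'.map e.toMonoidHom = P := by
    rw [Subgroup.map_map, show e.toMonoidHom.comp e.symm.toMonoidHom = MonoidHom.id B from
      MonoidHom.ext fun x => e.apply_symm_apply x]
    exact Subgroup.map_id P
  have hNe : (Subgroup.normalizer (P' : Set A)).map e.toMonoidHom = Subgroup.normalizer (P : Set B) := by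
    rw [← hP'e]; exact Subgroup.map_equiv_normalizer_eq P' e
  have hg' : e.symm g ∈ Subgroup.normalizer (P' : Set A) := by
    obtain ⟨x, hx, hxe⟩ := hNe.ge hg
    rw [← hxe]
    show e.symm (e x) ∈ _
    rwa [e.symm_apply_apply]
  have hq' : ⁅⁅P', Subgroup.zpowers (e.symm g)⁆, Subgroup.zpowers (e.symm g)⁆ = ⊥ := by
    have h1 := congrArg (Subgroup.map e.symm.toMonoidHom) hq
    rw [Subgroup.map_commutator, Subgroup.map_commutator, MonoidHom.map_zpowers, Subgroup.map_bot] at h1
    exact h1
  have hmem := h P' (hP.map _) (e.symm g) hg' hq'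
  let f : ↥(Subgroup.normalizer (P' : Set A)) →* ↥(Subgroup.normalizer (P : Set B)) :=
    (e.toMonoidHom.comp (Subgroup.normalizer (P' : Set A)).subtype).codRestrict _ fun x => hNe.le ⟨x, x.2, rfl⟩
  let F := QuotientGroup.map ((Subgroup.centralizer (P' : Set A)).subgroupOf (Subgroup.normalizer (P' : Set A)))
    ((Subgroup.centralizer (P : Set B)).subgroupOf (Subgroup.normalizer (P : Set B))) f (fun x hx => by
      refine Subgroup.mem_centralizer_iff.2 fun y hy => ?_
      obtain ⟨z, hz, rfl⟩ := hP'e.ge hy
      show e z * e (x : A) = e (x : A) * e z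
      rw [← map_mul, ← map_mul]
      exact congrArg e (Subgroup.mem_centralizer_iff.1 hx z hz))
  have hF : Function.Surjective F := by
    intro y
    obtain ⟨y, rfl⟩ := QuotientGroup.mk'_surjective _ y
    obtain ⟨x, hx, hxe⟩ := hNe.ge y.2
    exact ⟨QuotientGroup.mk ⟨x, hx⟩, congrArg QuotientGroup.mk (Subtype.ext hxe)⟩
  refine Solv.map_pCore_le (f := F) p hF ⟨_, hmem, ?_⟩
  exact congrArg QuotientGroup.mk (Subtype.ext (e.apply_symm_apply g))

/-- All sections are stable. -/
def StableSections (p : ℕ) (G : Type u) [Group G] : Prop :=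
  ∀ (L : Type u) [Group L] [Finite L], Involves L G → IsNormalizerPStable p L

theorem stableSections_of_sections {G : Type u} [Group G] [Finite G]
    (h : ∀ (K R : Subgroup G) [hR : (R.subgroupOf K).Normal], IsNormalizerPStable p (↥K ⧸ R.subgroupOf K)) :
    StableSections p G := fun L _ _ hL => by
  obtain ⟨K, R, hR, ⟨e⟩⟩ := hL
  exact normalizerPStable_of_equiv e (h K R)

/-- The operation on subgroups given by a functor on groups. -/
def kOp (W : ∀ (Q : Type u) [Group Q], Subgroup Q) : ∀ (G : Type u) [Group G], Subgroup G → Subgroup G :=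
  fun G _ D => inducedFunctor W D

theorem isSubOp_kOp {W : ∀ (Q : Type u) [Group Q], Subgroup Q} (hW : IsCharPFunctor.{u} p W)
    (he : ∀ {X Y : Type u} [Group X] [Group Y] (e : X ≃* Y), (W X).map e.toMonoidHom = W Y) :
    IsSubOp p (kOp W) where
  le _ _ _ D := Subgroup.map_subtype_le _
  map H _ _ G _ f D hf := by
    let f' : D →* D.map f := (f.comp D.subtype).codRestrict (D.map f) fun x => ⟨x, x.2, rfl⟩
    have hbij : Function.Bijective f' := by
      refine ⟨fun x y h => Subtype.ext (hf x.2 y.2 (congrArg Subtype.val h)), ?_⟩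
      rintro ⟨_, x, hx, rfl⟩
      exact ⟨⟨x, hx⟩, rfl⟩
    show (W ↥(D.map f)).map (D.map f).subtype = ((W ↥D).map D.subtype).map f
    rw [← he (MulEquiv.ofBijective f' hbij), Subgroup.map_map, Subgroup.map_map]
    rfl
  ne_bot _ _ _ D hD hne := TransferControl.induced_ne_bot hW D hD hne

/-- Control of strong fusion by either K-infinity subgroup in groups with stable sections. -/
theorem ctrl_kInf {W : ∀ (Q : Type u) [Group Q], Subgroup Q} (hW : IsCharPFunctor.{u} p W)
    (he : ∀ {X Y : Type u} [Group X] [Group Y] (e : X ≃* Y), (W X).map e.toMonoidHom = W Y)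
    (hcase : ∀ (L : Type u) [Group L] [Finite L] (D : Subgroup L),
      (inducedFunctor kInfLower D).Normal ∧ (inducedFunctor kInfUpper D).Normal → (inducedFunctor W D).Normal)
    {G : Type u} [Group G] [Finite G] (hst : StableSections p G) (S : Sylow p G) :
    ControlsStrongFusion p (inducedFunctor W (S : Subgroup G)) := by
  refine ⟨S, Subgroup.map_subtype_le _, fun A hA => ⟨hA, fun g hg => ?_⟩⟩
  exact ctrl_of_class (isSubOp_kOp hW he) (fun X _ => StableSections p X)
    (fun X _ _ h H L _ _ hL => h L (TransferControl.involves_trans hL (TransferControl.involves_subgroup H)))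
    (fun X _ _ h N _ L _ _ hL => h L (TransferControl.involves_trans hL (TransferControl.involves_quotient N)))
    (fun X _ _ h hc S D hD => hcase X D (normal_of_stable_closed S D hD hc
      fun N _ => h (X ⧸ N) (TransferControl.involves_quotient N)))
    (Nat.card G) G rfl hst S (S : Subgroup G) ⟨le_rfl, fun _ _ _ h => h⟩ g A hA fun a ha => hg ⟨a, ha, rfl⟩

theorem ctrl_kInfLower {G : Type u} [Group G] [Finite G] (hst : StableSections p G) (S : Sylow p G) :
    ControlsStrongFusion p (inducedFunctor kInfLower (S : Subgroup G)) :=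
  ctrl_kInf (isCharPFunctor_lower p) (fun e => KInf.kInfLower_equiv e) (fun _ _ _ _ h => h.1) hst S

theorem ctrl_kInfUpper {G : Type u} [Group G] [Finite G] (hst : StableSections p G) (S : Sylow p G) :
    ControlsStrongFusion p (inducedFunctor kInfUpper (S : Subgroup G)) :=
  ctrl_kInf (isCharPFunctor_upper p) (fun e => KInf.kInfUpper_equiv e) (fun _ _ _ _ h => h.2) hst S

/-- Control by one subgroup gives control by the family of one functor. -/
theorem family_of_controls {W : ∀ (Q : Type u) [Group Q], Subgroup Q} (hW : IsCharPFunctor.{u} p W) {G : Type u}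
    [Group G] [Finite G] (S : Sylow p G)
    (h : ∀ (A : Set G), A ⊆ (S : Subgroup G) → ∀ g : G, (fun a => g * a * g⁻¹) '' A ⊆ (S : Subgroup G) →
      ∃ x ∈ Subgroup.normalizer ((inducedFunctor W (S : Subgroup G) : Subgroup G) : Set G),
        ∀ a ∈ A, g * a * g⁻¹ = x * a * x⁻¹) :
    FamilyControlsStrongFusionIn p ((fun W => inducedFunctor (G := G) W) '' ({W} : Set (∀ (Q : Type u) [Group Q], Subgroup Q))) ⊤ := by
  refine ⟨(S : Subgroup G), le_top, S.isPGroup', by rw [Subgroup.relIndex_top_right]; exact S.not_dvd_index,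
    fun A g _ hA hgA => ?_⟩
  obtain ⟨x, hx, hxa⟩ := h A hA g hgA
  refine ⟨1, ![1, x], rfl, fun i => ⟨_, ⟨W, rfl, rfl⟩, ?_⟩, fun i => ?_, fun a ha => (hxa a ha).symm⟩
  · fin_cases i
    refine ⟨Subgroup.mem_top _, ?_⟩
    show x * (1 : G)⁻¹ ∈ _
    rwa [inv_one, mul_one]
  · rintro _ ⟨a, ha, rfl⟩
    fin_cases i
    · show (1 : G) * a * (1 : G)⁻¹ ∈ _
      rw [one_mul, inv_one, mul_one]; exact hA ha
    · show x * a * x⁻¹ ∈ _
      rw [← hxa a ha]; exact hgA ⟨a, ha, rfl⟩

/-- Control of strong fusion by the value at one Sylow subgroup gives control by the family. -/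
theorem family_of_controlsStrongFusion {W : ∀ (Q : Type u) [Group Q], Subgroup Q} (hW : IsCharPFunctor.{u} p W)
    {G : Type u} [Group G] [Finite G] (S : Sylow p G)
    (h : ControlsStrongFusion p (inducedFunctor W (S : Subgroup G))) :
    FamilyControlsStrongFusionIn p ((fun W => inducedFunctor (G := G) W) '' ({W} : Set (∀ (Q : Type u) [Group Q], Subgroup Q))) ⊤ := by
  obtain ⟨T, hUT, hfus⟩ := h
  set U := inducedFunctor W (S : Subgroup G) with hU
  set N := Subgroup.normalizer (U : Set G)
  have hSN : (S : Subgroup G) ≤ N :=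
    Subgroup.le_normalizer.trans (TransferControl.normalizer_le hW _ S.isPGroup')
  have hTN : (T : Subgroup G) ≤ N := by
    intro t ht
    refine Subgroup.mem_normalizer_fintype fun u hu => ?_
    obtain ⟨x, hx, hxa⟩ := (hfus (U : Set G) hUT).2 t (by
      rintro _ ⟨u, hu, rfl⟩
      exact mul_mem (mul_mem ht (hUT hu)) (inv_mem ht))
    rw [hxa u hu]
    exact (Subgroup.mem_normalizer_iff.1 hx u).1 hu
  obtain ⟨c, hc⟩ := MulAction.exists_smul_eq N (S.subtype hSN) (T.subtype hTN)
  have hcT : (S : Subgroup G).map (MulAut.conj (c : G)).toMonoidHom = T := by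
    refine Subgroup.eq_of_le_of_card_ge ?_ ?_
    · rintro _ ⟨s, hs, rfl⟩
      have h1 : c * ⟨s, hSN hs⟩ * c⁻¹ ∈ ((T.subtype hTN : Sylow p N) : Subgroup N) := by
        rw [← hc, Sylow.coe_subgroup_smul]
        exact Subgroup.smul_mem_pointwise_smul _ (MulAut.conj c) _
          (show (⟨s, hSN hs⟩ : N) ∈ ((S.subtype hSN : Sylow p N) : Subgroup N) from hs)
      exact h1
    · rw [Subgroup.card_map_of_injective (MulAut.conj (c : G)).injective]
      exact le_of_eq (Nat.card_congr (Sylow.equiv T S).toEquiv)
  refine family_of_controls hW T fun A hA g hg => ?_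
  rw [← hcT, TransferControl.induced_map hW _ _ S.isPGroup' (Function.Injective.injOn (MulAut.conj (c : G)).injective),
    WeakClosure.map_conj_eq_of_mem_normalizer c.2]
  exact (hfus A hA).2 g hg

end Cfsg.Lib.PLocal.KInfSmall
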