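import Mathlib
import Cfsg.Agent.Lib.PLocal.NarrowOdd

/-!
`p`-groups of rank two with an irreducible automorphism of prime order.
-/

set_option autoImplicit false
set_option maxHeartbeats 800000

namespace Cfsg.Lib.RankTwoIrred

open Subgroup Cfsg.Lib.NarrowOdd
open scoped commutatorElement

universe u

variable {p q : ℕ} [hp : Fact p.Prime]

theorem fixed_of_line {R : Type u} [Group R] (hq : q.Prime) (hq1 : ¬ q ∣ p - 1) (a : MulAut R)
    (haq : a ^ q = 1) {w : R} (hw : w ^ p = 1) (hl : a w ∈ zpowers w) : a w = w := by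
  rcases eq_or_ne w 1 with rfl | hw1
  · rw [map_one]
  have ho : orderOf w = p := orderOf_eq_prime hw hw1
  have hf : IsOfFinOrder w := orderOf_pos_iff.1 (ho ▸ hp.out.pos)
  obtain ⟨i, hi⟩ := (hf.mem_powers_iff_mem_zpowers).2 hl
  have hi' : w ^ i = a w := hi
  have key : ∀ k : ℕ, (a ^ k) w = w ^ i ^ k := by
    intro k
    induction k with
    | zero => simp
    | succ k ih => rw [pow_succ', MulAut.mul_apply, ih, map_pow, ← hi', ← pow_mul, ← pow_succ']
  have h1 : w ^ i ^ q = w ^ 1 := by rw [← key, haq, pow_one]; rfl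
  rw [pow_eq_pow_iff_modEq, ho, ← ZMod.natCast_eq_natCast_iff, Nat.cast_pow, Nat.cast_one] at h1
  have h0 : (i : ZMod p) ≠ 0 := fun h => by
    rw [h, zero_pow hq.ne_zero] at h1
    exact zero_ne_one h1
  have h2 : (i : ZMod p) ^ 1 = 1 := by
    have := pow_gcd_eq_one.2 ⟨h1, ZMod.pow_card_sub_one_eq_one h0⟩
    rwa [(hq.coprime_iff_not_dvd.2 hq1).gcd_eq_one] at this
  rw [pow_one, ← Nat.cast_one, ZMod.natCast_eq_natCast_iff] at h2
  have : w ^ i = w ^ 1 := by rwa [pow_eq_pow_iff_modEq, ho]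
  rw [← hi', this, pow_one]

theorem exists_root {R : Type u} [Group R] (hq : q.Prime) (hq1 : ¬ q ∣ p - 1) (a : MulAut R)
    (haq : a ^ q = 1) : ∃ b : MulAut R, a = b ^ (p - 1) := by
  obtain ⟨m, hm⟩ := exists_pow_eq_self_of_coprime (n := p - 1) (x := a)
    ((hq.coprime_iff_not_dvd.2 hq1).symm.coprime_dvd_right (orderOf_dvd_of_pow_eq_one haq))
  exact ⟨a ^ m, by rw [← pow_mul, mul_comm, pow_mul, hm]⟩

theorem fix_section {R : Type u} [Group R] [Finite R] (hR : IsPGroup p R) (hq : q.Prime)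
    (hq1 : ¬ q ∣ p - 1) (hqp : q ≠ p) (a : MulAut R) (haq : a ^ q = 1) (A B : Subgroup R)
    [A.Characteristic] [B.Characteristic] (hd : A.relIndex B ∣ p) (hfix : ∀ x ∈ A, a x = x) :
    ∀ x ∈ B, a x = x := by
  intro x hx
  exact Cfsg.Lib.Transfer.fixed_of_translate hR a.toMonoidHom
    ((Nat.coprime_primes hq hp.out).2 hqp)
    (fun y => by rw [MulEquiv.coe_toMonoidHom, RankTwoOdd.iterate_aut, haq]; rfl)
    (z := x⁻¹ * a x) (by simp)
    (hfix _ (section_action A B hd a (Or.inr (exists_root hq hq1 a haq)) x hx))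

theorem commutator_le_of_quotient {R : Type u} [Group R] (N : Subgroup R) [N.Normal]
    (h : ∀ a b : R ⧸ N, a * b = b * a) (x y : R) : ⁅x, y⁆ ∈ N := by
  rw [← QuotientGroup.eq_one_iff]
  show QuotientGroup.mk' N ⁅x, y⁆ = 1
  rw [map_commutatorElement]
  exact commutatorElement_eq_one_iff_mul_comm.2 (h _ _)

omit hp in
theorem commutator_pow {R : Type u} [Group R] {x y : R} (h : ⁅x, y⁆ ∈ center R) (k : ℕ) :
    ⁅x ^ k, y⁆ = ⁅x, y⁆ ^ k := by
  induction k with
  | zero => simp [commutatorElement_def]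
  | succ k ih => rw [pow_succ, mul_commutator h, ih, ← pow_succ]

theorem mul_pow_of_central {R : Type u} [Group R] (hp2 : p ≠ 2) {x y : R}
    (hc : ⁅y⁻¹, x⁻¹⁆ ∈ center R) (hcp : ⁅y⁻¹, x⁻¹⁆ ^ p = 1) : (x * y) ^ p = x ^ p * y ^ p := by
  obtain ⟨j, hj⟩ := Nat.Prime.dvd_choose_self hp.out (k := 2) two_ne_zero
    (lt_of_le_of_ne hp.out.two_le (Ne.symm hp2))
  have hyx : y * x = x * y * ⁅y⁻¹, x⁻¹⁆ := by rw [commutatorElement_def]; group
  rw [Cfsg.Lib.Transfer.mul_pow_class_two hyx (mem_center_iff.1 hc x).symm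
    (mem_center_iff.1 hc y).symm, hj, pow_mul, hcp, one_pow, mul_one]

theorem omZ_card_le {R : Type u} [Group R] (hr : Cfsg.PRankLE p 2 R) :
    Nat.card ↥(omZ p R) ≤ p ^ 2 := hr _ omZ_elem.1 omZ_elem.2

theorem mem_omZ_of_card {R : Type u} [Group R] [Finite R] (hr : Cfsg.PRankLE p 2 R)
    (h : p ^ 2 ≤ Nat.card ↥(omZ p R)) {x : R} (hx : x ^ p = 1) : x ∈ omZ p R := by
  have hB := elem_closure (p := p) (s := insert x (omZ p R : Set R)) ?_ ?_
  · rw [eq_of_le_of_card_ge (show omZ p R ≤ closure (insert x (omZ p R : Set R)) from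
      fun z hz => subset_closure (Or.inr hz)) (le_trans (hr _ hB.1 hB.2) h)]
    exact subset_closure (Or.inl rfl)
  · rintro a (rfl | ha) b (rfl | hb)
    · rfl
    · exact mem_center_iff.1 (omZ_le_center hb) a
    · exact (mem_center_iff.1 (omZ_le_center ha) b).symm
    · exact mem_center_iff.1 (omZ_le_center hb) a
  · rintro a (rfl | ha)
    · exact hx
    · exact (mem_omZ.1 ha).2

/-- A fixed-point-free automorphism of prime order `q ∤ p - 1` of a rank two group forces commutativity. -/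
theorem fpf_abelian (hp2 : p ≠ 2) (hq : q.Prime) (hq1 : ¬ q ∣ p - 1) (hqp : q ≠ p) :
    ∀ (n : ℕ) (R : Type u) [Group R] [Finite R], Nat.card R = n → IsPGroup p R →
      Cfsg.PRankLE p 2 R → ∀ a : MulAut R, a ^ q = 1 → (∀ x, a x = x → x = 1) →
        ∀ x y : R, x * y = y * x := by
  intro n
  induction n using Nat.strong_induction_on with
  | _ n ih =>
  intro R _ _ hn hR hr a haq hfpf
  by_contra hno
  push Not at hno
  obtain ⟨x, y, hxy⟩ := hno
  set Z := omZ p R
  haveI hZchar : Z.Characteristic := omZ_characteristic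
  have hne : (⊥ : Subgroup R) ≠ ⊤ := fun h => hxy (by
    rw [mem_bot.1 (h ▸ mem_top x : x ∈ (⊥ : Subgroup R)), one_mul, mul_one])
  have hbot : Z ≠ ⊥ := omZ_ne_bot hR hne
  have hnfix : ∀ C : Subgroup R, C.Characteristic → Nat.card C ∣ p → C = ⊥ := by
    intro C hC hd
    haveI := hC
    refine (Subgroup.eq_bot_iff_forall _).2 fun z hz => hfpf z ?_
    exact fix_section hR hq hq1 hqp a haq ⊥ C (by rwa [relIndex_bot_left])
      (fun w hw => by rw [mem_bot.1 hw, map_one]) z hz
  have hZ2 : Nat.card Z = p ^ 2 := by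
    refine le_antisymm (omZ_card_le hr) ?_
    obtain ⟨i, hi⟩ := IsPGroup.iff_card.1 (hR.to_subgroup Z)
    rw [hi]
    refine Nat.pow_le_pow_right hp.out.pos ?_
    by_contra hi2
    refine hbot (hnfix Z hZchar ?_)
    rw [hi]
    exact (pow_dvd_pow p (show i ≤ 1 by omega)).trans (pow_one p).dvd
  have hΩ : ∀ z : R, z ^ p = 1 → z ∈ Z := fun z hz => mem_omZ_of_card hr hZ2.ge hz
  -- the quotient by `Z`
  have hmap : ∀ e : MulAut R, Z.map e.toMonoidHom = Z := fun e =>
    characteristic_iff_map_eq.1 hZchar e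
  let b : MulAut (R ⧸ Z) := QuotientGroup.congr Z Z a (hmap a)
  have hb : ∀ g : R, b (g : R ⧸ Z) = ((a g : R) : R ⧸ Z) := fun g => rfl
  have hbit : ∀ (k : ℕ) (g : R), (b ^ k) (g : R ⧸ Z) = (((a ^ k) g : R) : R ⧸ Z) := by
    intro k
    induction k with
    | zero => intro g; rfl
    | succ k ihk => intro g; rw [pow_succ', MulAut.mul_apply, ihk, hb, pow_succ', MulAut.mul_apply]
  have hbq : b ^ q = 1 := MulEquiv.ext fun g => by
    obtain ⟨g, rfl⟩ := QuotientGroup.mk_surjective g
    rw [hbit, haq]; rfl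
  have hbf : ∀ g : R ⧸ Z, b g = g → g = 1 := by
    intro g hg
    obtain ⟨g, rfl⟩ := QuotientGroup.mk_surjective g
    rw [hb] at hg
    have hz : g⁻¹ * a g ∈ Z := QuotientGroup.eq.1 hg.symm
    let d : Z → Z := fun w => ⟨(w : R)⁻¹ * a w,
      Z.mul_mem (Z.inv_mem w.2) (Cfsg.Lib.Transfer.map_mem_of_characteristic a w.2)⟩
    have hd : Function.Injective d := by
      intro v w hvw
      have h1 : (v : R)⁻¹ * a v = (w : R)⁻¹ * a w := congrArg Subtype.val hvw
      have h2 : a ((v : R) * (w : R)⁻¹) = (v : R) * (w : R)⁻¹ := by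
        rw [map_mul, map_inv, show a (v : R) = v * ((v : R)⁻¹ * a v) by group, h1]
        group
      exact Subtype.ext (mul_inv_eq_one.1 (hfpf _ h2))
    obtain ⟨w, hw⟩ := Finite.surjective_of_injective hd ⟨(g⁻¹ * a g)⁻¹, Z.inv_mem hz⟩
    have hw' : (w : R)⁻¹ * a w = (g⁻¹ * a g)⁻¹ := congrArg Subtype.val hw
    have h2 : a (g * w) = g * w := by
      rw [map_mul, show a (w : R) = w * ((w : R)⁻¹ * a w) by group, hw', mul_inv_rev, inv_inv,
        ← mul_assoc, ← mul_assoc, (mem_center_iff.1 (omZ_le_center w.2) (a g)), mul_inv_cancel_right]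
      exact (mem_center_iff.1 (omZ_le_center w.2) g).symm
    have h3 := hfpf _ h2
    rw [QuotientGroup.eq_one_iff, eq_inv_of_mul_eq_one_left h3]
    exact Z.inv_mem w.2
  have hrq : Cfsg.PRankLE p 2 (R ⧸ Z) := by
    intro A hA hAp
    haveI := hA
    set U := A.comap (QuotientGroup.mk' Z) with hU
    have hcU : ∀ u v : R, u ∈ U → v ∈ U → ⁅u, v⁆ ∈ Z := fun u v hu hv => by
      rw [← QuotientGroup.eq_one_iff]
      show QuotientGroup.mk' Z ⁅u, v⁆ = 1
      rw [map_commutatorElement]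
      exact commutatorElement_eq_one_iff_mul_comm.2
        (congrArg Subtype.val (mul_comm' (⟨_, hu⟩ : A) ⟨_, hv⟩))
    have hpU : ∀ u : U, (u : R) ^ p ∈ Z := fun u => by
      rw [← QuotientGroup.eq_one_iff, QuotientGroup.mk_pow]
      exact hAp _ u.2
    let π : U →* R := MonoidHom.mk' (fun u => (u : R) ^ p) fun u v => by
      have hc := hcU _ _ (U.inv_mem v.2) (U.inv_mem u.2)
      exact mul_pow_of_central hp2 (omZ_le_center hc) (mem_omZ.1 hc).2
    have h1 := π.ker.card_mul_index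
    rw [index_ker] at h1
    have h2 : Nat.card π.ker ≤ p ^ 2 := by
      rw [← hZ2, ← card_map_of_injective (K := π.ker) U.subtype_injective]
      exact card_le_of_le (by rintro _ ⟨u, hu, rfl⟩; exact hΩ _ (MonoidHom.mem_ker.1 hu))
    have h3 : Nat.card π.range ≤ p ^ 2 :=
      hZ2 ▸ card_le_of_le (show π.range ≤ Z by rintro _ ⟨u, rfl⟩; exact hpU u)
    have h4 : Nat.card U = p ^ 2 * Nat.card A := by
      have hi : U.index = A.index :=
        index_comap_of_surjective _ (QuotientGroup.mk'_surjective Z)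
      have e1 := U.card_mul_index
      have e2 := A.card_mul_index
      have e3 : Z.index * Nat.card Z = Nat.card R := by rw [mul_comm]; exact Z.card_mul_index
      rw [← index_eq_card] at e2
      refine Nat.eq_of_mul_eq_mul_right (Nat.pos_of_ne_zero A.index_ne_zero_of_finite) ?_
      rw [← hi, e1, hi, mul_assoc, e2, ← hZ2, mul_comm]
      exact e3.symm
    refine Nat.le_of_mul_le_mul_left ?_ (pow_pos hp.out.pos 2)
    rw [← h4, ← h1]
    exact Nat.mul_le_mul h2 h3
  have hlt : Nat.card (R ⧸ Z) < n := by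
    rw [← hn, ← Z.card_mul_index, index_eq_card, hZ2]
    exact lt_mul_of_one_lt_left Nat.card_pos (Nat.one_lt_pow two_ne_zero hp.out.one_lt)
  have hcomm := commutator_le_of_quotient Z
    (ih _ hlt (R ⧸ Z) rfl (hR.to_quotient Z) hrq b hbq hbf)
  have hcc : ∀ u v : R, ⁅u, v⁆ ∈ center R := fun u v => omZ_le_center (hcomm u v)
  -- the `p`-th power map
  let π : R →* R := MonoidHom.mk' (fun u => u ^ p) fun u v =>
    mul_pow_of_central hp2 (hcc _ _) (mem_omZ.1 (hcomm _ _)).2
  have hrange : π.range ≤ center R := by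
    rintro _ ⟨u, rfl⟩
    refine mem_center_iff.2 fun g => (commutatorElement_eq_one_iff_mul_comm.1 ?_).symm
    show ⁅u ^ p, g⁆ = 1
    rw [commutator_pow (hcc u g), (mem_omZ.1 (hcomm u g)).2]
  have hcard : Nat.card R ≤ p * p * Nat.card (center R) := by
    rw [← π.ker.card_mul_index, index_ker, ← pow_two, ← hZ2]
    exact Nat.mul_le_mul (card_le_of_le fun u hu => hΩ u (MonoidHom.mem_ker.1 hu)) (card_le_of_le hrange)
  -- `x`, `y` and the centre generate
  have hxC : x ∉ center R := fun h => hxy (mem_center_iff.1 h y).symm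
  set C₁ := center R ⊔ zpowers x
  have hyC : y ∉ C₁ := fun h =>
    hxy (mem_centralizer_singleton_iff.1
      (commute_of_central_sup (Z := center R) le_rfl (Commute.refl x) h)).symm
  have hC1 : p * Nat.card (center R) ≤ Nat.card C₁ :=
    card_mul_le_of_lt hR (lt_of_le_of_ne le_sup_left fun e => hxC (by
      rw [e]; exact mem_sup_right (mem_zpowers x)))
  have hC2 : C₁ ⊔ zpowers y = ⊤ := by
    refine eq_top_of_le_card _ ?_
    calc Nat.card R ≤ p * p * Nat.card (center R) := hcard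
      _ ≤ p * Nat.card C₁ := by rw [mul_assoc]; exact Nat.mul_le_mul_left p hC1
      _ ≤ _ := card_mul_le_of_lt hR (lt_of_le_of_ne le_sup_left fun e => hyC (by
          rw [e]; exact mem_sup_right (mem_zpowers y)))
  set N := zpowers ⁅x, y⁆
  have hgenN : ∀ (f : R →* R), (f x ∈ N) → (f y ∈ N) → (∀ z ∈ center R, f z ∈ N) →
      ∀ g, f g ∈ N := by
    intro f hx hy hz g
    have : C₁ ⊔ zpowers y ≤ N.comap f :=
      sup_le (sup_le hz (zpowers_le.2 hx)) (zpowers_le.2 hy)
    exact this (hC2 ▸ mem_top g)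
  have hone : ∀ z ∈ center R, ∀ g : R, ⁅g, z⁆ = 1 ∧ ⁅z, g⁆ = 1 := fun z hz g =>
    ⟨commutatorElement_eq_one_iff_mul_comm.2 (mem_center_iff.1 hz g),
      commutatorElement_eq_one_iff_mul_comm.2 (mem_center_iff.1 hz g).symm⟩
  have hcx : ∀ g, ⁅x, g⁆ ∈ N := hgenN (homLeft x (hcc x))
    (by show ⁅x, x⁆ ∈ N; rw [commutatorElement_self]; exact one_mem _)
    (mem_zpowers _) (fun z hz => by show ⁅x, z⁆ ∈ N; rw [(hone z hz x).1]; exact one_mem _)
  have hcy : ∀ g, ⁅y, g⁆ ∈ N := hgenN (homLeft y (hcc y))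
    (by show ⁅y, x⁆ ∈ N; rw [← commutatorElement_inv x y]; exact inv_mem (mem_zpowers _))
    (by show ⁅y, y⁆ ∈ N; rw [commutatorElement_self]; exact one_mem _)
    (fun z hz => by show ⁅y, z⁆ ∈ N; rw [(hone z hz y).1]; exact one_mem _)
  have hall : ∀ u g, ⁅u, g⁆ ∈ N := fun u => hgenN (homLeft u (hcc u))
    (by show ⁅u, x⁆ ∈ N; rw [← commutatorElement_inv x u]; exact inv_mem (hcx u))
    (by show ⁅u, y⁆ ∈ N; rw [← commutatorElement_inv y u]; exact inv_mem (hcy u))
    (fun z hz => by show ⁅u, z⁆ ∈ N; rw [(hone z hz u).1]; exact one_mem _)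
  have hle : commutator R ≤ N := by
    rw [_root_.commutator_def, Subgroup.commutator_le]
    exact fun u _ g _ => hall u g
  have hbot' : commutator R = ⊥ := hnfix _ inferInstance
    ((card_dvd_of_le hle).trans (by
      rw [Nat.card_zpowers]; exact orderOf_dvd_of_pow_eq_one (mem_omZ.1 (hcomm x y)).2))
  refine hxy (commutatorElement_eq_one_iff_mul_comm.1 ?_)
  exact mem_bot.1 (hbot' ▸ commutator_mem_commutator (mem_top x) (mem_top y))

/-- The structure of a non-abelian rank two `p`-group moved completely by an irreducible automorphism. -/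
theorem card_eq_cube {R : Type u} [Group R] [Finite R] (hR : IsPGroup p R) (hp2 : p ≠ 2)
    (hr : Cfsg.PRankLE p 2 R) (hq : q.Prime) (hq1 : ¬ q ∣ p - 1) (hqp : q ≠ p) (a : MulAut R)
    (haq : a ^ q = 1) (hgen : closure {z : R | ∃ g, z = g⁻¹ * a g} = ⊤)
    (hnab : ¬ ∀ x y : R, x * y = y * x) : Nat.card R = p ^ 3 := by
  have hcop : q.Coprime p := (Nat.coprime_primes hq hp.out).2 hqp
  have hit : ∀ x : R, (⇑a)^[q] x = x := fun x => by rw [RankTwoOdd.iterate_aut, haq]; rfl
  have ha1 : a ≠ 1 := by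
    intro h
    refine hnab fun x y => ?_
    have hx : x ∈ (⊥ : Subgroup R) := by
      have : closure {z : R | ∃ g, z = g⁻¹ * a g} ≤ ⊥ := (closure_le _).2 (by
        rintro _ ⟨g, rfl⟩; simp [h])
      exact this (hgen ▸ mem_top x)
    rw [mem_bot.1 hx, one_mul, mul_one]
  have hne : (⊥ : Subgroup R) ≠ ⊤ := fun h => hnab fun x y => by
    rw [mem_bot.1 (h ▸ mem_top x : x ∈ (⊥ : Subgroup R)), one_mul, mul_one]
  set Z := omZ p R
  haveI hZchar : Z.Characteristic := omZ_characteristic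
  obtain ⟨i, hi⟩ := IsPGroup.iff_card.1 (hR.to_subgroup Z)
  have hi2 : i ≤ 2 := (Nat.pow_le_pow_iff_right hp.out.one_lt).1 (hi ▸ omZ_card_le hr)
  have hi0 : i ≠ 0 := fun h => omZ_ne_bot hR hne (card_eq_one.1 (by rw [hi, h, pow_zero]))
  rcases (show i = 2 ∨ i = 1 by omega) with rfl | rfl
  · exfalso
    have hΩ : ∀ z : R, z ^ p = 1 → z ∈ Z := fun z hz => mem_omZ_of_card hr hi.ge hz
    refine hnab (fpf_abelian hp2 hq hq1 hqp _ R rfl hR hr a haq fun x hx => ?_)
    by_contra hx1
    obtain ⟨k, hk⟩ := hR x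
    have hpo : p ∣ orderOf x := by
      obtain ⟨j, -, hj⟩ := (Nat.dvd_prime_pow hp.out).1 (orderOf_dvd_of_pow_eq_one hk)
      rcases j with _ | j
      · exact absurd (orderOf_eq_one_iff.1 (by simpa using hj)) hx1
      · rw [hj]; exact dvd_pow_self p j.succ_ne_zero
    set u := x ^ (orderOf x / p)
    have huo : orderOf u = p := orderOf_pow_orderOf_div (orderOf_pos x).ne' hpo
    have hu : a u = u := by rw [map_pow, hx]
    have huZ : u ∈ Z := hΩ u (huo ▸ pow_orderOf_eq_one u)
    -- `a` is trivial on `Z`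
    let δ : Z →* Z := MonoidHom.mk' (fun w => ⟨(w : R)⁻¹ * a w,
      Z.mul_mem (Z.inv_mem w.2) (Cfsg.Lib.Transfer.map_mem_of_characteristic a w.2)⟩) fun v w =>
      Subtype.ext (by
        show ((v : R) * w)⁻¹ * a (v * w) = (v : R)⁻¹ * a v * ((w : R)⁻¹ * a w)
        rw [map_mul, mul_inv_rev,
          show (w : R)⁻¹ * (v : R)⁻¹ * (a v * a w) = (w : R)⁻¹ * ((v : R)⁻¹ * a v) * a w by group,
          ← mem_center_iff.1 ((center R).inv_mem (omZ_le_center w.2)) ((v : R)⁻¹ * a v), mul_assoc])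
    have h1 := δ.ker.card_mul_index
    rw [index_ker, hi] at h1
    have hpk : p ≤ Nat.card δ.ker := by
      have : zpowers (⟨u, huZ⟩ : Z) ≤ δ.ker :=
        zpowers_le.2 (Subtype.ext (by show u⁻¹ * a u = 1; rw [hu, inv_mul_cancel]))
      have := card_le_of_le this
      rwa [Nat.card_zpowers, orderOf_mk, huo] at this
    have hrp : Nat.card δ.range ≤ p := by
      refine Nat.le_of_mul_le_mul_left ?_ hp.out.pos
      calc p * Nat.card δ.range ≤ Nat.card δ.ker * Nat.card δ.range :=
            Nat.mul_le_mul_right _ hpk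
        _ = p * p := by rw [h1, pow_two]
    have hfix : ∀ w ∈ Z, a w = w := by
      intro w hw
      set z := δ ⟨w, hw⟩ with hz
      refine Cfsg.Lib.Transfer.fixed_of_translate hR a.toMonoidHom hcop hit (z := (z : R))
        (by show a w = w * (w⁻¹ * a w); group) ?_
      show a (z : R) = z
      rcases eq_or_ne z 1 with h | h
      · rw [h, OneMemClass.coe_one, map_one]
      have hzp : (z : R) ^ p = 1 := (mem_omZ.1 z.2).2
      refine fixed_of_line hq hq1 a haq hzp ?_
      have hzo : orderOf (z : R) = p := orderOf_eq_prime hzp fun e => h (Subtype.ext e)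
      have hle : zpowers z = δ.range := eq_of_le_of_card_ge (zpowers_le.2 ⟨_, hz.symm⟩) (by
        rw [Nat.card_zpowers, ← orderOf_coe, hzo]; exact hrp)
      have haw : (⟨a z, Cfsg.Lib.Transfer.map_mem_of_characteristic a z.2⟩ : Z) ∈ δ.range :=
        ⟨⟨a w, Cfsg.Lib.Transfer.map_mem_of_characteristic a hw⟩, Subtype.ext (by
          show (a w)⁻¹ * a (a w) = a (w⁻¹ * a w)
          rw [map_mul, map_inv])⟩
      rw [← hle, mem_zpowers_iff] at haw
      obtain ⟨j, hj⟩ := haw
      exact mem_zpowers_iff.2 ⟨j, by simpa using congrArg Subtype.val hj⟩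
    exact ha1 (MulEquiv.ext (Cfsg.Lib.Transfer.fixed_of_fix_omega hp2 _ R rfl hR a q hcop hit
      fun z hz => hfix z (hΩ z hz)))
  rw [pow_one] at hi
  have hfixZ : ∀ x ∈ Z, a x = x := fix_section hR hq hq1 hqp a haq ⊥ Z
    (by rw [relIndex_bot_left, hi]) (fun w hw => by rw [mem_bot.1 hw, map_one])
  obtain ⟨Q, hQc, hQe, hQcl, hZQ, hQfix⟩ := exists_omega_critical hR hp2
  haveI := hQc
  have hnfix : ¬ ∀ x ∈ Q, a x = x := fun h => ha1 (hQfix a q hcop haq h)
  have hQexp : ∀ x : Q, x ^ p = 1 := fun x => Subtype.ext (by simpa using hQe x x.2)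
  have hrQ : Cfsg.PRankLE p 2 Q := RankTwoOdd.rank_of_injective Q.subtype Q.subtype_injective hr
  have hbnd : ∀ M : Subgroup R, Z ≤ M → M ≤ Q → M.Characteristic → Nat.card M ≤ p ^ 2 →
      ∀ x ∈ M, a x = x := by
    intro M hZM _ hM hMc
    haveI := hM
    refine fix_section hR hq hq1 hqp a haq Z M ?_ hfixZ
    obtain ⟨j, hj⟩ : ∃ j, Z.relIndex M = p ^ j :=
      IsPGroup.iff_card.1 ((hR.to_subgroup M).to_quotient (Z.subgroupOf M))
    have hmul : Z.relIndex M * p = Nat.card M := by
      rw [mul_comm, ← hi, ← relIndex_bot_left Z, relIndex_mul_relIndex _ _ _ bot_le hZM,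
        relIndex_bot_left]
    rw [hj, ← pow_succ] at hmul
    rw [← hmul, Nat.pow_le_pow_iff_right hp.out.one_lt] at hMc
    rw [hj]
    exact (pow_dvd_pow p (show j ≤ 1 by omega)).trans (pow_one p).dvd
  have hQnot : ¬ Nat.card Q ≤ p ^ 2 := fun h => hnfix (hbnd Q hZQ le_rfl hQc h)
  have hQnab : ¬ ∀ u : Q, u ∈ center Q := fun h => hQnot (by
    have := hrQ ⊤ ((le_centralizer_iff_isMulCommutative).1 fun u _ =>
      mem_centralizer_iff.2 fun v _ => mem_center_iff.1 (h u) v) fun u _ => hQexp u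
    rwa [card_top] at this)
  push Not at hQnab
  obtain ⟨x, hx⟩ := hQnab
  have hcQ : Nat.card (center Q) ≤ p := by
    refine Nat.le_of_mul_le_mul_left ?_ hp.out.pos
    have he : Cfsg.IsElementaryAbelian p (closure (insert x (center Q : Set Q))) := by
      refine elem_closure ?_ fun u _ => hQexp u
      rintro u (rfl | hu) v (rfl | hv)
      · rfl
      · exact mem_center_iff.1 hv u
      · exact (mem_center_iff.1 hu v).symm
      · exact mem_center_iff.1 hv u
    calc p * Nat.card (center Q) ≤ Nat.card (closure (insert x (center Q : Set Q))) :=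
          card_mul_le_of_lt (hR.to_subgroup Q) (lt_of_le_of_ne
            (fun z hz => subset_closure (Or.inr hz)) fun e => hx (by
              rw [e]; exact subset_closure (Or.inl rfl)))
      _ ≤ p * p := by rw [← pow_two]; exact hrQ _ he.1 he.2
  have hQ3 : Nat.card Q ≤ p * p * p := by
    have h1 : Nat.card (commutator Q) * Nat.card (Abelianization Q) = Nat.card Q :=
      (commutator Q).card_mul_index
    rw [← h1, mul_comm]
    refine Nat.mul_le_mul ?_ ((card_le_of_le hQcl).trans hcQ)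
    rw [← pow_two]
    exact RankTwoOdd.card_abelianization_le hQexp hQcl hrQ
  -- `R` acts trivially on `Q / Z`
  set M := ⁅Q, (⊤ : Subgroup R)⁆ ⊔ Z
  have hMQ : M ≤ Q := sup_le (commutator_le_left _ _) hZQ
  have hMne : M ≠ Q := by
    intro hM
    haveI := hR.isNilpotent
    obtain ⟨k, hk⟩ := Subgroup.nilpotent_iff_lowerCentralSeries.1 (inferInstance : Group.IsNilpotent R)
    have key : ∀ j, Q ≤ (⊤ : Subgroup R).lowerCentralSeries j ⊔ Z := by
      intro j
      induction j with
      | zero => rw [Subgroup.lowerCentralSeries_zero]; exact le_sup_of_le_left le_top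
      | succ j ihj =>
        refine hM.ge.trans (sup_le ?_ le_sup_right)
        refine le_trans (commutator_mono ihj le_rfl) (le_trans ?_ le_sup_left)
        rw [Subgroup.lowerCentralSeries_succ, Subgroup.commutator_le]
        intro u hu g _
        haveI : Z.Normal := inferInstance
        obtain ⟨v, hv, z, hz, rfl⟩ := mem_sup_of_normal_right.1 hu
        rw [mul_commutator ((commutatorElement_eq_one_iff_mul_comm.2
          (mem_center_iff.1 (omZ_le_center hz) g).symm) ▸ one_mem _),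
          commutatorElement_eq_one_iff_mul_comm.2 (mem_center_iff.1 (omZ_le_center hz) g).symm,
          mul_one]
        exact commutator_mem_commutator hv (mem_top g)
    refine hQnot ((card_le_of_le (show Q ≤ Z from ?_)).trans
      (hi ▸ Nat.le_self_pow two_ne_zero p))
    have := key k
    rwa [hk, bot_sup_eq] at this
  haveI hMc : M.Characteristic := by
    haveI : (⁅Q, (⊤ : Subgroup R)⁆).Characteristic := commutator_characteristic _ _
    refine characteristic_iff_map_eq.2 fun φ => ?_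
    rw [Subgroup.map_sup, characteristic_iff_map_eq.1 inferInstance φ,
      characteristic_iff_map_eq.1 hZchar φ]
  have hMc2 : Nat.card M * p ≤ p * p * p := by
    rw [mul_comm]
    exact (card_mul_le_of_lt hR (lt_of_le_of_ne hMQ hMne)).trans hQ3
  have hMle : M ≤ Z := by
    have hM2 : Nat.card M ≤ p * p := Nat.le_of_mul_le_mul_right hMc2 hp.out.pos
    by_contra hMZ
    have hM2' : p * p ≤ Nat.card M := by
      have := card_mul_le_of_lt hR (lt_of_le_of_ne (le_sup_right : Z ≤ M) fun e => hMZ e.ge)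
      rwa [hi] at this
    refine hnfix (fix_section hR hq hq1 hqp a haq M Q ?_
      (hbnd M le_sup_right hMQ hMc (by rw [pow_two]; exact hM2)))
    obtain ⟨j, hj⟩ : ∃ j, M.relIndex Q = p ^ j :=
      IsPGroup.iff_card.1 ((hR.to_subgroup Q).to_quotient (M.subgroupOf Q))
    have hmul : M.relIndex Q * Nat.card M = Nat.card Q := by
      rw [mul_comm, ← relIndex_bot_left M, relIndex_mul_relIndex _ _ _ bot_le hMQ, relIndex_bot_left]
    have h1 : M.relIndex Q ≤ p := by
      refine Nat.le_of_mul_le_mul_right ?_ (Nat.mul_pos hp.out.pos hp.out.pos)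
      calc M.relIndex Q * (p * p) ≤ M.relIndex Q * Nat.card M := Nat.mul_le_mul_left _ hM2'
        _ ≤ p * (p * p) := by rw [hmul, ← mul_assoc]; exact hQ3
    rw [hj] at h1 ⊢
    have : j ≤ 1 := (Nat.pow_le_pow_iff_right hp.out.one_lt).1 (h1.trans (pow_one p).ge)
    exact (pow_dvd_pow p this).trans (pow_one p).dvd
  have hcomQ : ∀ u ∈ Q, ∀ g, ⁅u, g⁆ ∈ Z := fun u hu g =>
    hMle (mem_sup_left (commutator_mem_commutator hu (mem_top g)))
  -- `R = Q C(Q)`
  obtain ⟨y, hy⟩ : ∃ y : Q, y * x ≠ x * y := by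
    by_contra hno
    push Not at hno
    exact hx (mem_center_iff.2 hno)
  set D := centralizer (Q : Set R)
  haveI hDc : D.Characteristic := Cfsg.Lib.Transfer.characteristic_of_mem_iff fun φ u hu =>
    Cfsg.Lib.Transfer.map_mem_centralizer φ hu
  have hQD : ∀ u ∈ Q, u ∈ D → u ∈ Z := by
    intro u hu huD
    have hle : Z.subgroupOf Q ≤ center Q := fun v hv => mem_center_iff.2 fun w =>
      Subtype.ext (mem_center_iff.1 (omZ_le_center (mem_subgroupOf.1 hv)) w)
    have heq : Z.subgroupOf Q = center Q := eq_of_le_of_card_ge hle (by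
      rw [Nat.card_congr (subgroupOfEquivOfLe hZQ).toEquiv, hi]; exact hcQ)
    have : (⟨u, hu⟩ : Q) ∈ center Q := mem_center_iff.2 fun w =>
      Subtype.ext (mem_centralizer_iff.1 huD w w.2)
    rw [← heq] at this
    exact this
  set Z1 := Z ⊔ zpowers (x : R)
  have hxZ : (x : R) ∉ Z := fun h => hx (mem_center_iff.2 fun w =>
    Subtype.ext (mem_center_iff.1 (omZ_le_center h) w))
  have hyZ1 : (y : R) ∉ Z1 := fun h => hy (Subtype.ext (mem_centralizer_singleton_iff.1
    (commute_of_central_sup omZ_le_center (Commute.refl (x : R)) h)))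
  have hZ1le : Z1 ≤ Q := sup_le hZQ (zpowers_le.2 x.2)
  have hZ1c : p * p ≤ Nat.card Z1 := by
    have := card_mul_le_of_lt hR (lt_of_le_of_ne (le_sup_left : Z ≤ Z1) fun e => hxZ (by
      rw [e]; exact mem_sup_right (mem_zpowers _)))
    rwa [hi] at this
  have hQgen : Z1 ⊔ zpowers (y : R) = Q := eq_of_le_of_card_ge (sup_le hZ1le (zpowers_le.2 y.2)) (by
    refine hQ3.trans (le_trans ?_ (card_mul_le_of_lt hR (lt_of_le_of_ne (le_sup_left : Z1 ≤ _)
      fun e => hyZ1 (by rw [e]; exact mem_sup_right (mem_zpowers _)))))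
    rw [mul_comm p (Nat.card Z1)]
    exact Nat.mul_le_mul_right _ hZ1c)
  let θ : R →* R × R := (homLeft (x : R) fun g => omZ_le_center (hcomQ x x.2 g)).prod
    (homLeft (y : R) fun g => omZ_le_center (hcomQ y y.2 g))
  have hθker : ∀ g, θ g = 1 → g ∈ D := by
    intro g hg
    have h1 : (x : R) * g = g * x :=
      commutatorElement_eq_one_iff_mul_comm.1 (congrArg Prod.fst hg)
    have h2 : (y : R) * g = g * y :=
      commutatorElement_eq_one_iff_mul_comm.1 (congrArg Prod.snd hg)
    have hle : Q ≤ centralizer {g} := hQgen ▸ sup_le (commute_of_central_sup omZ_le_center h1.symm)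
      (zpowers_le.2 (mem_centralizer_singleton_iff.2 h2))
    exact mem_centralizer_iff.2 fun u hu => mem_centralizer_singleton_iff.1 (hle hu)
  have hdec : ∀ g : R, ∃ u ∈ Q, u⁻¹ * g ∈ D := by
    let θQ : Q →* R × R := θ.comp Q.subtype
    have h1 := θQ.ker.card_mul_index
    rw [index_ker] at h1
    have h2 : Nat.card θQ.ker ≤ p := by
      rw [← hi, ← card_map_of_injective (K := θQ.ker) Q.subtype_injective]
      exact card_le_of_le (by rintro _ ⟨u, hu, rfl⟩; exact hQD u u.2 (hθker _ hu))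
    have h3 : Nat.card θ.range ≤ p * p := by
      refine (card_le_of_le (show θ.range ≤ Z.prod Z from ?_)).trans ?_
      · rintro _ ⟨g, rfl⟩
        exact ⟨hcomQ x x.2 g, hcomQ y y.2 g⟩
      · rw [Nat.card_congr (prodEquiv Z Z).toEquiv, Nat.card_prod, hi]
    have h4 : θQ.range = θ.range := by
      refine eq_of_le_of_card_ge ?_ (h3.trans (Nat.le_of_mul_le_mul_left ?_ hp.out.pos))
      · rintro _ ⟨u, rfl⟩; exact ⟨u, rfl⟩
      · calc p * (p * p) ≤ Nat.card Q := by
              obtain ⟨j, hj⟩ := IsPGroup.iff_card.1 (hR.to_subgroup Q)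
              rw [hj, not_le, Nat.pow_lt_pow_iff_right hp.out.one_lt] at hQnot
              rw [hj, show p * (p * p) = p ^ 3 by ring]
              exact Nat.pow_le_pow_right hp.out.pos hQnot
          _ = Nat.card θQ.ker * Nat.card θQ.range := h1.symm
          _ ≤ p * Nat.card θQ.range := Nat.mul_le_mul_right _ h2
    intro g
    obtain ⟨u, hu⟩ : θ g ∈ θQ.range := h4 ▸ ⟨g, rfl⟩
    refine ⟨u, u.2, hθker _ ?_⟩
    rw [map_mul, map_inv]
    exact inv_mul_eq_one.2 hu
  -- `a` centralizes `C(Q)`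
  have hΩD : ∀ z ∈ D, z ^ p = 1 → z ∈ Z := by
    intro z hzD hzp
    by_contra hzZ
    have hzZ1 : z ∉ Z1 := fun h => hzZ (hQD z (hZ1le h) hzD)
    have hxz : (x : R) * z = z * x := mem_centralizer_iff.1 hzD x x.2
    have he := elem_closure (p := p) (s := insert z (Z1 : Set R)) ?_ ?_
    · have h1 := card_mul_le_of_lt hR (lt_of_le_of_ne
        (show Z1 ≤ closure (insert z (Z1 : Set R)) from fun w hw => subset_closure (Or.inr hw))
        fun e => hzZ1 (by rw [e]; exact subset_closure (Or.inl rfl)))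
      have h2 := (Nat.mul_le_mul_left p hZ1c).trans (h1.trans (hr _ he.1 he.2))
      rw [pow_two] at h2
      nlinarith [hp.out.two_le]
    · have hxx : ∀ w ∈ Z1, w * z = z * w := fun w hw => mem_centralizer_iff.1 hzD w (hZ1le hw)
      have hZ1ab : ∀ u ∈ Z1, ∀ v ∈ Z1, u * v = v * u := by
        intro u hu v hv
        have h1 := mem_centralizer_singleton_iff.1
          (commute_of_central_sup omZ_le_center (Commute.refl (x : R)) hu)
        have hv' := commute_of_central_sup (Z := Z) omZ_le_center (a := u) (b := (x : R))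
          h1 hv
        exact (mem_centralizer_singleton_iff.1 hv').symm
      rintro u (rfl | hu) v (rfl | hv)
      · rfl
      · exact (hxx v hv).symm
      · exact hxx u hu
      · exact hZ1ab u hu v hv
    · rintro u (rfl | hu)
      · exact hzp
      · exact hQe u (hZ1le hu)
  have hDfix : ∀ d ∈ D, a d = d := by
    intro d hd
    have h := Cfsg.Lib.Transfer.fixed_of_fix_omega hp2 _ D rfl (hR.to_subgroup D)
      (RankTwoOdd.resChar D a) q hcop
      (fun w => by rw [RankTwoOdd.iterate_aut, ← map_pow, haq, map_one]; rfl)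
      (fun w hw => Subtype.ext (hfixZ w (hΩD w w.2 (by rw [← SubgroupClass.coe_pow, hw]; rfl))))
      ⟨d, hd⟩
    exact congrArg Subtype.val h
  have hall : (⊤ : Subgroup R) ≤ Q := by
    rw [← hgen, closure_le]
    rintro _ ⟨g, rfl⟩
    obtain ⟨u, hu, hd⟩ := hdec g
    have hg : g = u * (u⁻¹ * g) := by group
    rw [hg, map_mul, hDfix _ hd]
    set d := u⁻¹ * g
    have hw : u⁻¹ * a u ∈ Q :=
      Q.mul_mem (Q.inv_mem hu) (Cfsg.Lib.Transfer.map_mem_of_characteristic a hu)
    rw [show (u * d)⁻¹ * (a u * d) = d⁻¹ * (u⁻¹ * a u * d) by group,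
      mem_centralizer_iff.1 hd _ hw, inv_mul_cancel_left]
    exact hw
  have : Q = ⊤ := top_le_iff.1 hall
  obtain ⟨j, hj⟩ := IsPGroup.iff_card.1 hR
  rw [this, card_top, hj] at hQ3 hQnot
  rw [show p * p * p = p ^ 3 by ring] at hQ3
  rw [not_le, Nat.pow_lt_pow_iff_right hp.out.one_lt] at hQnot
  rw [Nat.pow_le_pow_iff_right hp.out.one_lt] at hQ3
  rw [hj, show j = 3 by omega]

end Cfsg.Lib.RankTwoIrred
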