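import Mathlib
import Cfsg.Agent.Lib.PLocal.RankTwoIrred
import Cfsg.Agent.Lib.Solv.PLengthOneCons

/-!
Odd order groups with narrow Sylow subgroups.
-/

set_option autoImplicit false
set_option maxHeartbeats 800000

namespace Cfsg.Lib.NarrowOdd

open Subgroup Cfsg.Lib.RankTwoOdd
open scoped commutatorElement

universe u

variable {p : ℕ} [hp : Fact p.Prime]

omit hp in
theorem small_congr {R : Type u} {R' : Type u} [Group R] [Group R'] (e : R ≃* R') (h : Small p R) :
    Small p R' := by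
  rcases h with h | ⟨E, hE, hE2, hmax⟩
  · exact Or.inl fun A hA hAp => by
      haveI := hA
      rw [← card_map_of_injective (K := A) (f := e.symm.toMonoidHom) e.symm.injective]
      refine h _ inferInstance ?_
      rintro _ ⟨a, ha, rfl⟩
      rw [← map_pow, hAp a ha, map_one]
  refine Or.inr ⟨E.map e.toMonoidHom, ⟨?_, ?_⟩, ?_, fun B hB hle => ?_⟩
  · haveI := hE.1
    infer_instance
  · rintro _ ⟨a, ha, rfl⟩
    rw [← map_pow, hE.2 a ha, map_one]
  · rw [card_map_of_injective (K := E) (f := e.toMonoidHom) e.injective, hE2]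
  · haveI := hB.1
    have h1 := hmax (B.map e.symm.toMonoidHom) ⟨inferInstance, by
      rintro _ ⟨a, ha, rfl⟩
      rw [← map_pow, hB.2 a ha, map_one]⟩ fun x hx =>
        ⟨e x, hle (mem_map_of_mem _ hx), e.symm_apply_apply x⟩
    rw [← h1, Subgroup.map_map]
    ext x
    simp

theorem structure_of_small {G : Type u} [Group G] [Finite G] [Group.IsSolvable G]
    (hodd : Odd (Nat.card G)) (hpG : p ∣ Nat.card G)
    (hs : Small p ↥(Cfsg.pCore p (G ⧸ Cfsg.pPrimeCore p G))) :
    (∀ q : ℕ, q.Prime → q ∣ (Cfsg.pPrimeCore p G).index → q ≤ p) ∧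
      ((p = 3 ∨ ∀ q : ℕ, q.Prime → q ∣ Nat.card G → p ≤ q) → Cfsg.HasNormalPComplement p G) ∧
      Cfsg.HasNormalPComplement p ↥(commutator G) ∧
      (∀ L : Subgroup ↥(commutator G), (Nat.card L).Coprime p →
        L ≤ Cfsg.pPrimeCore p ↥(commutator G)) ∧
      commutator G ≤ Cfsg.pPrimePCore p G ∧ ((Cfsg.pPrimePCore p G).index).Coprime p := by
  have hp2 : p ≠ 2 := by
    rintro rfl
    exact hodd.not_two_dvd_nat hpG
  set O := Cfsg.pPrimeCore p G
  have hO : (Nat.card O).Coprime p := Cfsg.Lib.Solv.coprime_pPrimeCore p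
  have hOdd' : Odd (Nat.card (G ⧸ O)) := hodd.of_dvd_nat (card_quotient_dvd_card O)
  set R := Cfsg.pCore p (G ⧸ O)
  have hR : IsPGroup p R := Cfsg.Lib.Solv.isPGroup_pCore p
  let φ : G ⧸ O →* MulAut R := MulAut.conjNormal
  have hker : ∀ x, φ x = 1 → x ∈ R := fun x hx => by
    refine Cfsg.Lib.Solv.centralizer_pCore_le p (Cfsg.Lib.Solv.pPrimeCore_quotient_eq_bot p) ?_
    rw [mem_centralizer_iff]
    intro y hy
    have h1 : x * y * x⁻¹ = y := congrArg Subtype.val (DFunLike.congr_fun hx (⟨y, hy⟩ : R))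
    calc y * x = x * y * x⁻¹ * x := by rw [h1]
      _ = x * y := inv_mul_cancel_right _ _
  have hRp : ∀ x : G ⧸ O, ∀ k, φ x ^ p ^ k = 1 → ∃ j, x ^ p ^ j = 1 := by
    intro x k hk
    obtain ⟨j, hj⟩ := hR ⟨_, hker (x ^ p ^ k) (by rw [map_pow, hk])⟩
    exact ⟨k + j, by rw [pow_add, pow_mul]; simpa using congrArg Subtype.val hj⟩
  have hcomm : IsPGroup p ↥(commutator (G ⧸ O)) := by
    rintro ⟨x, hx⟩
    obtain ⟨k, hk⟩ := small_auto_commutator hR hp2 hs hOdd' φ hx
    obtain ⟨j, hj⟩ := hRp x k hk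
    exact ⟨j, Subtype.ext (by simpa using hj)⟩
  have hcR : commutator (G ⧸ O) ≤ R := Cfsg.Lib.Solv.le_pCore inferInstance hcomm
  have hprimes : ∀ q : ℕ, q.Prime → q ∣ O.index → q ≤ p := by
    intro q hq hqd
    by_contra hqp
    haveI := Fact.mk hq
    rw [index_eq_card] at hqd
    obtain ⟨x, hx⟩ := exists_prime_orderOf_dvd_card' q hqd
    have h1 : φ x ≠ 1 := fun h => by
      obtain ⟨j, hj⟩ := hRp x 0 (by simpa using h)
      have := orderOf_dvd_of_pow_eq_one hj
      rw [hx] at this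
      exact hqp (Nat.le_of_dvd hp.out.pos (hq.dvd_of_dvd_pow this))
    have h2 : orderOf (φ x) = q :=
      (hq.eq_one_or_self_of_dvd _ (hx ▸ orderOf_map_dvd φ x)).resolve_left
        fun h => h1 (orderOf_eq_one_iff.1 h)
    exact hqp (small_auto_prime_le hR hp2 hs hOdd' φ hq h2.symm.dvd)
  have hcG : ∀ x ∈ commutator G, (x : G ⧸ O) ∈ commutator (G ⧸ O) := by
    intro x hx
    have := mem_map_of_mem (QuotientGroup.mk' O) hx
    rwa [_root_.commutator_def, Subgroup.map_commutator,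
      map_top_of_surjective _ (QuotientGroup.mk'_surjective O), ← _root_.commutator_def] at this
  have hGp : ∀ x ∈ commutator G, ∃ k, x ^ p ^ k ∈ O := by
    intro x hx
    obtain ⟨k, hk⟩ := hcomm ⟨_, hcG x hx⟩
    exact ⟨k, (QuotientGroup.eq_one_iff _).1 (by
      rw [QuotientGroup.mk_pow]; simpa using congrArg Subtype.val hk)⟩
  set N := O.subgroupOf (commutator G)
  have hN : (Nat.card N).Coprime p := by
    refine Nat.Coprime.coprime_dvd_left ?_ hO
    rw [← card_map_of_injective (commutator G).subtype_injective, subgroupOf_map_subtype]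
    exact card_dvd_of_le inf_le_left
  refine ⟨hprimes, fun h => hasNormalPComplement_of O hO ?_, hasNormalPComplement_of N hN ?_,
    fun L hL => ?_, fun x hx => hcR (hcG x hx), ?_⟩
  · obtain ⟨e, he⟩ : ∃ e, Nat.card (G ⧸ O) = p ^ e := by
      refine ⟨_, Nat.eq_prime_pow_of_unique_prime_dvd Nat.card_pos.ne' fun {q} hq hqd => ?_⟩
      have hle := hprimes q hq (by rwa [index_eq_card])
      have hdG : q ∣ Nat.card G := hqd.trans (card_quotient_dvd_card O)
      rcases h with rfl | h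
      · rcases (show q = 2 ∨ q = 3 by have := hq.two_le; omega) with rfl | rfl
        · exact absurd hdG hodd.not_two_dvd_nat
        · rfl
      · exact le_antisymm hle (h q hq hdG)
    exact IsPGroup.of_card he
  · intro x
    obtain ⟨x, rfl⟩ := QuotientGroup.mk_surjective x
    obtain ⟨k, hk⟩ := hGp x x.2
    exact ⟨k, by rw [← QuotientGroup.mk_pow, QuotientGroup.eq_one_iff]; simpa [N, mem_subgroupOf] using hk⟩
  · intro l hl
    refine Cfsg.Lib.Solv.le_pPrimeCore inferInstance hN ?_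
    show (l : G) ∈ O
    obtain ⟨k, hk⟩ := hGp _ l.2
    rw [← QuotientGroup.eq_one_iff, ← orderOf_eq_one_iff]
    refine Nat.eq_one_of_dvd_coprimes ((hL.pow_right k)) ?_ ?_
    · refine (orderOf_map_dvd (QuotientGroup.mk' O) (l : G)).trans ?_
      rw [orderOf_coe, ← Subgroup.orderOf_mk l hl]
      exact _root_.orderOf_dvd_natCard _
    · exact orderOf_dvd_of_pow_eq_one (by rw [← QuotientGroup.mk_pow, QuotientGroup.eq_one_iff]; exact hk)
  · show (R.comap (QuotientGroup.mk' O)).index.Coprime p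
    rw [index_comap_of_surjective _ (QuotientGroup.mk'_surjective O)]
    obtain P : Sylow p (G ⧸ O) := default
    have hle : R ≤ P := Cfsg.Lib.Solv.pCore_le_sylow p P
    have hge : (P : Subgroup (G ⧸ O)) ≤ R :=
      Cfsg.Lib.Solv.le_pCore (normal_of_commutator_le (hcR.trans hle)) P.isPGroup'
    rw [le_antisymm hle hge]
    exact (hp.out.coprime_iff_not_dvd.2 P.not_dvd_index).symm

theorem rank_of_sylow {G : Type u} [Group G] [Finite G] {k : ℕ} (S : Sylow p G)
    (h : Cfsg.PRankLE p k ↥(S : Subgroup G)) : Cfsg.PRankLE p k G := by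
  intro A hA hAp
  haveI := hA
  obtain ⟨P, hP⟩ := IsPGroup.exists_le_sylow (p := p) (P := A)
    fun x => ⟨1, Subtype.ext (by simpa using hAp x x.2)⟩
  have h2 : Cfsg.PRankLE p k ↥(P : Subgroup G) :=
    rank_of_injective (P.equiv S).toMonoidHom (P.equiv S).injective h
  have := h2 (A.subgroupOf P) inferInstance fun a ha => Subtype.ext (by
    rw [SubgroupClass.coe_pow]; exact hAp a (mem_subgroupOf.1 ha))
  rwa [Nat.card_congr (subgroupOfEquivOfLe hP).toEquiv] at this

theorem narrow_sylow_structure {G : Type u} [Group G] [Finite G] [Group.IsSolvable G]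
    (hodd : Odd (Nat.card G)) (hpG : p ∣ Nat.card G) (S : Sylow p G)
    (hS : Cfsg.IsNarrow p ↥(S : Subgroup G))
    (hpl : ¬ Cfsg.PRankLE p 2 ↥(S : Subgroup G) → Cfsg.PLengthLE p 1 G) :
    (∀ q : ℕ, q.Prime → q ∣ (Cfsg.pPrimeCore p G).index → q ≤ p) ∧
      ((p = 3 ∨ ∀ q : ℕ, q.Prime → q ∣ Nat.card G → p ≤ q) → Cfsg.HasNormalPComplement p G) ∧
      Cfsg.HasNormalPComplement p ↥(commutator G) ∧
      (∀ L : Subgroup ↥(commutator G), (Nat.card L).Coprime p →
        L ≤ Cfsg.pPrimeCore p ↥(commutator G)) ∧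
      commutator G ≤ Cfsg.pPrimePCore p G ∧ ((Cfsg.pPrimePCore p G).index).Coprime p := by
  by_cases hr : Cfsg.PRankLE p 2 ↥(S : Subgroup G)
  · exact rank_two_structure hodd hpG (rank_of_sylow S hr)
  refine structure_of_small hodd hpG ?_
  set O := Cfsg.pPrimeCore p G
  rw [← Cfsg.Lib.Solv.map_sylow_eq_pCore (hpl hr) S]
  let f : ↥(S : Subgroup G) →* ↥((S : Subgroup G).map (QuotientGroup.mk' O)) :=
    (QuotientGroup.mk' O).subgroupMap (S : Subgroup G)
  refine small_congr (MulEquiv.ofBijective f ⟨?_, MonoidHom.subgroupMap_surjective _ _⟩)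
    (small_of_narrow S.isPGroup' hS)
  refine (injective_iff_map_eq_one f).2 fun x hx => ?_
  have h1 : (x : G) ∈ O := (QuotientGroup.eq_one_iff _).1 (congrArg Subtype.val hx)
  obtain ⟨k, hk⟩ := S.isPGroup' x
  refine Subtype.ext (orderOf_eq_one_iff.1 (Nat.eq_one_of_dvd_coprimes
    ((Cfsg.Lib.Solv.coprime_pPrimeCore (G := G) p).pow_right k) (O.orderOf_dvd_natCard h1) ?_))
  exact orderOf_dvd_of_pow_eq_one (by simpa using congrArg Subtype.val hk)

omit hp in
theorem commutator_le_fitting_of {G : Type u} [Group G] [Finite G] [Group.IsSolvable G]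
    (hA : ∀ (r : ℕ) [Fact r.Prime], ∀ g ∈ commutator G, ¬ r ∣ orderOf g →
      g ∈ centralizer (Cfsg.pCore r G : Set G)) :
    commutator G ≤ Cfsg.fittingSubgroup G := by
  set F := Cfsg.fittingSubgroup G
  have hcomF : ∀ (y m : G), y ∈ F →
      (∀ (r : ℕ) [Fact r.Prime], r ∣ orderOf y → ∀ z ∈ Cfsg.pCore r G, z * m = m * z) →
      y * m = m * y := by
    intro y m hy h
    have htop : (centralizer {m}).subgroupOf (zpowers y) = ⊤ := by
      refine Cfsg.Lib.Solv.eq_top_of_forall_sylow_le fun r hr' hrd => ?_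
      haveI := Fact.mk hr'
      obtain P : Sylow r (zpowers y) := default
      refine ⟨P, fun x hx => ?_⟩
      rw [mem_subgroupOf, mem_centralizer_singleton_iff]
      refine h r (by rwa [Nat.card_zpowers] at hrd) _ ?_
      exact Cfsg.Lib.Solv.le_pCore_of_le_fitting ((map_subtype_le _).trans (zpowers_le.2 hy))
        (P.isPGroup'.map (zpowers y).subtype) ⟨x, hx, rfl⟩
    exact mem_centralizer_singleton_iff.1 (subgroupOf_eq_top.1 htop (mem_zpowers y))
  refine subgroupOf_eq_top.1 (Cfsg.Lib.Solv.eq_top_of_forall_sylow_le fun q hq _ => ?_)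
  haveI := Fact.mk hq
  obtain P : Sylow q ↥(commutator G) := default
  refine ⟨P, fun x hx => ?_⟩
  set M : Subgroup G := commutator G ⊓
    ⨅ r : {r : ℕ // r.Prime ∧ r ≠ q}, centralizer (Cfsg.pCore (r : ℕ) G : Set G)
  haveI hMn : M.Normal := by
    haveI : (⨅ r : {r : ℕ // r.Prime ∧ r ≠ q},
        centralizer (Cfsg.pCore (r : ℕ) G : Set G)).Normal :=
      normal_iInf_normal fun r => inferInstance
    infer_instance
  have hxM : (x : G) ∈ M := by
    refine ⟨x.2, mem_iInf.2 fun r => ?_⟩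
    haveI := Fact.mk r.2.1
    refine hA r x x.2 fun hd => r.2.2 ?_
    obtain ⟨k, hk⟩ := P.isPGroup' ⟨x, hx⟩
    have h1 : orderOf (x : G) ∣ q ^ k := orderOf_dvd_of_pow_eq_one (by
      simpa using congrArg (fun z : (P : Subgroup ↥(commutator G)) => ((z : ↥(commutator G)) : G)) hk)
    exact (Nat.prime_dvd_prime_iff_eq r.2.1 hq).1 (r.2.1.dvd_of_dvd_pow (hd.trans h1))
  suffices hMF : M ≤ F by exact hMF hxM
  refine Cfsg.Lib.Solv.le_fitting hMn (Group.of_quotient_center_nilpotent ?_)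
  refine IsPGroup.isNilpotent (p := q) fun z => ?_
  obtain ⟨z, rfl⟩ := QuotientGroup.mk_surjective z
  obtain ⟨a, j, hj, hord⟩ :=
    Nat.exists_eq_pow_mul_and_not_dvd (orderOf_pos z).ne' q hq.ne_one
  refine ⟨a, ?_⟩
  rw [← QuotientGroup.mk_pow, QuotientGroup.eq_one_iff, mem_center_iff]
  set y := z ^ q ^ a with hy
  have hqy : ¬ q ∣ orderOf (y : G) := fun hd => hj (hd.trans (orderOf_dvd_of_pow_eq_one (by
    rw [← SubgroupClass.coe_pow, hy, ← pow_mul, ← hord, pow_orderOf_eq_one]; rfl)))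
  have hyC : ∀ (r : ℕ) [Fact r.Prime], (y : G) ∈ centralizer (Cfsg.pCore r G : Set G) := by
    intro r hr'
    by_cases h : r = q
    · subst h; exact hA r y y.2.1 hqy
    · exact mem_iInf.1 y.2.2 ⟨r, hr'.out, h⟩
  have hyF : (y : G) ∈ F := by
    refine Cfsg.Lib.Solv.centralizer_fitting_le ?_
    rw [Cfsg.Lib.Solv.fitting_eq_iSup_pCore]
    have hle : (⨆ r : Nat.Primes, Cfsg.pCore (r : ℕ) G) ≤ centralizer {(y : G)} :=
      iSup_le fun r w hw => mem_centralizer_singleton_iff.2 (by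
        haveI := Fact.mk r.2
        exact mem_centralizer_iff.1 (hyC r) w hw)
    rw [mem_centralizer_iff]
    intro w hw
    exact mem_centralizer_singleton_iff.1 (hle hw)
  intro w
  refine Subtype.ext (hcomF y w hyF fun r _ hrd v hv => ?_).symm
  have hrq : r ≠ q := by rintro rfl; exact hqy hrd
  exact mem_centralizer_iff.1 (mem_iInf.1 w.2.2 ⟨r, Fact.out, hrq⟩) v hv

theorem elementary_fitting {G : Type u} [Group G] [Finite G] [Group.IsSolvable G]
    (hodd : Odd (Nat.card G)) (E : Subgroup G) (hE : E ≤ Cfsg.fittingSubgroup G)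
    (hEe : Cfsg.IsElementaryAbelian p E)
    (hr : Cfsg.RankLE 2 ↥(Cfsg.fittingSubgroup G ⊓ centralizer (E : Set G))) :
    commutator G ≤ Cfsg.fittingSubgroup G := by
  haveI := hEe.1
  have hEO : E ≤ Cfsg.pCore p G :=
    Cfsg.Lib.Solv.le_pCore_of_le_fitting hE fun x => ⟨1, Subtype.ext (by simpa using hEe.2 x x.2)⟩
  have hsmall : ∀ (r : ℕ) [Fact r.Prime], Small r ↥(Cfsg.pCore r G) := by
    intro r hr'
    by_cases h : r = p
    · subst h
      refine small_of_centralizer (Cfsg.Lib.Solv.isPGroup_pCore r) (E.subgroupOf (Cfsg.pCore r G))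
        ⟨inferInstance, fun a ha => Subtype.ext (by
          rw [SubgroupClass.coe_pow]; exact hEe.2 a (mem_subgroupOf.1 ha))⟩ ?_
      set C := centralizer ((E.subgroupOf (Cfsg.pCore r G)) : Set ↥(Cfsg.pCore r G))
      have hmem : ∀ x : C, ((x : Cfsg.pCore r G) : G) ∈
          Cfsg.fittingSubgroup G ⊓ centralizer (E : Set G) := fun x =>
        ⟨Cfsg.Lib.Solv.pCore_le_fitting r x.1.2, mem_centralizer_iff.2 fun y hy =>
          congrArg Subtype.val (mem_centralizer_iff.1 x.2 ⟨y, hEO hy⟩ (mem_subgroupOf.2 hy))⟩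
      refine rank_of_injective (MonoidHom.codRestrict ((Cfsg.pCore r G).subtype.comp C.subtype)
        (Cfsg.fittingSubgroup G ⊓ centralizer (E : Set G)) hmem) ?_ (hr r hr'.out)
      intro a b hab
      exact Subtype.ext (Subtype.ext (congrArg Subtype.val hab :))
    · refine Or.inl ?_
      have hle : Cfsg.pCore r G ≤ Cfsg.fittingSubgroup G ⊓ centralizer (E : Set G) := by
        refine le_inf (Cfsg.Lib.Solv.pCore_le_fitting r) fun x hx => mem_centralizer_iff.2 fun y hy => ?_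
        exact commute_of_normal_of_disjoint _ _ inferInstance inferInstance
          (IsPGroup.disjoint_of_ne p r (Ne.symm h) _ _ (Cfsg.Lib.Solv.isPGroup_pCore _)
            (Cfsg.Lib.Solv.isPGroup_pCore r)) y x (hEO hy) hx
      exact rank_of_injective _ (inclusion_injective hle) (hr r hr'.out)
  refine commutator_le_fitting_of fun r hr' g hg hrg => ?_
  by_cases hr2 : r = 2
  · subst hr2
    have hO2 : Cfsg.pCore 2 G = ⊥ := by
      obtain ⟨k, hk⟩ := IsPGroup.iff_card.1 (Cfsg.Lib.Solv.isPGroup_pCore (G := G) 2)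
      rcases k with _ | k
      · exact card_eq_one.1 (by simpa using hk)
      · exact absurd (dvd_trans (dvd_pow_self 2 k.succ_ne_zero)
          (hk ▸ card_subgroup_dvd_card _)) hodd.not_two_dvd_nat
    rw [hO2, coe_bot, mem_centralizer_iff]
    rintro _ rfl; simp
  obtain ⟨k, hk⟩ := small_auto_commutator (Cfsg.Lib.Solv.isPGroup_pCore r) hr2 (hsmall r) hodd
    (MulAut.conjNormal (H := Cfsg.pCore r G)) hg
  have h1 : (MulAut.conjNormal g : MulAut (Cfsg.pCore r G)) = 1 := by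
    rw [← orderOf_eq_one_iff]
    exact Nat.eq_one_of_dvd_coprimes ((hr'.out.coprime_iff_not_dvd.2 hrg).symm.pow_right k)
      (orderOf_map_dvd _ g) (orderOf_dvd_of_pow_eq_one hk)
  rw [mem_centralizer_iff]
  intro y hy
  have h2 : g * y * g⁻¹ = y :=
    congrArg Subtype.val (DFunLike.congr_fun h1 (⟨y, hy⟩ : Cfsg.pCore r G))
  calc y * g = g * y * g⁻¹ * g := by rw [h2]
    _ = g * y := inv_mul_cancel_right _ _

theorem dvd_succ_of_dvd_card_GL {q : ℕ} (hq : q.Prime) (hqn : ¬ q ∣ p * (p - 1)) {n : ℕ}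
    (hn : n ≤ 2) (h : q ∣ Nat.card (GL (Fin n) (ZMod p))) : q ∣ p + 1 := by
  rw [Matrix.card_GL_field, ZMod.card] at h
  interval_cases n
  · simp at h; exact absurd h hq.ne_one
  · simp at h
    exact absurd (dvd_mul_of_dvd_right h p) hqn
  · simp [Fin.prod_univ_two] at h
    have e1 : p ^ 2 - p = p * (p - 1) := by rw [Nat.mul_sub, mul_one, pow_two]
    have e2 : p ^ 2 - 1 = (p + 1) * (p - 1) := by simpa using Nat.sq_sub_sq p 1
    rw [e1, e2] at h
    rcases hq.dvd_mul.1 h with h | h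
    · rcases hq.dvd_mul.1 h with h | h
      · exact h
      · exact absurd (dvd_mul_of_dvd_right h p) hqn
    · exact absurd h hqn

theorem narrow_automorphisms {G : Type u} [Group G] [Finite G] (hp2 : p ≠ 2) (R A : Subgroup G)
    (hR : IsPGroup p R) (hRn : Cfsg.IsNarrow p R) (hA : A ≤ normalizer (R : Set G))
    (hAs : Group.IsSolvable A) (hAodd : Odd (Nat.card A))
    (hfaith : A ⊓ centralizer (R : Set G) = ⊥) :
    (commutator ↥A ≤ Cfsg.pCore p ↥A ∧ ((Cfsg.pCore p ↥A).index).Coprime p) ∧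
      (¬ Cfsg.PRankLE p 2 R → ∀ a ∈ A, (orderOf a).Coprime p → orderOf a ∣ p - 1) ∧
      ((Nat.card A).Prime → ¬ Nat.card A ∣ p * (p - 1) →
        2 * Nat.card A ∣ p + 1 ∧ (⁅R, A⁆ = R → ¬ IsMulCommutative R → Nat.card R = p ^ 3)) := by
  haveI := hAs
  let φ : A →* MulAut R := R.normalizerMonoidHom.comp (inclusion hA)
  have hinj : ∀ a : A, φ a = 1 → a = 1 := fun a ha => by
    have h1 : inclusion hA a ∈ R.normalizerMonoidHom.ker := ha
    rw [normalizerMonoidHom_ker, mem_subgroupOf] at h1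
    have h2 : (a : G) ∈ (⊥ : Subgroup G) := hfaith ▸ ⟨a.2, h1⟩
    exact Subtype.ext (mem_bot.1 h2)
  have hs : Small p R := small_of_narrow hR hRn
  have hcp : IsPGroup p ↥(commutator A) := by
    rintro ⟨a, ha⟩
    obtain ⟨k, hk⟩ := small_auto_commutator hR hp2 hs hAodd φ ha
    exact ⟨k, Subtype.ext (by
      show a ^ p ^ k = 1
      exact hinj _ (by rw [map_pow, hk]))⟩
  have hcO : commutator A ≤ Cfsg.pCore p A := Cfsg.Lib.Solv.le_pCore inferInstance hcp
  have hdiv : ¬ Cfsg.PRankLE p 2 R → ∀ a : A, (orderOf a).Coprime p → orderOf a ∣ p - 1 := by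
    intro hr a hco
    obtain ⟨k, hk⟩ := orderOf_dvd_of_max hR hp2 hr hs (φ a)
    have ho : orderOf (φ a) = orderOf a :=
      orderOf_injective φ ((injective_iff_map_eq_one φ).2 hinj) a
    rw [ho] at hk
    exact (hco.pow_right k).dvd_of_dvd_mul_right hk
  refine ⟨⟨hcO, ?_⟩, fun hr a ha hco => ?_, fun hAp hAn => ?_⟩
  · obtain P : Sylow p A := default
    have hle := Cfsg.Lib.Solv.pCore_le_sylow p P
    have hge : (P : Subgroup A) ≤ Cfsg.pCore p A :=
      Cfsg.Lib.Solv.le_pCore (normal_of_commutator_le (hcO.trans hle)) P.isPGroup'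
    rw [le_antisymm hle hge]
    exact (hp.out.coprime_iff_not_dvd.2 P.not_dvd_index).symm
  · rw [← Subgroup.orderOf_mk a ha] at hco ⊢
    exact hdiv hr ⟨a, ha⟩ hco
  set q := Nat.card A with hqdef
  have hq1 : ¬ q ∣ p - 1 := fun h => hAn (dvd_mul_of_dvd_right h p)
  have hqp : q ≠ p := fun h => hAn (by rw [h]; exact dvd_mul_right _ _)
  haveI := Fact.mk hAp
  haveI : IsCyclic A := isCyclic_of_prime_card hqdef.symm
  obtain ⟨g, hg⟩ := IsCyclic.exists_generator (α := A)
  have hgo : orderOf g = q := orderOf_eq_card_of_forall_mem_zpowers hg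
  have hrank : Cfsg.PRankLE p 2 R := by
    by_contra hr
    exact hq1 (hgo ▸ hdiv hr g (by rw [hgo]; exact (Nat.coprime_primes hAp hp.out).2 hqp))
  set a := φ g
  have haq : a ^ q = 1 := by rw [← map_pow, ← hgo, pow_orderOf_eq_one, map_one]
  have hao : orderOf a = q := (hAp.eq_one_or_self_of_dvd _ (orderOf_dvd_of_pow_eq_one haq)).resolve_left
    fun h => by
      rw [hinj g (orderOf_eq_one_iff.1 h), orderOf_one] at hgo
      exact hAp.ne_one hgo.symm
  refine ⟨?_, fun hRA hnab => ?_⟩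
  · refine (((Nat.coprime_primes Nat.prime_two hAp).2 ?_)).mul_dvd_of_dvd_of_dvd ?_ ?_
    · intro h
      exact hAodd.not_two_dvd_nat (by rw [← h])
    · exact (hp.out.odd_of_ne_two hp2).add_one.two_dvd
    obtain ⟨n, hn, ψ, hψ⟩ := exists_auto_rep hR hp2 hrank
    refine dvd_succ_of_dvd_card_GL hAp hAn hn ?_
    have hu : orderOf (ψ.toHomUnits a) ∣ q := hao ▸ orderOf_map_dvd _ a
    rcases hAp.eq_one_or_self_of_dvd _ hu with h1 | h1
    · rw [orderOf_eq_one_iff] at h1
      obtain ⟨k, hk⟩ := hψ a (congrArg Units.val h1)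
      have := orderOf_dvd_of_pow_eq_one hk
      rw [hao] at this
      exact absurd ((Nat.prime_dvd_prime_iff_eq hAp hp.out).1 (hAp.dvd_of_dvd_pow this)) hqp
    · exact h1 ▸ _root_.orderOf_dvd_natCard _
  refine Cfsg.Lib.RankTwoIrred.card_eq_cube hR hp2 hrank hAp hq1 hqp a haq ?_
    fun h => hnab ⟨⟨h⟩⟩
  set K := closure {z : R | ∃ r, z = r⁻¹ * a r}
  have hk : ∀ (k : ℕ) (r : R), r⁻¹ * (a ^ k) r ∈ K := by
    intro k
    induction k with
    | zero =>
      intro r
      rw [pow_zero, MulAut.one_apply, inv_mul_cancel]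
      exact one_mem _
    | succ k ih =>
      intro r
      have e : r⁻¹ * (a ^ (k + 1)) r = r⁻¹ * (a ^ k) r * (((a ^ k) r)⁻¹ * a ((a ^ k) r)) := by
        rw [pow_succ', MulAut.mul_apply]; group
      rw [e]
      exact K.mul_mem (ih r) (subset_closure ⟨_, rfl⟩)
  have hle : ⁅R, A⁆ ≤ K.map R.subtype := by
    rw [Subgroup.commutator_le]
    intro r hr x hx
    obtain ⟨k, hkx⟩ := (isOfFinOrder_of_finite g).mem_powers_iff_mem_zpowers.2 (hg ⟨x, hx⟩)
    have hkx' : g ^ k = ⟨x, hx⟩ := hkx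
    refine ⟨_, hk k ⟨r⁻¹, R.inv_mem hr⟩, ?_⟩
    rw [← map_pow, hkx']
    show r⁻¹⁻¹ * (x * r⁻¹ * x⁻¹) = ⁅r, x⁆
    rw [commutatorElement_def]; group
  rw [hRA] at hle
  refine eq_top_iff.2 fun r _ => ?_
  obtain ⟨r', hr', e⟩ := hle r.2
  rwa [← Subtype.ext (show (r' : G) = r from e)]

end Cfsg.Lib.NarrowOdd
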