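import Mathlib
import Cfsg.Prelude.Def_LocalEven
import Cfsg.Prelude.Def_TwoFusion

/-!
# The natural module of `SL₂` over a finite field
-/

set_option autoImplicit false

namespace Cfsg.Lib.NatMod

open Cfsg Subgroup Matrix
open scoped MatrixGroups commutatorElement

variable {F : Type*} [Field F]

/-- The upper unitriangular subgroup. -/
def upper (F : Type*) [Field F] : Subgroup SL(2, F) where
  carrier := {m | m 0 0 = 1 ∧ m 1 0 = 0}
  one_mem' := by simp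
  mul_mem' {a b} ha hb := by
    refine ⟨?_, ?_⟩ <;> simp [Matrix.mul_apply, Fin.sum_univ_two, ha.1, ha.2, hb.1, hb.2]
  inv_mem' {a} ha := by
    have h := a.det_coe
    rw [Matrix.det_fin_two, ha.1, ha.2] at h
    refine ⟨?_, ?_⟩ <;> simp [Matrix.SpecialLinearGroup.coe_inv, Matrix.adjugate_fin_two, ha.2]
    simpa using h

theorem upper_form {m : SL(2, F)} (h : m ∈ upper F) : m 0 0 = 1 ∧ m 1 0 = 0 ∧ m 1 1 = 1 := by
  refine ⟨h.1, h.2, ?_⟩
  have h1 := m.det_coe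
  rw [Matrix.det_fin_two, h.1, h.2] at h1
  simpa using h1

/-- The elementary upper matrix. -/
def ut (c : F) : SL(2, F) := ⟨!![1, c; 0, 1], by simp [Matrix.det_fin_two]⟩

theorem ut_coe (c : F) : (ut c).1 = !![1, c; 0, 1] := rfl

theorem ut_mem (c : F) : ut c ∈ upper F := ⟨by simp [ut_coe], by simp [ut_coe]⟩

theorem upper_eq_ut {m : SL(2, F)} (h : m ∈ upper F) : m = ut (m 0 1) := by
  obtain ⟨h0, h1, h2⟩ := upper_form h
  ext i j
  fin_cases i <;> fin_cases j <;> simp [ut, h0, h1, h2]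

theorem ut_pow (c : F) (n : ℕ) : ut c ^ n = ut (n * c) := by
  induction n with
  | zero =>
    rw [pow_zero]
    ext i j; fin_cases i <;> fin_cases j <;> simp [ut_coe]
  | succ n ih =>
    rw [pow_succ, ih]
    ext i j
    fin_cases i <;> fin_cases j <;>
      simp [ut_coe, Matrix.mul_apply, Fin.sum_univ_two] <;> ring

theorem pow_eq_one {p : ℕ} [CharP F p] {m : SL(2, F)} (h : m ∈ upper F) : m ^ p = 1 := by
  rw [upper_eq_ut h, ut_pow, CharP.cast_eq_zero F p, zero_mul]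
  ext i j; fin_cases i <;> fin_cases j <;> simp [ut]

/-- The diagonal matrix. -/
def dg (a : F) (ha : a ≠ 0) : SL(2, F) := ⟨!![a, 0; 0, a⁻¹], by simp [Matrix.det_fin_two, ha]⟩

theorem dg_coe (a : F) (ha : a ≠ 0) : (dg a ha).1 = !![a, 0; 0, a⁻¹] := rfl

/-- A matrix in `SL₂` with prescribed first column. -/
theorem exists_first_col (w : Fin 2 → F) (hw : w ≠ 0) : ∃ g : SL(2, F), g.1.mulVec ![1, 0] = w := by
  by_cases h0 : w 0 = 0
  · have h1 : w 1 ≠ 0 := fun h1 => hw (by funext i; fin_cases i <;> simp [h0, h1])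
    refine ⟨⟨!![w 0, -(w 1)⁻¹; w 1, 0], by simp [Matrix.det_fin_two, h1]⟩, ?_⟩
    funext i; fin_cases i <;> simp [Matrix.mulVec, dotProduct]
  · refine ⟨⟨!![w 0, 0; w 1, (w 0)⁻¹], by simp [Matrix.det_fin_two, h0]⟩, ?_⟩
    funext i; fin_cases i <;> simp [Matrix.mulVec, dotProduct]

theorem fix_iff (m : SL(2, F)) : m.1.mulVec ![1, 0] = ![1, 0] ↔ m ∈ upper F := by
  constructor
  · intro h
    have h0 := congrFun h 0
    have h1 := congrFun h 1
    simp [Matrix.mulVec, dotProduct] at h0 h1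
    exact ⟨h0, h1⟩
  · rintro ⟨h0, h1⟩
    funext i; fin_cases i <;> simp [Matrix.mulVec, dotProduct, h0, h1]

theorem mulVec_mul (a b : SL(2, F)) (w : Fin 2 → F) : (a * b).1.mulVec w = a.1.mulVec (b.1.mulVec w) := by
  rw [Matrix.mulVec_mulVec]; rfl

theorem mulVec_one (w : Fin 2 → F) : (1 : SL(2, F)).1.mulVec w = w := by
  show (1 : Matrix (Fin 2) (Fin 2) F).mulVec w = w
  exact Matrix.one_mulVec w

theorem mulVec_fin2 (m : SL(2, F)) (w : Fin 2 → F) :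
    m.1.mulVec w = ![m 0 0 * w 0 + m 0 1 * w 1, m 1 0 * w 0 + m 1 1 * w 1] := by
  funext i; fin_cases i <;> simp [Matrix.mulVec, dotProduct]

variable {G : Type*} [Group G]

/-- Normalized coordinates. -/
structure Coord (V L T : Subgroup G) (F : Type*) [Field F] where
  ρ : L →* SL(2, F)
  θ : V → (Fin 2 → F)
  ρ_bij : Function.Bijective ρ
  θ_bij : Function.Bijective θ
  θ_mul : ∀ a b : V, θ (a * b) = θ a + θ b
  act : ∀ (l : L) (v w : V), (w : G) = (l : G) * v * (l : G)⁻¹ → θ w = (ρ l).1.mulVec (θ v)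
  norm : L ≤ normalizer (V : Set G)
  mem_T : ∀ l : G, l ∈ T ↔ ∃ h : l ∈ L, ρ ⟨l, h⟩ ∈ upper F

set_option maxHeartbeats 1000000 in
theorem exists_coord [Finite G] {p : ℕ} [Fact p.Prime] [Fintype F] {n : ℕ} (hF : Fintype.card F = p ^ n)
    (V L : Subgroup G) (hnat : IsNaturalSL2Module F V L)
    (hf : L ⊓ centralizer (V : Set G) = ⊥) (S : Sylow p ↥L) (T : Subgroup G)
    (hT : T = (S : Subgroup ↥L).map L.subtype) : Nonempty (Coord V L T F) ∧ CharP F p := by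
  classical
  obtain ⟨hN, ρ, ψ, hsurj, hker, hact⟩ := hnat
  have hchar : CharP F p := by
    obtain ⟨q, hq⟩ := CharP.exists F
    haveI := hq
    obtain ⟨m, hqp, hm⟩ := FiniteField.card F q
    haveI := Fact.mk hqp
    have hd : q ∣ p ^ n := hF ▸ hm ▸ dvd_pow_self q m.2.ne'
    rwa [← (Nat.prime_dvd_prime_iff_eq hqp Fact.out).1 (hqp.dvd_of_dvd_pow hd)]
  haveI := hchar
  have hinj : Function.Injective ρ := by
    rw [← MonoidHom.ker_eq_bot_iff, hker, subgroupOf_eq_bot, disjoint_iff, inf_comm, hf]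
  haveI : Finite SL(2, F) := Finite.of_surjective ρ hsurj
  set P := S.mapSurjective hsurj with hP
  -- a common fixed vector
  letI : MulAction (P : Subgroup SL(2, F)) (Fin 2 → F) :=
    { smul := fun m w => (m : SL(2, F)).1.mulVec w
      one_smul := fun w => mulVec_one w
      mul_smul := fun a b w => mulVec_mul a b w }
  have hfix0 : (0 : Fin 2 → F) ∈ MulAction.fixedPoints (P : Subgroup SL(2, F)) (Fin 2 → F) :=
    fun m => Matrix.mulVec_zero _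
  have hn : n ≠ 0 := fun h => by
    have := Fintype.one_lt_card (α := F)
    rw [hF, h, pow_zero] at this; omega
  obtain ⟨v₀, hv₀, hv₀ne⟩ := P.isPGroup'.exists_fixed_point_of_prime_dvd_card_of_fixed_point (Fin 2 → F)
    (by rw [Nat.card_eq_fintype_card, Fintype.card_fun, hF, Fintype.card_fin, ← pow_mul]
        exact dvd_pow_self p (Nat.mul_ne_zero hn two_ne_zero)) hfix0
  obtain ⟨g, hg⟩ := exists_first_col v₀ (Ne.symm hv₀ne)
  have hfixg : ∀ m ∈ (P : Subgroup SL(2, F)), g⁻¹ * m * g ∈ upper F := fun m hm => by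
    have hm' : m.1.mulVec v₀ = v₀ := hv₀ ⟨m, hm⟩
    rw [← fix_iff, mulVec_mul, mulVec_mul, hg, hm', ← hg, ← mulVec_mul, inv_mul_cancel, mulVec_one]
  let U' : Subgroup SL(2, F) := (upper F).map (MulAut.conj g).toMonoidHom
  have hU' : IsPGroup p U' := (show IsPGroup p (upper F) from fun m =>
    ⟨1, Subtype.ext (by rw [SubmonoidClass.coe_pow, pow_one, pow_eq_one m.2]; rfl)⟩).map _
  have hPU : U' = (P : Subgroup SL(2, F)) := P.is_maximal' hU' fun m hm =>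
    ⟨g⁻¹ * m * g, hfixg m hm, by simp [mul_assoc]⟩
  refine ⟨⟨{
    ρ := (MulAut.conj g⁻¹).toMonoidHom.comp ρ
    θ := fun v => g⁻¹.1.mulVec (ψ (Additive.ofMul v))
    ρ_bij := (MulAut.conj g⁻¹).bijective.comp ⟨hinj, hsurj⟩
    θ_bij := ?_
    θ_mul := fun a b => by simp only [ofMul_mul, map_add, Matrix.mulVec_add]
    act := fun l v w hw => ?_
    norm := hN
    mem_T := fun l => ?_ }⟩, hchar⟩
  · constructor
    · intro a b h
      have h2 := congrArg (fun x => g.1.mulVec x) h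
      simp only [← mulVec_mul, mul_inv_cancel, mulVec_one] at h2
      exact Additive.ofMul.injective (ψ.injective h2)
    · intro w
      refine ⟨Additive.toMul (ψ.symm (g.1.mulVec w)), ?_⟩
      simp only [ofMul_toMul, AddEquiv.apply_symm_apply, ← mulVec_mul, inv_mul_cancel, mulVec_one]
  · obtain ⟨w', hw', hψ⟩ := hact l v
    obtain rfl : w = w' := Subtype.ext (hw.trans hw'.symm)
    show g⁻¹.1.mulVec (ψ (Additive.ofMul w)) = (g⁻¹ * ρ l * g⁻¹⁻¹).1.mulVec (g⁻¹.1.mulVec (ψ (Additive.ofMul v)))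
    rw [hψ, ← mulVec_mul, ← mulVec_mul, inv_inv, mul_assoc _ g, mul_inv_cancel, mul_one]
  · rw [hT]
    constructor
    · rintro ⟨x, hx, rfl⟩
      refine ⟨x.2, ?_⟩
      have : ρ x ∈ (P : Subgroup SL(2, F)) := (Sylow.coe_mapSurjective hsurj S).symm ▸ mem_map_of_mem ρ hx
      simpa using hfixg _ this
    · rintro ⟨h, hu⟩
      have h1 : ρ ⟨l, h⟩ ∈ (P : Subgroup SL(2, F)) := by
        rw [← hPU]
        exact ⟨_, hu, by simp [mul_assoc]⟩
      rw [hP, Sylow.coe_mapSurjective hsurj S] at h1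
      obtain ⟨s, hs, hse⟩ := h1
      exact ⟨s, hs, by rw [hinj hse]; rfl⟩

namespace Coord

variable {V L T : Subgroup G} (c : Coord V L T F)
include c

theorem θ_one : c.θ 1 = 0 := by
  have h := c.θ_mul 1 1
  rw [mul_one] at h
  exact left_eq_add.1 h

theorem θ_inv (a : V) : c.θ a⁻¹ = - c.θ a := by
  rw [eq_neg_iff_add_eq_zero, ← c.θ_mul, inv_mul_cancel, c.θ_one]

/-- The conjugate as an element of `V`. -/
def cj (l : L) (v : V) : V :=
  ⟨(l : G) * v * (l : G)⁻¹, (mem_normalizer_iff.1 (c.norm l.2) v).1 v.2⟩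

theorem θ_cj (l : L) (v : V) : c.θ (c.cj l v) = (c.ρ l).1.mulVec (c.θ v) := c.act l v _ rfl

theorem commutes_iff (l : L) (v : V) :
    (l : G) * v = (v : G) * l ↔ (c.ρ l).1.mulVec (c.θ v) = c.θ v := by
  rw [← c.θ_cj, c.θ_bij.1.eq_iff, Subtype.ext_iff]
  exact (mul_inv_eq_iff_eq_mul).symm

theorem exists_ut (x : F) : ∃ t : L, (t : G) ∈ T ∧ c.ρ t = ut x := by
  obtain ⟨t, ht⟩ := c.ρ_bij.2 (ut x)
  exact ⟨t, (c.mem_T t).2 ⟨t.2, by rw [ht]; exact ut_mem x⟩, ht⟩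

theorem T_le : T ≤ L := fun t ht => ((c.mem_T t).1 ht).1

theorem mem_CT (v : V) : (v : G) ∈ centralizer (T : Set G) ↔ c.θ v 1 = 0 := by
  constructor
  · intro h
    obtain ⟨t, ht, hte⟩ := c.exists_ut 1
    have h1 := (c.commutes_iff t v).1 (mem_centralizer_iff.1 h t ht)
    rw [hte, mulVec_fin2] at h1
    simpa [ut] using congrFun h1 0
  · intro h
    refine mem_centralizer_iff.2 fun t ht => ?_
    obtain ⟨hL, hu⟩ := (c.mem_T t).1 ht
    obtain ⟨h0, h1, h2⟩ := upper_form hu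
    refine (c.commutes_iff ⟨t, hL⟩ v).2 ?_
    rw [mulVec_fin2, h0, h1, h2, h]
    funext i; fin_cases i <;> simp [h]

theorem mem_Cs {s : G} (hs : s ∈ T) (hs1 : s ≠ 1) (v : V) :
    (v : G) ∈ centralizer ({s} : Set G) ↔ c.θ v 1 = 0 := by
  refine ⟨fun h => ?_, fun h => centralizer_le (Set.singleton_subset_iff.2 hs) ((c.mem_CT v).2 h)⟩
  obtain ⟨hL, hu⟩ := (c.mem_T s).1 hs
  obtain ⟨h0, h1, h2⟩ := upper_form hu
  have hne : c.ρ ⟨s, hL⟩ 0 1 ≠ 0 := fun h01 => hs1 (by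
    have : c.ρ ⟨s, hL⟩ = c.ρ 1 := by
      rw [map_one]
      ext i j
      fin_cases i <;> fin_cases j <;> simp [h0, h1, h2, h01]
    exact congrArg Subtype.val (c.ρ_bij.1 this))
  have h3 := congrFun ((c.commutes_iff ⟨s, hL⟩ v).1 (mem_centralizer_iff.1 h s rfl)) 0
  rw [mulVec_fin2, h0] at h3
  simp at h3
  exact h3.resolve_left hne

theorem commutator_value (v : V) {t : G} (ht : t ∈ T) :
    ∃ w : V, (w : G) = (v : G) * t * (v : G)⁻¹ * t⁻¹ ∧ c.θ w 1 = 0 ∧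
      ∃ hL : t ∈ L, c.θ w 0 = -(c.ρ ⟨t, hL⟩ 0 1 * c.θ v 1) := by
  obtain ⟨hL, hu⟩ := (c.mem_T t).1 ht
  obtain ⟨h0, h1, h2⟩ := upper_form hu
  refine ⟨v * c.cj ⟨t, hL⟩ v⁻¹, by simp [cj, mul_assoc], ?_, hL, ?_⟩ <;>
    simp [c.θ_mul, c.θ_cj, c.θ_inv, mulVec_fin2, h0, h1, h2]

variable [Finite G]

/-- S2779. -/
theorem quadratic {p n : ℕ} [Fintype F] (hF : Fintype.card F = p ^ n) :
    ⁅⁅V, T⁆, T⁆ = ⊥ ∧ Nat.card V = p ^ (2 * n) ∧
      Nat.card ↥(V ⊓ centralizer (T : Set G)) = p ^ n ∧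
      ∀ s ∈ T, s ≠ 1 → V ⊓ centralizer ({s} : Set G) = V ⊓ centralizer (T : Set G) ∧
        ⁅V, T⁆ = V ⊓ centralizer (T : Set G) ∧
        ⁅V, zpowers s⁆ = V ⊓ centralizer (T : Set G) ∧
        ∀ v ∈ V, v ∉ centralizer (T : Set G) →
          Subgroup.closure {x : G | ∃ t ∈ T, x = v * t * v⁻¹ * t⁻¹} = V ⊓ centralizer (T : Set G) := by
  have hle : ⁅V, T⁆ ≤ V ⊓ centralizer (T : Set G) := commutator_le.2 fun v hv t ht => by
    obtain ⟨w, hw, hw1, -⟩ := c.commutator_value ⟨v, hv⟩ ht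
    rw [commutatorElement_def, show v * t * v⁻¹ * t⁻¹ = (w : G) from hw.symm]
    exact ⟨w.2, (c.mem_CT w).2 hw1⟩
  refine ⟨?_, ?_, ?_, fun s hs hs1 => ?_⟩
  · rw [commutator_eq_bot_iff_le_centralizer]
    exact hle.trans inf_le_right
  · rw [Nat.card_eq_of_bijective c.θ c.θ_bij, Nat.card_eq_fintype_card, Fintype.card_fun, Fintype.card_fin, hF,
      ← pow_mul, mul_comm]
  · rw [← hF, ← Nat.card_eq_fintype_card]
    refine Nat.card_eq_of_bijective (fun v => c.θ ⟨v.1, v.2.1⟩ 0) ⟨fun a b h => ?_, fun x => ?_⟩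
    · have ha := (c.mem_CT ⟨a.1, a.2.1⟩).1 a.2.2
      have hb := (c.mem_CT ⟨b.1, b.2.1⟩).1 b.2.2
      have he : c.θ ⟨a.1, a.2.1⟩ = c.θ ⟨b.1, b.2.1⟩ := by
        funext i
        fin_cases i
        · exact h
        · exact ha.trans hb.symm
      exact Subtype.ext (congrArg (fun v : V => (v : G)) (c.θ_bij.1 he))
    · obtain ⟨v, hv⟩ := c.θ_bij.2 ![x, 0]
      exact ⟨⟨v, v.2, (c.mem_CT v).2 (by simp [hv])⟩, by simp [hv]⟩
  have hCs : V ⊓ centralizer ({s} : Set G) = V ⊓ centralizer (T : Set G) := by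
    ext x
    exact ⟨fun hx => ⟨hx.1, (c.mem_CT ⟨x, hx.1⟩).2 ((c.mem_Cs hs hs1 ⟨x, hx.1⟩).1 hx.2)⟩,
      fun hx => ⟨hx.1, (c.mem_Cs hs hs1 ⟨x, hx.1⟩).2 ((c.mem_CT ⟨x, hx.1⟩).1 hx.2)⟩⟩
  have hsL := c.T_le hs
  have hsn : c.ρ ⟨s, hsL⟩ 0 1 ≠ 0 := by
    intro h01
    obtain ⟨v, hv⟩ := c.θ_bij.2 ![0, 1]
    have h1 : c.θ v 1 = 0 := by
      refine (c.mem_Cs hs hs1 v).1 (mem_centralizer_iff.2 ?_)
      intro w hw
      rw [Set.mem_singleton_iff.1 hw]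
      refine (c.commutes_iff ⟨s, hsL⟩ v).2 ?_
      obtain ⟨_, hu⟩ := (c.mem_T s).1 hs
      obtain ⟨h0, h10, h2⟩ := upper_form hu
      rw [mulVec_fin2, h0, h10, h2, h01, hv]
      simp
    simp [hv] at h1
  have hge : V ⊓ centralizer (T : Set G) ≤ ⁅V, zpowers s⁆ := by
    rintro x ⟨hxV, hxC⟩
    have hx1 := (c.mem_CT ⟨x, hxV⟩).1 hxC
    obtain ⟨v, hv⟩ := c.θ_bij.2 ![0, -(c.θ ⟨x, hxV⟩ 0 / c.ρ ⟨s, hsL⟩ 0 1)]
    obtain ⟨w, hw, hw1, hL, hw0⟩ := c.commutator_value v hs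
    have : w = ⟨x, hxV⟩ := c.θ_bij.1 (by
      funext i
      fin_cases i
      · show c.θ w 0 = _
        rw [hw0, hv]
        simp [mul_div_cancel₀ _ hsn]
      · exact hw1.trans hx1.symm)
    rw [show x = (w : G) by rw [this], hw, ← commutatorElement_def]
    exact commutator_mem_commutator v.2 (mem_zpowers s)
  have hzT : zpowers s ≤ T := zpowers_le.2 hs
  refine ⟨hCs, le_antisymm hle (hge.trans (commutator_mono le_rfl hzT)),
    le_antisymm ((commutator_mono le_rfl hzT).trans hle) hge, fun v hv hvC => le_antisymm ?_ ?_⟩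
  · rw [closure_le]
    rintro _ ⟨t, ht, rfl⟩
    obtain ⟨w, hw, hw1, -⟩ := c.commutator_value ⟨v, hv⟩ ht
    rw [show v * t * v⁻¹ * t⁻¹ = (w : G) from hw.symm]
    exact ⟨w.2, (c.mem_CT w).2 hw1⟩
  · rintro x ⟨hxV, hxC⟩
    have hx1 := (c.mem_CT ⟨x, hxV⟩).1 hxC
    have hv1 : c.θ ⟨v, hv⟩ 1 ≠ 0 := fun h => hvC ((c.mem_CT ⟨v, hv⟩).2 h)
    obtain ⟨t, ht, hte⟩ := c.exists_ut (-(c.θ ⟨x, hxV⟩ 0 / c.θ ⟨v, hv⟩ 1))
    obtain ⟨w, hw, hw1, hL, hw0⟩ := c.commutator_value ⟨v, hv⟩ ht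
    have : w = ⟨x, hxV⟩ := c.θ_bij.1 (by
      funext i
      fin_cases i
      · show c.θ w 0 = _
        rw [hw0, show (⟨(t : G), hL⟩ : L) = t from rfl, hte]
        simp [ut, div_mul_cancel₀ _ hv1]
      · exact hw1.trans hx1.symm)
    exact subset_closure ⟨t, ht, by rw [show x = (w : G) by rw [this], hw]⟩

theorem mem_CT_conj {g : G} (hg : g ∈ L) (v : V) :
    (v : G) ∈ centralizer ((T.map (MulAut.conj g).toMonoidHom : Subgroup G) : Set G) ↔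
      ((c.ρ ⟨g, hg⟩)⁻¹.1.mulVec (c.θ v)) 1 = 0 := by
  have key : (v : G) ∈ centralizer ((T.map (MulAut.conj g).toMonoidHom : Subgroup G) : Set G) ↔
      ((c.cj ⟨g, hg⟩⁻¹ v : V) : G) ∈ centralizer (T : Set G) := by
    show _ ↔ (g⁻¹ * (v : G) * g⁻¹⁻¹) ∈ _
    simp only [mem_centralizer_iff, inv_inv]
    constructor
    · intro h t ht
      have h1 := h _ (mem_map_of_mem (MulAut.conj g).toMonoidHom ht)
      change g * t * g⁻¹ * v = v * (g * t * g⁻¹) at h1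
      calc t * (g⁻¹ * v * g) = g⁻¹ * (g * t * g⁻¹ * v) * g := by group
        _ = g⁻¹ * (v * (g * t * g⁻¹)) * g := by rw [h1]
        _ = g⁻¹ * v * g * t := by group
    · rintro h _ ⟨t, ht, rfl⟩
      have h1 := h t ht
      show g * t * g⁻¹ * v = v * (g * t * g⁻¹)
      calc g * t * g⁻¹ * v = g * (t * (g⁻¹ * v * g)) * g⁻¹ := by group
        _ = g * (g⁻¹ * v * g * t) * g⁻¹ := by rw [h1]
        _ = v * (g * t * g⁻¹) := by group
  rw [key, c.mem_CT, c.θ_cj, map_inv]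

theorem torus {a : F} (ha : a ≠ 0) :
    ∃ l : L, (l : G) ∈ L ⊓ normalizer (T : Set G) ∧ c.ρ l 0 0 = a ∧ c.ρ l 0 1 = 0 ∧ c.ρ l 1 0 = 0 ∧
      c.ρ l 1 1 = a⁻¹ := by
  obtain ⟨l, hl⟩ := c.ρ_bij.2 (dg a ha)
  refine ⟨l, ⟨l.2, mem_normalizer_fintype fun t ht => ?_⟩, by simp [hl, dg_coe],
    by simp [hl, dg_coe], by simp [hl, dg_coe], by simp [hl, dg_coe]⟩
  obtain ⟨htL, hu⟩ := (c.mem_T t).1 ht
  obtain ⟨h0, h1, h2⟩ := upper_form hu
  refine (c.mem_T _).2 ⟨L.mul_mem (L.mul_mem l.2 htL) (L.inv_mem l.2), ?_⟩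
  show c.ρ (l * ⟨t, htL⟩ * l⁻¹) ∈ upper F
  rw [map_mul, map_mul, map_inv, hl]
  refine ⟨?_, ?_⟩ <;>
    simp [Matrix.mul_apply, Matrix.vecMul, dotProduct, Fin.sum_univ_two, Matrix.adjugate_fin_two, dg_coe, h0, h1, h2, ha]

/-- S2780. -/
theorem irreducible {p : ℕ} [Fact p.Prime] [CharP F p] :
    (∀ g ∈ L, g ∉ normalizer (T : Set G) →
      IsInternalDirectProduct (V ⊓ centralizer (T : Set G))
        (V ⊓ centralizer ((T.map (MulAut.conj g).toMonoidHom : Subgroup G) : Set G)) V) ∧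
    (∀ x ∈ L, x ≠ 1 → (orderOf x).Coprime p → V ⊓ centralizer ({x} : Set G) = ⊥) ∧
    (∀ U : Subgroup G, U ≤ V ⊓ centralizer (T : Set G) → L ⊓ normalizer (T : Set G) ≤ normalizer (U : Set G) →
      U = ⊥ ∨ U = V ⊓ centralizer (T : Set G)) ∧
    (∀ U : Subgroup G, V ⊓ centralizer (T : Set G) ≤ U → U ≤ V →
      L ⊓ normalizer (T : Set G) ≤ normalizer (U : Set G) → U = V ⊓ centralizer (T : Set G) ∨ U = V) := by
  refine ⟨fun g hg hgN => ?_, fun x hx hx1 hxo => ?_, fun U hU hN => ?_, fun U hU hUV hN => ?_⟩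
  · have h10 : c.ρ ⟨g, hg⟩ 1 0 ≠ 0 := by
      intro h10
      refine hgN (mem_normalizer_fintype fun t ht => ?_)
      obtain ⟨htL, hu⟩ := (c.mem_T t).1 ht
      obtain ⟨h0, h1, h2⟩ := upper_form hu
      refine (c.mem_T _).2 ⟨L.mul_mem (L.mul_mem hg htL) (L.inv_mem hg), ?_⟩
      show c.ρ (⟨g, hg⟩ * ⟨t, htL⟩ * ⟨g, hg⟩⁻¹) ∈ upper F
      have hd := (c.ρ ⟨g, hg⟩).det_coe
      rw [Matrix.det_fin_two, h10, mul_zero, sub_zero] at hd
      rw [map_mul, map_mul, map_inv]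
      refine ⟨?_, ?_⟩ <;>
        simp [Matrix.mul_apply, Fin.sum_univ_two, Matrix.SpecialLinearGroup.coe_inv, Matrix.adjugate_fin_two, h0, h1, h2, h10, hd]
    refine ⟨inf_le_left, inf_le_left, fun a ha b hb => ?_, ?_, le_antisymm (sup_le inf_le_left inf_le_left) ?_⟩
    · have h : (⟨a, ha.1⟩ : V) * ⟨b, hb.1⟩ = ⟨b, hb.1⟩ * ⟨a, ha.1⟩ := c.θ_bij.1 (by rw [c.θ_mul, c.θ_mul, add_comm])
      exact congrArg Subtype.val h
    · refine (Subgroup.eq_bot_iff_forall _).2 ?_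
      rintro x ⟨⟨hxV, hx⟩, -, hx'⟩
      have h1 := (c.mem_CT ⟨x, hxV⟩).1 hx
      have h2 := (c.mem_CT_conj hg ⟨x, hxV⟩).1 hx'
      rw [mulVec_fin2] at h2
      simp [Matrix.SpecialLinearGroup.coe_inv, Matrix.adjugate_fin_two, h1, h10] at h2
      have h3 : (⟨x, hxV⟩ : V) = 1 := c.θ_bij.1 (by
        rw [c.θ_one]
        funext i
        fin_cases i
        · exact h2
        · exact h1)
      exact congrArg Subtype.val h3
    · intro x hxV
      set γ := c.ρ ⟨g, hg⟩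
      obtain ⟨a, ha⟩ := c.θ_bij.2 ![c.θ ⟨x, hxV⟩ 0 - c.θ ⟨x, hxV⟩ 1 / γ 1 0 * γ 0 0, 0]
      obtain ⟨b, hb⟩ := c.θ_bij.2 ![c.θ ⟨x, hxV⟩ 1 / γ 1 0 * γ 0 0, c.θ ⟨x, hxV⟩ 1]
      have hab : a * b = ⟨x, hxV⟩ := c.θ_bij.1 (by
        rw [c.θ_mul, ha, hb]
        funext i; fin_cases i <;> simp)
      rw [show x = (a : G) * (b : G) from (congrArg Subtype.val hab).symm]
      refine mul_mem_sup ⟨a.2, (c.mem_CT a).2 (by simp [ha])⟩ ⟨b.2, (c.mem_CT_conj hg b).2 ?_⟩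
      rw [mulVec_fin2, hb]
      have : γ 1 0 ≠ 0 := h10
      simp [Matrix.SpecialLinearGroup.coe_inv, Matrix.adjugate_fin_two]
      field_simp
      ring
  · refine (Subgroup.eq_bot_iff_forall _).2 fun v ⟨hvV, hv⟩ => ?_
    by_contra hv1
    have hw : c.θ ⟨v, hvV⟩ ≠ 0 := fun h => hv1 (congrArg Subtype.val (c.θ_bij.1 (h.trans c.θ_one.symm)))
    have hfix := (c.commutes_iff ⟨x, hx⟩ ⟨v, hvV⟩).1 (mem_centralizer_iff.1 hv x rfl)
    obtain ⟨h, hh⟩ := exists_first_col _ hw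
    have hu : h⁻¹ * c.ρ ⟨x, hx⟩ * h ∈ upper F := by
      rw [← fix_iff, mulVec_mul, mulVec_mul, hh, hfix, ← hh, ← mulVec_mul, inv_mul_cancel, mulVec_one]
    have hp := pow_eq_one (p := p) hu
    have : c.ρ ⟨x, hx⟩ ^ p = 1 := by
      have h2 : c.ρ ⟨x, hx⟩ = h * (h⁻¹ * c.ρ ⟨x, hx⟩ * h) * h⁻¹ := by group
      rw [h2, conj_pow, hp, mul_one, mul_inv_cancel]
    rw [← map_pow, ← map_one c.ρ, c.ρ_bij.1.eq_iff] at this
    have hxp : x ^ p = 1 := congrArg Subtype.val this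
    exact hx1 (orderOf_eq_one_iff.1 (Nat.eq_one_of_dvd_coprimes hxo dvd_rfl (orderOf_dvd_of_pow_eq_one hxp)))
  · by_cases hb : U = ⊥
    · exact Or.inl hb
    right
    obtain ⟨u, hu, hu1⟩ := (nontrivial_iff_exists_ne_one _).1 ((nontrivial_iff_ne_bot U).2 hb)
    have hu10 := (c.mem_CT ⟨u, (hU hu).1⟩).1 (hU hu).2
    have hu0 : c.θ ⟨u, (hU hu).1⟩ 0 ≠ 0 := fun h => hu1 (congrArg Subtype.val (c.θ_bij.1 (show
      c.θ ⟨u, (hU hu).1⟩ = c.θ 1 by
        rw [c.θ_one]; funext i; fin_cases i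
        · exact h
        · exact hu10)))
    refine le_antisymm hU fun x ⟨hxV, hxC⟩ => ?_
    have hx1 := (c.mem_CT ⟨x, hxV⟩).1 hxC
    by_cases hx0 : c.θ ⟨x, hxV⟩ 0 = 0
    · have : (⟨x, hxV⟩ : V) = 1 := c.θ_bij.1 (by
        rw [c.θ_one]; funext i; fin_cases i
        · exact hx0
        · exact hx1)
      rw [show x = 1 from congrArg Subtype.val this]
      exact one_mem U
    obtain ⟨l, hl, h00, h01, h10, h11⟩ := c.torus (div_ne_zero hx0 hu0)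
    have hmem := (mem_normalizer_iff.1 (hN hl) u).1 hu
    have he : c.cj l ⟨u, (hU hu).1⟩ = ⟨x, hxV⟩ := c.θ_bij.1 (by
      rw [c.θ_cj, mulVec_fin2, h00, h01, h10, h11, hu10]
      funext i; fin_cases i
      · simp [div_mul_cancel₀ _ hu0]
      · simp [hx1])
    rw [show x = (l : G) * u * (l : G)⁻¹ from (congrArg Subtype.val he).symm]
    exact hmem
  · by_cases hb : U ≤ V ⊓ centralizer (T : Set G)
    · exact Or.inl (le_antisymm hb hU)
    right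
    obtain ⟨u, hu, hnu⟩ := SetLike.not_le_iff_exists.1 hb
    have hu1 : c.θ ⟨u, hUV hu⟩ 1 ≠ 0 := fun h => hnu ⟨hUV hu, (c.mem_CT ⟨u, hUV hu⟩).2 h⟩
    refine le_antisymm hUV fun x hxV => ?_
    by_cases hx1 : c.θ ⟨x, hxV⟩ 1 = 0
    · exact hU ⟨hxV, (c.mem_CT ⟨x, hxV⟩).2 hx1⟩
    obtain ⟨l, hl, h00, h01, h10, h11⟩ := c.torus (div_ne_zero hu1 hx1)
    set w := c.cj l ⟨u, hUV hu⟩
    have hwU : (w : G) ∈ U := (mem_normalizer_iff.1 (hN hl) u).1 hu
    have hd : (((⟨x, hxV⟩ : V) * w⁻¹ : V) : G) ∈ U := by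
      refine hU ⟨SetLike.coe_mem _, (c.mem_CT _).2 ?_⟩
      rw [c.θ_mul, c.θ_inv, c.θ_cj, mulVec_fin2, h00, h01, h10, h11]
      simp only [Pi.add_apply, Pi.neg_apply, Matrix.cons_val_one, Matrix.cons_val_fin_one]
      field_simp
      ring
    have := U.mul_mem hd hwU
    simpa using this

end Coord

end Cfsg.Lib.NatMod
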