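import Mathlib
import Cfsg.Prelude.Def_Local
import Cfsg.Agent.Lib.Solv.Cores
import Cfsg.Agent.Lib.Transfer.Basic

set_option autoImplicit false
open Cfsg

namespace Cfsg.Lib.PLocal.PLengthOne

/-- `p`-length at most one follows from a normal Sylow subgroup modulo the `p'`-core. -/
theorem pLengthLE_one {G : Type*} [Group G] [Finite G] {p : ℕ} [Fact p.Prime]
    (key : ∀ (U : Subgroup G) [U.Normal], U = Cfsg.pPrimeCore p G → ¬ p ∣ (Cfsg.pCore p (G ⧸ U)).index) :
    Cfsg.PLengthLE p 1 G := by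
  classical
  have hpp : p.Prime := Fact.out
  have hU1 : (Cfsg.upperPSeries p G 1).1 = Cfsg.pPrimeCore p G := by
    show (if Even 0 then (⟨_, _⟩ : {H : Subgroup G // H.Normal}) else ⟨_, _⟩).1 = _
    rw [if_pos (by decide : Even 0)]
    show (Cfsg.pPrimeCore p (G ⧸ (Cfsg.upperPSeries p G 0).1)).comap _ = _
    have h0 : (Cfsg.upperPSeries p G 0).1 = ⊥ := rfl
    refine le_antisymm (fun x hx => ?_) (fun x hx => ?_)
    · let e : G ≃* G ⧸ (Cfsg.upperPSeries p G 0).1 :=
        MulEquiv.ofBijective (QuotientGroup.mk' _)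
          ⟨(MonoidHom.ker_eq_bot_iff _).mp (by rw [QuotientGroup.ker_mk', h0]),
            QuotientGroup.mk'_surjective _⟩
      exact Cfsg.Lib.Solv.map_pPrimeCore_le p (f := e.symm.toMonoidHom) e.symm.surjective
        ⟨_, hx, e.symm_apply_apply x⟩
    · exact Cfsg.Lib.Solv.map_pPrimeCore_le p (f := QuotientGroup.mk' _)
        (QuotientGroup.mk'_surjective _) ⟨x, hx, rfl⟩
  have h2 : ¬ p ∣ (Cfsg.upperPSeries p G 2).1.index := by
    show ¬ p ∣ (if Even 1 then (⟨_, _⟩ : {H : Subgroup G // H.Normal}) else ⟨_, _⟩).1.index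
    rw [if_neg (by decide : ¬ Even 1)]
    show ¬ p ∣ ((Cfsg.pCore p (G ⧸ (Cfsg.upperPSeries p G 1).1)).comap _).index
    rw [Subgroup.index_comap_of_surjective _ (QuotientGroup.mk'_surjective _)]
    exact key _ hU1
  show (if Even 2 then (⟨_, _⟩ : {H : Subgroup G // H.Normal}) else ⟨_, _⟩).1 = ⊤
  rw [if_pos (by decide : Even 2)]
  show (Cfsg.pPrimeCore p (G ⧸ (Cfsg.upperPSeries p G 2).1)).comap _ = ⊤
  rw [eq_top_iff]
  intro x _
  refine Cfsg.Lib.Solv.le_pPrimeCore inferInstance ?_ (Subgroup.mem_top _)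
  rw [Subgroup.card_top, ← Subgroup.index_eq_card]
  exact ((Nat.Prime.coprime_iff_not_dvd hpp).mpr h2).symm

end Cfsg.Lib.PLocal.PLengthOne
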