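import Mathlib
import Cfsg.Prelude.Def_Transfer
import Cfsg.Agent.Lib.Solv.PGroupBasic

/-!
The extraspecial group of plus type and the normalizer of its real representation.
-/

set_option autoImplicit false

open Matrix
open scoped commutatorElement

namespace Cfsg.Lib.PLocal.PlusExtra

/-- Vectors. -/
abbrev Vn (n : ℕ) := Fin n → ZMod 2

variable {n : ℕ}

/-- Signs. -/
noncomputable def sg (e : ZMod 2) : ℝ := if e = 0 then 1 else -1

theorem zmod2_cases (a : ZMod 2) : a = 0 ∨ a = 1 := by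
  revert a; decide

theorem sg_zero : sg 0 = 1 := if_pos rfl

theorem sg_one : sg 1 = -1 := if_neg (by decide)

theorem sg_add (a b : ZMod 2) : sg (a + b) = sg a * sg b := by
  rcases zmod2_cases a with rfl | rfl <;> rcases zmod2_cases b with rfl | rfl <;>
    simp [sg_zero, sg_one, show (1 : ZMod 2) + 1 = 0 from rfl]

theorem sg_sq (a : ZMod 2) : sg a * sg a = 1 := by
  rw [← sg_add, show a + a = 0 from by revert a; decide, sg_zero]

theorem sg_ne (a : ZMod 2) : sg a ≠ 0 := fun h => by simpa [h] using sg_sq a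

theorem sg_inj {a b : ZMod 2} (h : sg a = sg b) : a = b := by
  rcases zmod2_cases a with rfl | rfl <;> rcases zmod2_cases b with rfl | rfl <;>
    first | rfl | (exfalso; rw [sg_zero, sg_one] at h; norm_num at h)

theorem add_self' {M : Type*} [AddCommGroup M] [Module (ZMod 2) M] (x : M) : x + x = 0 := by
  rw [← two_smul (ZMod 2) x, show (2 : ZMod 2) = 0 from rfl, zero_smul]

/-- The representing matrices. -/
noncomputable def P (u : Vn n × Vn n) : Matrix (Vn n) (Vn n) ℝ :=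
  Matrix.of fun r s => if r = s + u.1 then sg (u.2 ⬝ᵥ s) else 0

theorem P_apply (u : Vn n × Vn n) (r s : Vn n) : P u r s = if r = s + u.1 then sg (u.2 ⬝ᵥ s) else 0 := rfl

theorem P_mul (u v : Vn n × Vn n) : P u * P v = sg (u.2 ⬝ᵥ v.1) • P (u + v) := by
  ext r s
  rw [Matrix.mul_apply, Finset.sum_eq_single (s + v.1) (fun t _ ht => by
    rw [P_apply v t s, if_neg ht, mul_zero]) (fun h => absurd (Finset.mem_univ _) h)]
  rw [Matrix.smul_apply, smul_eq_mul, P_apply, P_apply, P_apply, if_pos rfl, Prod.fst_add, Prod.snd_add]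
  by_cases h : r = s + v.1 + u.1
  · rw [if_pos h, if_pos (by rw [h]; abel), ← sg_add, ← sg_add, dotProduct_add, add_dotProduct]
    congr 1
    abel
  · rw [if_neg h, if_neg (fun h' => h (by rw [h']; abel)), zero_mul, mul_zero]

theorem P_zero : P (0 : Vn n × Vn n) = 1 := by
  ext r s
  rw [P_apply, Matrix.one_apply, Prod.fst_zero, Prod.snd_zero, add_zero, zero_dotProduct, sg_zero]

theorem P_sq (u : Vn n × Vn n) : P u * P u = sg (u.2 ⬝ᵥ u.1) • (1 : Matrix (Vn n) (Vn n) ℝ) := by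
  rw [P_mul, add_self', P_zero]

theorem P_transpose (u : Vn n × Vn n) : (P u)ᵀ = sg (u.2 ⬝ᵥ u.1) • P u := by
  ext r s
  rw [Matrix.transpose_apply, Matrix.smul_apply, smul_eq_mul, P_apply, P_apply]
  by_cases h : s = r + u.1
  · rw [if_pos h, if_pos (by rw [h, add_assoc, add_self', add_zero]), ← sg_add, ← dotProduct_add, h]
    congr 2
    rw [add_left_comm, add_self', add_zero]
  · rw [if_neg h, if_neg (fun h' => h (by rw [h', add_assoc, add_self', add_zero])), mul_zero]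

theorem P_orth (u : Vn n × Vn n) : (P u)ᵀ * P u = 1 := by
  rw [P_transpose, Matrix.smul_mul, P_sq, smul_smul, sg_sq, one_smul]

theorem P_comm (u v : Vn n × Vn n) : P u * P v = sg (u.2 ⬝ᵥ v.1 + v.2 ⬝ᵥ u.1) • (P v * P u) := by
  rw [P_mul v u, smul_smul, sg_add, mul_assoc, sg_sq, mul_one, P_mul, add_comm u v]

theorem dot_single (y : Vn n) (i : Fin n) : y ⬝ᵥ Pi.single i 1 = y i := by
  rw [dotProduct_single, mul_one]

theorem exists_dot (h : Vn n →+ ZMod 2) : ∃ y : Vn n, ∀ x, h x = y ⬝ᵥ x := by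
  refine ⟨fun i => h (Pi.single i 1), fun x => ?_⟩
  conv_lhs => rw [← Finset.univ_sum_single x]
  rw [map_sum]
  refine Finset.sum_congr rfl fun i _ => ?_
  rcases zmod2_cases (x i) with e | e <;> simp [e]

theorem P_trace {u : Vn n × Vn n} (hu : u ≠ 0) : Matrix.trace (P u) = 0 := by
  rw [Matrix.trace]
  by_cases hx : u.1 = 0
  · obtain ⟨i, hi⟩ : ∃ i, u.2 i ≠ 0 := by
      by_contra h
      push Not at h
      exact hu (Prod.ext hx (funext h))
    have hi1 : u.2 i = 1 := (zmod2_cases _).resolve_left hi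
    have e : ∀ s : Vn n, P u s s = sg (u.2 ⬝ᵥ s) := fun s => by rw [P_apply, hx, add_zero, if_pos rfl]
    simp only [Matrix.diag_apply, e]
    have h1 : ∑ s : Vn n, sg (u.2 ⬝ᵥ s) = ∑ s : Vn n, -sg (u.2 ⬝ᵥ s) := by
      refine Fintype.sum_equiv (Equiv.addRight (Pi.single i 1)) _ _ fun s => ?_
      rw [Equiv.coe_addRight, dotProduct_add, dot_single, hi1, sg_add, sg_one]
      ring
    rw [Finset.sum_neg_distrib] at h1
    linarith
  · refine Finset.sum_eq_zero fun s _ => ?_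
    rw [Matrix.diag_apply, P_apply, if_neg (fun h => hx ?_)]
    simpa using h.symm

theorem P_ne (u : Vn n × Vn n) : P u ≠ 0 := fun h => by
  have := P_orth u
  rw [h, mul_zero] at this
  exact one_ne_zero this.symm

theorem P_inj {u v : Vn n × Vn n} {c : ℝ} (h : P u = c • P v) : u = v := by
  by_contra hne
  have h1 : P u * P v = (c * sg (v.2 ⬝ᵥ v.1)) • (1 : Matrix (Vn n) (Vn n) ℝ) := by
    rw [h, Matrix.smul_mul, P_sq, smul_smul]
  have h2 := congrArg Matrix.trace h1
  rw [P_mul, Matrix.trace_smul, P_trace, smul_zero, Matrix.trace_smul, Matrix.trace_one, smul_eq_mul,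
    eq_comm, mul_eq_zero, mul_eq_zero] at h2
  · rcases h2 with (h2 | h2) | h2
    · exact P_ne u (by rw [h, h2, zero_smul])
    · exact sg_ne _ h2
    · exact Fintype.card_ne_zero (Nat.cast_eq_zero.1 h2)
  · intro h0
    exact hne (by rw [← add_zero u, ← add_self' v, ← add_assoc, h0, zero_add])

theorem schur {T : Matrix (Vn n) (Vn n) ℝ} (h : ∀ u, T * P u = P u * T) : T = T 0 0 • 1 := by
  have hdiag : ∀ r s : Vn n, r ≠ s → T r s = 0 := by
    intro r s hne
    obtain ⟨i, hi⟩ : ∃ i, r i ≠ s i := Function.ne_iff.1 hne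
    have h1 := congrFun (congrFun (h ((0 : Vn n), Pi.single i 1)) r) s
    rw [Matrix.mul_apply, Matrix.mul_apply, Finset.sum_eq_single s (fun t _ ht => by
      rw [P_apply, if_neg (by simpa using ht), mul_zero]) (fun h => absurd (Finset.mem_univ _) h),
      Finset.sum_eq_single r (fun t _ ht => by
      rw [P_apply, if_neg (by simpa using ht.symm), zero_mul]) (fun h => absurd (Finset.mem_univ _) h),
      P_apply, P_apply, if_pos (add_zero s).symm, if_pos (add_zero r).symm, single_dotProduct, single_dotProduct,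
      one_mul, one_mul, mul_comm] at h1
    by_contra hT
    exact hi (sg_inj (mul_right_cancel₀ hT h1)).symm
  ext r s
  rw [Matrix.smul_apply, smul_eq_mul, Matrix.one_apply]
  by_cases hrs : r = s
  · subst hrs
    rw [if_pos rfl, mul_one]
    have h1 := congrFun (congrFun (h (r, (0 : Vn n))) r) 0
    rw [Matrix.mul_apply, Matrix.mul_apply, Finset.sum_eq_single r (fun t _ ht => by
      rw [P_apply, if_neg (by simpa using ht), mul_zero]) (fun h => absurd (Finset.mem_univ _) h),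
      Finset.sum_eq_single (0 : Vn n) (fun t _ ht => by
      rw [P_apply, if_neg (by simpa [eq_comm] using ht), zero_mul]) (fun h => absurd (Finset.mem_univ _) h),
      P_apply, if_pos (zero_add r).symm, zero_dotProduct, sg_zero, mul_one, one_mul] at h1
    exact h1
  · rw [if_neg hrs, mul_zero, hdiag r s hrs]

variable {K : Type*} [Group K] (A : K →* ((Vn n × Vn n) →ₗ[ZMod 2] (Vn n × Vn n)))
  (hA : ∀ k u, (A k u).2 ⬝ᵥ (A k u).1 = u.2 ⬝ᵥ u.1)

/-- Ambient group. -/
abbrev Amb (n : ℕ) := (Matrix (Vn n) (Vn n) ℝ)ˣ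

/-- `T` induces `k`. -/
def Ind (T : Matrix (Vn n) (Vn n) ℝ) (k : K) : Prop :=
  ∀ u, ∃ e : ZMod 2, T * P u = sg e • (P (A k u) * T)

theorem Ind.mul {T S : Matrix (Vn n) (Vn n) ℝ} {k l : K} (hT : Ind A T k) (hS : Ind A S l) :
    Ind A (T * S) (k * l) := fun u => by
  obtain ⟨e, he⟩ := hS u
  obtain ⟨f, hf⟩ := hT (A l u)
  refine ⟨e + f, ?_⟩
  rw [mul_assoc, he, Matrix.mul_smul, ← mul_assoc, hf, Matrix.smul_mul, smul_smul, ← sg_add, mul_assoc, map_mul]
  rfl

theorem Ind.one : Ind A (1 : Matrix (Vn n) (Vn n) ℝ) (1 : K) := fun u =>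
  ⟨0, by rw [one_mul, mul_one, sg_zero, one_smul, map_one]; rfl⟩

theorem Ind.inv {T : Amb n} {k : K} (hT : Ind A (T : Matrix (Vn n) (Vn n) ℝ) k) :
    Ind A ((T⁻¹ : Amb n) : Matrix (Vn n) (Vn n) ℝ) k⁻¹ := fun u => by
  obtain ⟨e, he⟩ := hT (A k⁻¹ u)
  refine ⟨e, ?_⟩
  have hu : A k (A k⁻¹ u) = u := by
    rw [show A k (A k⁻¹ u) = (A k * A k⁻¹) u from rfl, ← map_mul, mul_inv_cancel, map_one]; rfl
  rw [hu] at he
  have h2 : ((T⁻¹ : Amb n) : Matrix (Vn n) (Vn n) ℝ) * (T * P (A k⁻¹ u)) * ((T⁻¹ : Amb n) : Matrix (Vn n) (Vn n) ℝ)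
      = P (A k⁻¹ u) * ((T⁻¹ : Amb n) : Matrix (Vn n) (Vn n) ℝ) := by
    rw [← mul_assoc, Units.inv_mul, one_mul]
  rw [he, Matrix.mul_smul, Matrix.smul_mul, ← mul_assoc, mul_assoc _ (T : Matrix (Vn n) (Vn n) ℝ), Units.mul_inv, mul_one] at h2
  rw [← h2, smul_smul, sg_sq, one_smul]

/-- The normalizer. -/
def R : Subgroup (Amb n) where
  carrier := {T | ((T : Matrix (Vn n) (Vn n) ℝ))ᵀ * T = 1 ∧ ∃ k, Ind A (T : Matrix (Vn n) (Vn n) ℝ) k}
  one_mem' := ⟨by rw [Units.val_one, Matrix.transpose_one, one_mul], 1, Ind.one A⟩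
  mul_mem' := by
    rintro T S ⟨hT, k, hk⟩ ⟨hS, l, hl⟩
    refine ⟨?_, k * l, by rw [Units.val_mul]; exact hk.mul A hl⟩
    rw [Units.val_mul, Matrix.transpose_mul, mul_assoc, ← mul_assoc (T : Matrix (Vn n) (Vn n) ℝ)ᵀ, hT, one_mul, hS]
  inv_mem' := by
    rintro T ⟨hT, k, hk⟩
    refine ⟨?_, k⁻¹, hk.inv A⟩
    have e : ((T⁻¹ : Amb n) : Matrix (Vn n) (Vn n) ℝ) = (T : Matrix (Vn n) (Vn n) ℝ)ᵀ := by
      have := congrArg (· * ((T⁻¹ : Amb n) : Matrix (Vn n) (Vn n) ℝ)) hT
      simp only [mul_assoc, Units.mul_inv, mul_one, one_mul] at this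
      exact this.symm
    rw [e, Matrix.transpose_transpose, ← e, Units.mul_inv]

/-- Units `± P u`. -/
noncomputable def U' (u : Vn n × Vn n) (e : ZMod 2) : Amb n where
  val := sg e • P u
  inv := sg e • (P u)ᵀ
  val_inv := by
    rw [Matrix.smul_mul, Matrix.mul_smul, smul_smul, sg_sq, one_smul, mul_eq_one_comm, P_orth]
  inv_val := by rw [Matrix.smul_mul, Matrix.mul_smul, smul_smul, sg_sq, one_smul, P_orth]

theorem U'_val (u : Vn n × Vn n) (e : ZMod 2) :
    ((U' u e : Amb n) : Matrix (Vn n) (Vn n) ℝ) = sg e • P u := rfl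

theorem U'_mem (u : Vn n × Vn n) (e : ZMod 2) : U' u e ∈ R A := by
  refine ⟨?_, 1, fun v => ⟨u.2 ⬝ᵥ v.1 + v.2 ⬝ᵥ u.1, ?_⟩⟩
  · rw [U'_val, Matrix.transpose_smul, Matrix.smul_mul, Matrix.mul_smul, smul_smul, sg_sq, one_smul, P_orth]
  · rw [U'_val, Matrix.smul_mul, P_comm, Matrix.mul_smul, smul_smul, smul_smul, mul_comm, map_one]
    rfl

theorem U'_mul (u v : Vn n × Vn n) (e f : ZMod 2) : U' u e * U' v f = U' (u + v) (e + f + u.2 ⬝ᵥ v.1) := by
  apply Units.ext
  rw [Units.val_mul, U'_val, U'_val, U'_val, Matrix.smul_mul, Matrix.mul_smul, P_mul, smul_smul, smul_smul,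
    ← sg_add, ← sg_add, add_assoc]

theorem U'_inj {u v : Vn n × Vn n} {e f : ZMod 2} (h : U' u e = U' v f) : u = v ∧ e = f := by
  have h1 : sg e • P u = sg f • P v := congrArg Units.val h
  have h2 : P u = (sg e * sg f) • P v := by rw [← smul_smul, ← h1, smul_smul, sg_sq, one_smul]
  obtain rfl := P_inj h2
  refine ⟨rfl, sg_inj ?_⟩
  exact smul_left_injective ℝ (P_ne u) h1

theorem U'_zero : U' (0 : Vn n × Vn n) 0 = 1 := Units.ext (by rw [U'_val, sg_zero, one_smul, P_zero, Units.val_one])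

/-- The extraspecial group inside `R`. -/
def Qs : Subgroup ↥(R A) where
  carrier := {T | ∃ u e, (T : Amb n) = U' u e}
  one_mem' := ⟨0, 0, U'_zero.symm⟩
  mul_mem' := by
    rintro T S ⟨u, e, hT⟩ ⟨v, f, hS⟩
    exact ⟨_, _, by rw [Subgroup.coe_mul, hT, hS, U'_mul]⟩
  inv_mem' := by
    rintro T ⟨u, e, hT⟩
    refine ⟨u, e + u.2 ⬝ᵥ u.1, ?_⟩
    rw [Subgroup.coe_inv, hT]
    refine inv_eq_of_mul_eq_one_right ?_
    rw [U'_mul, add_self', ← U'_zero]
    congr 1
    generalize u.2 ⬝ᵥ u.1 = a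
    clear hT
    revert a e; decide

theorem eq_one_of_fix (hAi : Function.Injective A) {T : Amb n} {k l : K}
    (hk : Ind A (T : Matrix (Vn n) (Vn n) ℝ) k) (hl : Ind A (T : Matrix (Vn n) (Vn n) ℝ) l) : k = l := by
  refine hAi (LinearMap.ext fun u => ?_)
  obtain ⟨e, he⟩ := hk u
  obtain ⟨f, hf⟩ := hl u
  rw [hf] at he
  have h1 := congrArg (· * ((T⁻¹ : Amb n) : Matrix (Vn n) (Vn n) ℝ)) he
  simp only [Matrix.smul_mul, mul_assoc, Units.mul_inv, mul_one] at h1
  refine P_inj (c := sg e * sg f) ?_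
  rw [← smul_smul, h1, smul_smul, sg_sq, one_smul]

theorem mem_Qs (hAi : Function.Injective A) {T : ↥(R A)} (h : Ind A ((T : Amb n) : Matrix (Vn n) (Vn n) ℝ) 1) :
    T ∈ Qs A := by
  set M : Matrix (Vn n) (Vn n) ℝ := ((T : Amb n) : Matrix (Vn n) (Vn n) ℝ) with hM
  choose ε hε using h
  simp only [map_one, Module.End.one_apply] at hε
  have hadd : ∀ u v, ε (u + v) = ε u + ε v := by
    intro u v
    apply sg_inj
    have e1 : M * (P u * P v) = (sg (ε u) * sg (ε v)) • (P u * P v * M) := by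
      rw [← mul_assoc, hε u, Matrix.smul_mul, mul_assoc, hε v, Matrix.mul_smul, smul_smul, ← mul_assoc]
    rw [P_mul, Matrix.mul_smul, hε (u + v), Matrix.smul_mul, smul_smul, smul_smul, mul_comm (sg (ε u) * sg (ε v)),
      ← smul_smul, ← smul_smul (sg (u.2 ⬝ᵥ v.1))] at e1
    rw [sg_add (ε u)]
    refine smul_left_injective ℝ ?_ ((smul_right_injective _ (sg_ne _)) e1)
    intro h0
    have := congrArg (· * ((T : Amb n)⁻¹ : Amb n).val) h0
    simp only [mul_assoc, hM, Units.mul_inv, mul_one, zero_mul] at this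
    exact P_ne _ this
  obtain ⟨y, hy⟩ := exists_dot (AddMonoidHom.mk' (fun x => ε (x, 0)) (fun a b => by rw [← hadd]; simp))
  obtain ⟨x, hx⟩ := exists_dot (AddMonoidHom.mk' (fun y => ε (0, y)) (fun a b => by rw [← hadd]; simp))
  have hε' : ∀ v : Vn n × Vn n, ε v = y ⬝ᵥ v.1 + v.2 ⬝ᵥ x := by
    intro v
    have e : v = (v.1, 0) + (0, v.2) := by ext <;> simp
    rw [e, hadd]
    simp only [AddMonoidHom.mk'_apply] at hy hx
    rw [hy, hx, dotProduct_comm x]
    simp
  set a : Vn n × Vn n := (x, y)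
  have hc : ∀ v, P a * M * P v = P v * (P a * M) := by
    intro v
    rw [mul_assoc, hε v, Matrix.mul_smul, ← mul_assoc, P_comm a v, Matrix.smul_mul, smul_smul, hε',
      sg_sq, one_smul, mul_assoc]
  have hs := schur hc
  set c : ℝ := (P a * M) 0 0
  have horth : (P a * M)ᵀ * (P a * M) = 1 := by
    rw [Matrix.transpose_mul, mul_assoc, ← mul_assoc (P a)ᵀ, P_orth, one_mul]
    exact T.2.1
  rw [hs, Matrix.transpose_smul, Matrix.transpose_one, Matrix.smul_mul, Matrix.mul_smul, one_mul, smul_smul] at horth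
  have hcc : c * c = 1 := by
    have := congrFun (congrFun horth 0) 0
    simpa using this
  obtain ⟨d, hd⟩ : ∃ d : ZMod 2, c = sg d := by
    rcases mul_self_eq_one_iff.1 hcc with h | h
    · exact ⟨0, by rw [sg_zero, h]⟩
    · exact ⟨1, by rw [sg_one, h]⟩
  refine ⟨a, d + a.2 ⬝ᵥ a.1, Units.ext ?_⟩
  rw [U'_val, sg_add, ← hd]
  have e2 : P a * (P a * M) = P a * (c • 1) := by rw [← hs]
  rw [← mul_assoc, P_sq, Matrix.smul_mul, one_mul, Matrix.mul_smul, mul_one] at e2
  calc M = sg (a.2 ⬝ᵥ a.1) • (sg (a.2 ⬝ᵥ a.1) • M) := by rw [smul_smul, sg_sq, one_smul]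
    _ = _ := by rw [e2, smul_smul, mul_comm]

theorem exists_lift (β : LinearMap.BilinForm (ZMod 2) (Vn n × Vn n)) {k : K}
    (hβ : ∀ u v, β u v + β v u = (A k u).2 ⬝ᵥ (A k v).1 + u.2 ⬝ᵥ v.1) (hAi : Function.Injective A) :
    ∃ T : ↥(R A), Ind A ((T : Amb n) : Matrix (Vn n) (Vn n) ℝ) k := by
  classical
  set P' : Vn n × Vn n → Matrix (Vn n) (Vn n) ℝ := fun u => sg (β u u) • P (A k u)
  have hP' : ∀ u v, P' u * P' v = sg (u.2 ⬝ᵥ v.1) • P' (u + v) := by
    intro u v
    simp only [P']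
    rw [Matrix.smul_mul, Matrix.mul_smul, P_mul, smul_smul, smul_smul, smul_smul, map_add (A k), ← sg_add, ← sg_add, ← sg_add]
    congr 2
    simp only [map_add, LinearMap.add_apply]
    have h := hβ u v
    generalize (A k u).2 ⬝ᵥ (A k v).1 = a at *
    generalize u.2 ⬝ᵥ v.1 = b at *
    generalize β u u = c at *
    generalize β v v = d at *
    generalize β u v = e at *
    generalize β v u = f at *
    revert h; revert a b c d e f; decide
  let T0 : Matrix (Vn n) (Vn n) ℝ → Matrix (Vn n) (Vn n) ℝ := fun X => ∑ u, P' u * X * (P u)ᵀ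
  have hint : ∀ X v, P' v * T0 X = T0 X * P v := by
    intro X v
    simp only [T0]
    rw [Finset.mul_sum, Finset.sum_mul]
    refine Fintype.sum_equiv (Equiv.addLeft v) _ _ fun u => ?_
    simp only [Equiv.coe_addLeft]
    have e1 : (P (v + u))ᵀ * P v = sg (v.2 ⬝ᵥ u.1) • (P u)ᵀ := by
      have h2 : P (v + u) = sg (v.2 ⬝ᵥ u.1) • (P v * P u) := by rw [P_mul, smul_smul, sg_sq, one_smul]
      rw [h2, Matrix.transpose_smul, Matrix.transpose_mul, Matrix.smul_mul, mul_assoc, P_orth, mul_one]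
    calc P' v * (P' u * X * (P u)ᵀ) = (P' v * P' u) * X * (P u)ᵀ := by simp only [mul_assoc]
      _ = sg (v.2 ⬝ᵥ u.1) • (P' (v + u) * X * (P u)ᵀ) := by rw [hP', Matrix.smul_mul, Matrix.smul_mul]
      _ = P' (v + u) * X * ((P (v + u))ᵀ * P v) := by rw [e1, Matrix.mul_smul]
      _ = _ := by simp only [mul_assoc]
  obtain ⟨r, s, hrs⟩ : ∃ r s, T0 (Matrix.single r s 1) r s ≠ 0 := by
    by_contra h
    push Not at h
    have e : ∑ r, ∑ s, T0 (Matrix.single r s 1) r s = ∑ u, Matrix.trace (P' u) * Matrix.trace (P u) := by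
      simp only [T0, Matrix.sum_apply]
      rw [Finset.sum_congr rfl fun r _ => Finset.sum_comm, Finset.sum_comm]
      refine Finset.sum_congr rfl fun u _ => ?_
      rw [Matrix.trace, Matrix.trace, Finset.sum_mul_sum]
      refine Finset.sum_congr rfl fun r _ => Finset.sum_congr rfl fun s _ => ?_
      rw [Matrix.mul_apply, Finset.sum_eq_single s (fun t _ ht => by
        rw [Matrix.mul_single_apply_of_ne _ _ _ _ _ ht, zero_mul]) (fun h => absurd (Finset.mem_univ _) h),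
        Matrix.mul_single_apply_same, mul_one, Matrix.transpose_apply]
      rfl
    rw [Finset.sum_eq_zero fun r _ => Finset.sum_eq_zero fun s _ => h r s,
      Finset.sum_eq_single (0 : Vn n × Vn n) (fun u _ hu => by rw [P_trace hu, mul_zero])
        (fun h => absurd (Finset.mem_univ _) h)] at e
    simp [P', P_zero, sg_zero] at e
  set T1 := T0 (Matrix.single r s 1)
  have hint' : ∀ v, T1 * P v = P' v * T1 := fun v => (hint _ v).symm
  have horth' : ∀ v, (P' v)ᵀ * P' v = 1 := fun v => by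
    simp only [P']
    rw [Matrix.transpose_smul, Matrix.smul_mul, Matrix.mul_smul, smul_smul, sg_sq, one_smul, P_orth]
  have hN := schur (T := T1ᵀ * T1) fun v => by
    have e1 : T1ᵀ * P' v = P v * T1ᵀ := by
      have h := congrArg Matrix.transpose (hint' v)
      rw [Matrix.transpose_mul, Matrix.transpose_mul] at h
      calc T1ᵀ * P' v = (P v * (P v)ᵀ) * (T1ᵀ * P' v) := by rw [mul_eq_one_comm.1 (P_orth v), one_mul]
        _ = P v * (((P v)ᵀ * T1ᵀ) * P' v) := by simp only [mul_assoc]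
        _ = P v * T1ᵀ := by rw [h, mul_assoc, horth', mul_one]
    rw [mul_assoc, hint', ← mul_assoc, e1, mul_assoc]
  set lam := (T1ᵀ * T1) 0 0
  have hlam : 0 < lam := by
    have h1 : (T1ᵀ * T1) s s = lam := by rw [hN]; simp
    rw [← h1, Matrix.mul_apply]
    exact Finset.sum_pos' (fun t _ => by rw [Matrix.transpose_apply]; exact mul_self_nonneg _)
      ⟨r, Finset.mem_univ _, by rw [Matrix.transpose_apply]; exact mul_self_pos.2 hrs⟩
  set c := (Real.sqrt lam)⁻¹ with hc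
  have hcc : c * c * lam = 1 := by
    rw [hc, ← mul_inv, Real.mul_self_sqrt hlam.le, inv_mul_cancel₀ hlam.ne']
  have hT : (c • T1)ᵀ * (c • T1) = 1 := by
    rw [Matrix.transpose_smul, Matrix.smul_mul, Matrix.mul_smul, smul_smul, hN, smul_smul, hcc, one_smul]
  let T : Amb n := ⟨c • T1, (c • T1)ᵀ, mul_eq_one_comm.1 hT, hT⟩
  have hind : Ind A (T : Matrix (Vn n) (Vn n) ℝ) k := fun u => ⟨β u u, by
    show (c • T1) * P u = sg (β u u) • (P (A k u) * (c • T1))
    rw [Matrix.smul_mul, hint', Matrix.mul_smul, smul_comm]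
    simp only [P', Matrix.smul_mul]⟩
  exact ⟨⟨T, hT, k, hind⟩, hind⟩

include hA in
theorem exists_beta (k : K) : ∃ β : LinearMap.BilinForm (ZMod 2) (Vn n × Vn n),
    ∀ u v, β u v + β v u = (A k u).2 ⬝ᵥ (A k v).1 + u.2 ⬝ᵥ v.1 := by
  classical
  let b := Module.finBasis (ZMod 2) (Vn n × Vn n)
  let Bf : LinearMap.BilinForm (ZMod 2) (Vn n × Vn n) := LinearMap.mk₂ (ZMod 2)
    (fun u v => (A k u).2 ⬝ᵥ (A k v).1 + u.2 ⬝ᵥ v.1)
    (fun _ _ _ => by simp only [map_add, Prod.snd_add, add_dotProduct]; abel)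
    (fun _ _ _ => by simp only [map_smul, Prod.smul_snd, smul_dotProduct, smul_add])
    (fun _ _ _ => by simp only [map_add, Prod.fst_add, dotProduct_add]; abel)
    (fun _ _ _ => by simp only [map_smul, Prod.smul_fst, dotProduct_smul, smul_add])
  have hBf : ∀ u v, Bf u v = (A k u).2 ⬝ᵥ (A k v).1 + u.2 ⬝ᵥ v.1 := fun _ _ => rfl
  have hz : ∀ u, Bf u u = 0 := fun u => by rw [hBf, hA]; exact add_self' _
  have hsymm : ∀ u v, Bf u v = Bf v u := fun u v => by
    have h := hz (u + v)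
    simp only [map_add, LinearMap.add_apply, hz, zero_add, add_zero] at h
    generalize Bf u v = a at *
    generalize Bf v u = c at *
    revert h; revert a c; decide
  let β : LinearMap.BilinForm (ZMod 2) (Vn n × Vn n) :=
    Matrix.toBilin b (Matrix.of fun i j => if i < j then Bf (b i) (b j) else 0)
  have hb : ∀ i j, β (b i) (b j) = if i < j then Bf (b i) (b j) else 0 := fun i j => by
    have := congrFun (congrFun (LinearMap.BilinForm.toMatrix_toBilin b (Matrix.of fun i j => if i < j then Bf (b i) (b j) else 0)) i) j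
    rwa [LinearMap.BilinForm.toMatrix_apply] at this
  have he : β + β.flip = Bf := by
    refine LinearMap.BilinForm.ext_basis b fun i j => ?_
    show β (b i) (b j) + β (b j) (b i) = _
    rw [hb, hb]
    rcases lt_trichotomy i j with h | h | h
    · rw [if_pos h, if_neg h.not_gt, add_zero]
    · subst h; rw [if_neg (lt_irrefl _), add_zero, hz]
    · rw [if_neg h.not_gt, if_pos h, zero_add, hsymm]
  exact ⟨β, fun u v => by rw [← hBf, ← he]; rfl⟩

include hA in
theorem extension (hn : 1 ≤ n) (hAi : Function.Injective A) {U : Type*} [AddCommGroup U] [Module (ZMod 2) U]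
    (L : U ≃ₗ[ZMod 2] (Vn n × Vn n)) (q : U → ZMod 2) (hq : ∀ u, q u = (L u).2 ⬝ᵥ (L u).1) :
    ∃ (R : Type) (_ : Group R) (_ : Finite R) (Q : Subgroup R) (hN : Q.Normal) (e : R ⧸ Q ≃* K) (χ : ↥Q →* Multiplicative U),
      Cfsg.IsExtraspecial 2 ↥Q ∧ Nat.card ↥Q = 2 ^ (2 * n + 1) ∧ Function.Surjective χ ∧ χ.ker = Subgroup.center ↥Q ∧
      (∀ (r : R) (a : ↥Q), χ ⟨r * a * r⁻¹, hN.conj_mem (a : R) a.2 r⟩ =
        Multiplicative.ofAdd (L.symm (A (e (r : R ⧸ Q)) (L (Multiplicative.toAdd (χ a)))))) ∧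
      ∀ a : ↥Q, a * a = 1 ↔ q (Multiplicative.toAdd (χ a)) = 0 := by
  classical
  let π : ↥(R A) →* K := MonoidHom.mk' (fun T => T.2.2.choose) (fun T S => eq_one_of_fix A hAi (T := ((T * S : ↥(R A)) : Amb n))
    (T * S).2.2.choose_spec (by rw [Subgroup.coe_mul, Units.val_mul]; exact T.2.2.choose_spec.mul A S.2.2.choose_spec))
  have hπ : ∀ (T : ↥(R A)) k, Ind A ((T : Amb n) : Matrix (Vn n) (Vn n) ℝ) k → π T = k :=
    fun T k hk => eq_one_of_fix A hAi T.2.2.choose_spec hk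
  have hπ' : ∀ T : ↥(R A), Ind A ((T : Amb n) : Matrix (Vn n) (Vn n) ℝ) (π T) := fun T => T.2.2.choose_spec
  have hsurj : Function.Surjective π := fun k => by
    obtain ⟨β, hβ⟩ := exists_beta A hA k
    obtain ⟨T, hT⟩ := exists_lift A β hβ hAi
    exact ⟨T, hπ T k hT⟩
  have hker : π.ker = Qs A := by
    ext T
    rw [MonoidHom.mem_ker]
    refine ⟨fun h => mem_Qs A hAi (h ▸ hπ' T), ?_⟩
    rintro ⟨u, e, h⟩
    refine hπ T 1 fun v => ⟨u.2 ⬝ᵥ v.1 + v.2 ⬝ᵥ u.1, ?_⟩
    rw [h, U'_val, Matrix.smul_mul, P_comm, Matrix.mul_smul, smul_smul, smul_smul, mul_comm, map_one]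
    rfl
  haveI hN : (Qs A).Normal := hker ▸ inferInstance
  -- parameters
  let mk : (Vn n × Vn n) × ZMod 2 → ↥(Qs A) := fun w => ⟨⟨U' w.1 w.2, U'_mem A w.1 w.2⟩, w.1, w.2, rfl⟩
  have hmk : Function.Bijective mk := by
    refine ⟨fun v w h => ?_, fun T => ?_⟩
    · obtain ⟨h1, h2⟩ := U'_inj (congrArg (fun x : ↥(Qs A) => ((x : ↥(R A)) : Amb n)) h)
      exact Prod.ext h1 h2
    · obtain ⟨u, e, h⟩ := T.2
      exact ⟨(u, e), Subtype.ext (Subtype.ext h.symm)⟩
  let eq' := Equiv.ofBijective mk hmk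
  haveI : Finite ↥(Qs A) := Finite.of_equiv _ eq'
  have hcardQ : Nat.card ↥(Qs A) = 2 ^ (2 * n + 1) := by
    rw [← Nat.card_congr eq', Nat.card_prod, Nat.card_prod, Nat.card_fun, Nat.card_zmod, Nat.card_fin, ← pow_add, ← pow_succ,
      two_mul]
  haveI : Finite K := by
    haveI : Finite ((Vn n × Vn n) →ₗ[ZMod 2] (Vn n × Vn n)) :=
      Finite.of_injective (fun f => (f : (Vn n × Vn n) → (Vn n × Vn n))) DFunLike.coe_injective
    exact Finite.of_injective A hAi
  let e : ↥(R A) ⧸ Qs A ≃* K := (QuotientGroup.quotientMulEquivOfEq hker.symm).trans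
    (QuotientGroup.quotientKerEquivOfSurjective π hsurj)
  have he : ∀ r : ↥(R A), e (r : ↥(R A) ⧸ Qs A) = π r := fun r => rfl
  haveI : Finite (↥(R A) ⧸ Qs A) := Finite.of_equiv K e.symm.toEquiv
  haveI : Finite ↥(R A) := Finite.of_subgroup_quotient (Qs A)
  have hmul : ∀ v w, mk v * mk w = mk (v.1 + w.1, v.2 + w.2 + v.1.2 ⬝ᵥ w.1.1) := fun v w =>
    Subtype.ext (Subtype.ext (U'_mul _ _ _ _))
  have hone : mk (0, 0) = 1 := Subtype.ext (Subtype.ext U'_zero)
  have hsym : ∀ v, eq'.symm (mk v) = v := fun v => eq'.symm_apply_apply v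
  let χ : ↥(Qs A) →* Multiplicative U :=
    MonoidHom.mk' (fun T => Multiplicative.ofAdd (L.symm (eq'.symm T).1)) fun S T => by
      obtain ⟨v, rfl⟩ := hmk.2 S
      obtain ⟨w, rfl⟩ := hmk.2 T
      simp only [hmul, hsym, map_add, ofAdd_add]
  have hχ : ∀ v, χ (mk v) = Multiplicative.ofAdd (L.symm v.1) := fun v => by
    show Multiplicative.ofAdd (L.symm (eq'.symm (mk v)).1) = _
    rw [hsym]
  have hχs : Function.Surjective χ := fun z => ⟨mk (L z.toAdd, 0), by rw [hχ, L.symm_apply_apply, ofAdd_toAdd]⟩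
  have hcen : ∀ v, mk v ∈ Subgroup.center ↥(Qs A) ↔ v.1 = 0 := by
    intro v
    rw [Subgroup.mem_center_iff]
    refine ⟨fun h => ?_, fun h S => ?_⟩
    · have key : ∀ w : Vn n × Vn n, w.2 ⬝ᵥ v.1.1 = v.1.2 ⬝ᵥ w.1 := fun w => by
        have h1 := h (mk (w, 0))
        rw [hmul, hmul] at h1
        have := congrArg Prod.snd (hmk.1 h1)
        simp only [zero_add, add_zero] at this
        exact add_left_cancel this
      refine Prod.ext (funext fun i => ?_) (funext fun i => ?_)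
      · have := key (0, Pi.single i 1)
        rw [single_dotProduct, one_mul, dotProduct_zero] at this
        exact this
      · have := key (Pi.single i 1, 0)
        rw [zero_dotProduct, dot_single] at this
        exact this.symm
    · obtain ⟨w, rfl⟩ := hmk.2 S
      rw [hmul, hmul, h]
      simp [add_comm w.2]
  have hkerχ : χ.ker = Subgroup.center ↥(Qs A) := by
    ext S
    obtain ⟨v, rfl⟩ := hmk.2 S
    rw [hcen, MonoidHom.mem_ker, hχ, ofAdd_eq_one, LinearEquiv.map_eq_zero_iff]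
  have hsq : ∀ v, mk v * mk v = 1 ↔ v.1.2 ⬝ᵥ v.1.1 = 0 := fun v => by
    rw [hmul, ← hone]
    refine ⟨fun h => ?_, fun h => ?_⟩
    · have := congrArg Prod.snd (hmk.1 h)
      simpa [add_self'] using this
    · rw [h, add_self', add_self', zero_add]
  refine ⟨↥(R A), inferInstance, inferInstance, Qs A, hN, e, χ, ?_, hcardQ, hχs, hkerχ, ?_, ?_⟩
  · -- extraspecial
    have hp : IsPGroup 2 ↥(Qs A) := IsPGroup.of_card hcardQ
    have hcardZ : Nat.card (Subgroup.center ↥(Qs A)) = 2 := by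
      have e2 : ZMod 2 ≃ Subgroup.center ↥(Qs A) := Equiv.ofBijective
        (fun d => ⟨mk (0, d), (hcen _).2 rfl⟩)
        ⟨fun a b h => congrArg Prod.snd (hmk.1 (congrArg Subtype.val h)), fun ⟨S, hS⟩ => by
          obtain ⟨v, rfl⟩ := hmk.2 S
          exact ⟨v.2, Subtype.ext (congrArg mk (Prod.ext ((hcen v).1 hS).symm rfl))⟩⟩
      rw [← Nat.card_congr e2, Nat.card_zmod]
    have hzsq : ∀ z ∈ Subgroup.center ↥(Qs A), z ^ 2 = 1 := fun z hz => by
      obtain ⟨v, rfl⟩ := hmk.2 z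
      rw [pow_two, hsq, (hcen v).1 hz]
      simp
    have hcomm : commutator ↥(Qs A) = Subgroup.center ↥(Qs A) := by
      refine le_antisymm ?_ ?_
      · rw [← hkerχ]
        exact Abelianization.commutator_subset_ker χ
      · intro z hz
        obtain ⟨⟨v, d⟩, rfl⟩ := hmk.2 z
        obtain rfl : v = 0 := (hcen _).1 hz
        rcases zmod2_cases d with rfl | rfl
        · rw [hone]; exact one_mem _
        · let i : Fin n := ⟨0, hn⟩
          let a := mk ((Pi.single i 1, 0), 0)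
          let b := mk ((0, Pi.single i 1), 0)
          have h2 : ⁅b, a⁆ = mk (0, 1) := by
            rw [commutatorElement_def, mul_inv_eq_iff_eq_mul, mul_inv_eq_iff_eq_mul]
            simp only [a, b, hmul]
            simp [single_dotProduct, add_comm]
          rw [← h2, _root_.commutator_def]
          exact Subgroup.commutator_mem_commutator (Subgroup.mem_top _) (Subgroup.mem_top _)
    refine ⟨⟨hp, le_antisymm ?_ ?_, hcomm⟩, hcardZ⟩
    · refine Cfsg.Lib.Solv.frattini_le_of_elementary_quotient (p := 2) _ hcomm.le fun S => ?_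
      rw [← hkerχ, MonoidHom.mem_ker, map_pow, ← toAdd_eq_zero, toAdd_pow, two_nsmul, add_self']
    · rw [← hcomm]
      exact Cfsg.Lib.Solv.commutator_le_frattini hp
  · intro r S
    obtain ⟨⟨u, d⟩, rfl⟩ := hmk.2 S
    obtain ⟨f, hf⟩ := hπ' r u
    have h1 : (⟨r * (mk (u, d) : ↥(R A)) * r⁻¹, hN.conj_mem _ (mk (u, d)).2 r⟩ : ↥(Qs A)) = mk (A (π r) u, d + f) := by
      refine Subtype.ext (Subtype.ext (Units.ext ?_))
      show ((r : Amb n) : Matrix (Vn n) (Vn n) ℝ) * (sg d • P u) * (((r : Amb n)⁻¹ : Amb n) : Matrix (Vn n) (Vn n) ℝ) = sg (d + f) • P (A (π r) u)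
      rw [Matrix.mul_smul, hf, Matrix.smul_mul, Matrix.smul_mul, mul_assoc, Units.mul_inv, mul_one, smul_smul, sg_add]
    rw [h1, hχ, hχ, he, toAdd_ofAdd, L.apply_symm_apply]
  · intro S
    obtain ⟨v, rfl⟩ := hmk.2 S
    rw [hsq, hχ, toAdd_ofAdd, hq, L.apply_symm_apply]

end Cfsg.Lib.PLocal.PlusExtra
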