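import Mathlib
import Cfsg.Agent.Lib.PLocal.PlusExtraspecial

/-!
Coordinates for a quadratic form of plus type over the field with two elements.
-/

set_option autoImplicit false

open Matrix

namespace Cfsg.Lib.PLocal.PlusExtra

theorem exists_coords {U : Type*} [AddCommGroup U] [Module (ZMod 2) U] [Module.Finite (ZMod 2) U] {n : ℕ}
    (hn : Module.finrank (ZMod 2) U = 2 * n) (q : QuadraticForm (ZMod 2) U)
    (hnd : (QuadraticMap.polarBilin q).Nondegenerate)
    (hplus : ∃ W : Submodule (ZMod 2) U, Module.finrank (ZMod 2) ↥W = n ∧ ∀ w ∈ W, q w = 0) :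
    ∃ L : U ≃ₗ[ZMod 2] (Vn n × Vn n), ∀ u, q u = (L u).2 ⬝ᵥ (L u).1 := by
  classical
  obtain ⟨W, hW, hWq⟩ := hplus
  set B := QuadraticMap.polarBilin q with hB
  have hadd : ∀ a b, q (a + b) = q a + q b + B a b := fun a b => by
    rw [hB, QuadraticMap.polarBilin_apply_apply, QuadraticMap.polar]; ring
  have hsym : ∀ a b, B a b = B b a := fun a b => by
    rw [hB, QuadraticMap.polarBilin_apply_apply, QuadraticMap.polarBilin_apply_apply, QuadraticMap.polar_comm]
  have hWW : ∀ a ∈ W, ∀ b ∈ W, B a b = 0 := fun a ha b hb => by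
    have h := hadd a b
    rw [hWq _ (W.add_mem ha hb), hWq a ha, hWq b hb, zero_add, zero_add] at h
    exact h.symm
  let bw := Module.finBasisOfFinrankEq (ZMod 2) ↥W hW
  let w : Fin n → U := fun i => bw i
  have hw : ∀ i, w i ∈ W := fun i => (bw i).2
  let φ : U →ₗ[ZMod 2] Vn n := LinearMap.pi fun i => B (w i)
  have hφ : LinearMap.range φ = ⊤ := by
    by_contra h
    obtain ⟨f, hf, hle⟩ := Submodule.exists_le_ker_of_lt_top _ (lt_top_iff_ne_top.2 h)
    apply hf
    set a : Fin n → ZMod 2 := fun i => f (Pi.single i 1)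
    have hfa : ∀ x : Vn n, f x = ∑ i, x i * a i := fun x => by
      conv_lhs => rw [pi_eq_sum_univ' x]
      rw [map_sum]
      refine Finset.sum_congr rfl fun i _ => ?_
      rw [map_smul]
      rfl
    have h0 : ∑ i, a i • w i = 0 := by
      refine hnd.1 _ fun u => ?_
      have h1 : f (φ u) = 0 := LinearMap.mem_ker.1 (hle ⟨u, rfl⟩)
      rw [hfa] at h1
      rw [map_sum, LinearMap.sum_apply, ← h1]
      refine Finset.sum_congr rfl fun i _ => ?_
      rw [map_smul, LinearMap.smul_apply, smul_eq_mul, mul_comm]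
      rfl
    have ha : ∀ i, a i = 0 := Fintype.linearIndependent_iff.1
      (bw.linearIndependent.map' W.subtype W.ker_subtype) a h0
    exact LinearMap.ext fun x => by rw [hfa]; simp [ha]
  choose c hc using fun j : Fin n => LinearMap.range_eq_top.1 hφ (Pi.single j 1)
  have hwc : ∀ i j, B (w i) (c j) = if i = j then 1 else 0 := fun i j => by
    have := congrFun (hc j) i
    rw [Pi.single_apply] at this
    exact this
  let co : Fin n → Fin n → ZMod 2 := fun j i => if i = j then q (c j) else if i < j then B (c i) (c j) else 0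
  let d : Fin n → U := fun j => ∑ i, co j i • w i
  have hd : ∀ j, d j ∈ W := fun j => W.sum_mem fun i _ => W.smul_mem _ (hw i)
  have hdc : ∀ j k, B (d j) (c k) = co j k := fun j k => by
    simp only [d, map_sum, LinearMap.sum_apply, map_smul, LinearMap.smul_apply, hwc, smul_eq_mul, mul_ite, mul_one, mul_zero]
    rw [Finset.sum_ite_eq', if_pos (Finset.mem_univ k)]
  let c' : Fin n → U := fun j => c j + d j
  have hwc' : ∀ i j, B (w i) (c' j) = if i = j then 1 else 0 := fun i j => by
    simp only [c', map_add, hwc, hWW _ (hw i) _ (hd j), add_zero]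
  have hq' : ∀ j, q (c' j) = 0 := fun j => by
    simp only [c']
    rw [hadd, hWq _ (hd j), add_zero, hsym, hdc]
    simp only [co, if_pos rfl]
    exact add_self' (q (c j))
  have hcc' : ∀ i j, i ≠ j → B (c' i) (c' j) = 0 := fun i j hij => by
    simp only [c', map_add, LinearMap.add_apply, hWW _ (hd i) _ (hd j), add_zero]
    rw [hdc, hsym (c i) (d j), hdc]
    simp only [co, if_neg hij, if_neg (Ne.symm hij)]
    rcases lt_or_gt_of_ne hij with h | h
    · rw [if_neg h.not_gt, if_pos h, add_zero]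
      exact add_self' _
    · rw [if_pos h, if_neg h.not_gt, add_zero, hsym (c j)]
      exact add_self' _
  let M : (Vn n × Vn n) →ₗ[ZMod 2] U :=
    (Fintype.linearCombination (ZMod 2) w).comp (LinearMap.fst _ _ _) +
      (Fintype.linearCombination (ZMod 2) c').comp (LinearMap.snd _ _ _)
  have hM : ∀ v, M v = ∑ i, v.1 i • w i + ∑ i, v.2 i • c' i := fun v => rfl
  have hsing : ∀ (y : Vn n) (s : Finset (Fin n)), q (∑ i ∈ s, y i • c' i) = 0 := fun y s => by
    induction s using Finset.induction_on with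
    | empty => simp
    | insert j s hj ih =>
      rw [Finset.sum_insert hj, hadd, ih, QuadraticMap.map_smul, hq', smul_zero, zero_add, zero_add,
        map_smul, LinearMap.smul_apply, map_sum, Finset.sum_eq_zero (fun i hi => by
          rw [map_smul, hcc' j i (fun e => hj (e ▸ hi)), smul_zero]), smul_zero]
  have hB' : ∀ (x y : Vn n), B (∑ i, x i • w i) (∑ i, y i • c' i) = y ⬝ᵥ x := fun x y => by
    simp only [map_sum, LinearMap.sum_apply, map_smul, LinearMap.smul_apply, hwc', smul_eq_mul, mul_ite, mul_one, mul_zero]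
    rw [dotProduct]
    refine Finset.sum_congr rfl fun i _ => ?_
    rw [Finset.sum_ite_eq', if_pos (Finset.mem_univ i)]
    try ring
  have hinj : Function.Injective M := by
    rw [← LinearMap.ker_eq_bot, LinearMap.ker_eq_bot']
    intro v hv
    rw [hM] at hv
    have hy : v.2 = 0 := funext fun i => by
      have h := congrArg (B (w i)) hv
      rw [map_add, map_zero, hWW _ (hw i) _ (W.sum_mem fun j _ => W.smul_mem _ (hw j)), zero_add, map_sum] at h
      simpa [map_smul, hwc'] using h
    simp only [hy, Pi.zero_apply, zero_smul, Finset.sum_const_zero, add_zero] at hv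
    exact Prod.ext (funext (Fintype.linearIndependent_iff.1
      (bw.linearIndependent.map' W.subtype W.ker_subtype) _ hv)) hy
  let e := M.linearEquivOfInjective hinj (by rw [Module.finrank_prod, Module.finrank_fin_fun, hn]; omega)
  refine ⟨e.symm, fun u => ?_⟩
  conv_lhs => rw [← e.apply_symm_apply u]
  show q (M (e.symm u)) = _
  rw [hM, hadd, hWq _ (W.sum_mem fun j _ => W.smul_mem _ (hw j)), hsing, zero_add, zero_add, hB']

theorem main {K : Type*} [Group K] {U : Type*} [AddCommGroup U] [Module (ZMod 2) U] [Module.Finite (ZMod 2) U] (n : ℕ)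
    (hn1 : 1 ≤ n) (hn : Module.finrank (ZMod 2) U = 2 * n) (ρ : Representation (ZMod 2) K U) (hρ : Function.Injective ρ)
    (q : QuadraticForm (ZMod 2) U) (hq : ∀ (k : K) (u : U), q (ρ k u) = q u)
    (hnd : (QuadraticMap.polarBilin q).Nondegenerate)
    (hplus : ∃ W : Submodule (ZMod 2) U, Module.finrank (ZMod 2) ↥W = n ∧ ∀ w ∈ W, q w = 0) :
    ∃ (R : Type) (_ : Group R) (_ : Finite R) (Q : Subgroup R) (hN : Q.Normal) (e : R ⧸ Q ≃* K) (χ : ↥Q →* Multiplicative U),
      Cfsg.IsExtraspecial 2 ↥Q ∧ Nat.card ↥Q = 2 ^ (2 * n + 1) ∧ Function.Surjective χ ∧ χ.ker = Subgroup.center ↥Q ∧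
      (∀ (r : R) (a : ↥Q), χ ⟨r * a * r⁻¹, hN.conj_mem (a : R) a.2 r⟩ =
        Multiplicative.ofAdd (ρ (e (r : R ⧸ Q)) (Multiplicative.toAdd (χ a)))) ∧
      ∀ a : ↥Q, a * a = 1 ↔ q (Multiplicative.toAdd (χ a)) = 0 := by
  obtain ⟨L, hL⟩ := exists_coords hn q hnd hplus
  let A : K →* ((Vn n × Vn n) →ₗ[ZMod 2] (Vn n × Vn n)) :=
    { toFun := fun k => L.conj (ρ k)
      map_one' := LinearMap.ext fun v => by simp [LinearEquiv.conj_apply_apply]
      map_mul' := fun a b => LinearMap.ext fun v => by simp [LinearEquiv.conj_apply_apply] }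
  have hA : ∀ k u, (A k u).2 ⬝ᵥ (A k u).1 = u.2 ⬝ᵥ u.1 := fun k u => by
    have h1 := hL (ρ k (L.symm u))
    rw [hq, hL, L.apply_symm_apply] at h1
    exact h1.symm
  have hAi : Function.Injective A := fun a b h => hρ (L.conj.injective h)
  obtain ⟨R, iR, fR, Q, hN, e, χ, h1, h2, h3, h4, h5, h6⟩ := extension A hA hn1 hAi L (fun u => q u) hL
  refine ⟨R, iR, fR, Q, hN, e, χ, h1, h2, h3, h4, fun r a => ?_, h6⟩
  rw [h5 r a]
  show Multiplicative.ofAdd (L.symm (L (ρ _ (L.symm (L _))))) = _
  rw [L.symm_apply_apply, L.symm_apply_apply]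

end Cfsg.Lib.PLocal.PlusExtra
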