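import Mathlib
import Cfsg.Prelude.Def_LocalEven
import Cfsg.Agent.Lib.Solv.Cores
import Cfsg.Agent.Lib.PLocal.NaturalModule

/-!
# Structure of `Qd` over a finite field
-/

set_option autoImplicit false

namespace Cfsg.Lib.QdOver

open Cfsg Subgroup Matrix
open scoped MatrixGroups

variable {F : Type*} [Field F]

theorem mem_qd {M : SL(3, F)} : M ∈ qdOver F ↔ M 2 0 = 0 ∧ M 2 1 = 0 ∧ M 2 2 = 1 := by
  refine ⟨fun h => ?_, fun h => subset_closure h⟩
  induction h using closure_induction with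
  | mem x hx => exact hx
  | one => simp
  | mul a b _ _ ha hb =>
    obtain ⟨a0, a1, a2⟩ := ha
    obtain ⟨b0, b1, b2⟩ := hb
    refine ⟨?_, ?_, ?_⟩ <;> simp [Matrix.mul_apply, Fin.sum_univ_three, a0, a1, a2, b0, b1, b2]
  | inv a _ ha =>
    obtain ⟨a0, a1, a2⟩ := ha
    have hd := a.det_coe
    rw [Matrix.det_fin_three, a0, a1, a2] at hd
    refine ⟨?_, ?_, ?_⟩ <;> simp [Matrix.adjugate_fin_three, a0, a1]
    linear_combination hd

theorem det_block {M : SL(3, F)} (h : M ∈ qdOver F) : M 0 0 * M 1 1 - M 0 1 * M 1 0 = 1 := by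
  obtain ⟨a0, a1, a2⟩ := mem_qd.1 h
  have hd := M.det_coe
  rw [Matrix.det_fin_three, a0, a1, a2] at hd
  linear_combination hd

/-- The upper left block. -/
def lm (M : ↥(qdOver F)) : SL(2, F) :=
  ⟨!![M.1 0 0, M.1 0 1; M.1 1 0, M.1 1 1], by rw [Matrix.det_fin_two]; simpa using det_block M.2⟩

theorem lm_coe (M : ↥(qdOver F)) : (lm M).1 = !![M.1 0 0, M.1 0 1; M.1 1 0, M.1 1 1] := rfl

/-- The linear part. -/
def lin (F : Type*) [Field F] : ↥(qdOver F) →* SL(2, F) where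
  toFun M := lm M
  map_one' := by
    ext i j
    fin_cases i <;> fin_cases j <;> simp [lm_coe]
  map_mul' a b := by
    obtain ⟨b0, b1, -⟩ := mem_qd.1 b.2
    ext i j
    fin_cases i <;> fin_cases j <;>
      simp [lm_coe, Matrix.mul_apply, Matrix.vecMul, dotProduct, Fin.sum_univ_two, Fin.sum_univ_three, b0, b1]

theorem lin_coe (M : ↥(qdOver F)) : (lin F M).1 = !![M.1 0 0, M.1 0 1; M.1 1 0, M.1 1 1] := rfl

/-- The block-diagonal embedding, as a matrix. -/
def blk (m : SL(2, F)) : SL(3, F) :=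
  ⟨!![m 0 0, m 0 1, 0; m 1 0, m 1 1, 0; 0, 0, 1], by
    have := m.det_coe
    rw [Matrix.det_fin_two] at this
    simpa [Matrix.det_fin_three] using this⟩

theorem blk_coe (m : SL(2, F)) : (blk m).1 = !![m 0 0, m 0 1, 0; m 1 0, m 1 1, 0; 0, 0, 1] := rfl

theorem blk_mem (m : SL(2, F)) : blk m ∈ qdOver F :=
  mem_qd.2 ⟨by simp [blk_coe], by simp [blk_coe], by simp [blk_coe]⟩

/-- The block-diagonal embedding. -/
def emb (F : Type*) [Field F] : SL(2, F) →* ↥(qdOver F) where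
  toFun m := ⟨blk m, blk_mem m⟩
  map_one' := by
    refine Subtype.ext ?_
    ext i j
    fin_cases i <;> fin_cases j <;> simp [blk_coe]
  map_mul' a b := by
    refine Subtype.ext ?_
    ext i j
    fin_cases i <;> fin_cases j <;>
      simp [blk_coe, Matrix.mul_apply, Matrix.vecMul, dotProduct, Fin.sum_univ_two, Fin.sum_univ_three]

theorem emb_coe (m : SL(2, F)) : (emb F m).1.1 = !![m 0 0, m 0 1, 0; m 1 0, m 1 1, 0; 0, 0, 1] := rfl

theorem lin_emb (m : SL(2, F)) : lin F (emb F m) = m := by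
  ext i j
  fin_cases i <;> fin_cases j <;> simp [lin_coe, emb_coe]

theorem lin_eq_one {M : ↥(qdOver F)} :
    lin F M = 1 ↔ M.1 0 0 = 1 ∧ M.1 0 1 = 0 ∧ M.1 1 0 = 0 ∧ M.1 1 1 = 1 := by
  constructor
  · intro h
    have h' : ∀ i j, (lin F M).1 i j = (1 : SL(2, F)).1 i j := fun i j => by rw [h]
    exact ⟨by simpa [lin_coe] using h' 0 0, by simpa [lin_coe] using h' 0 1,
      by simpa [lin_coe] using h' 1 0, by simpa [lin_coe] using h' 1 1⟩
  · rintro ⟨a, b, c, d⟩
    ext i j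
    fin_cases i <;> fin_cases j <;> simp [lin_coe, a, b, c, d]

/-- The translation by `w`, as a matrix. -/
def trM (w : Fin 2 → F) : SL(3, F) :=
  ⟨!![1, 0, w 0; 0, 1, w 1; 0, 0, 1], by simp [Matrix.det_fin_three]⟩

theorem trM_coe (w : Fin 2 → F) : (trM w).1 = !![1, 0, w 0; 0, 1, w 1; 0, 0, 1] := rfl

theorem trM_mem (w : Fin 2 → F) : trM w ∈ qdOver F :=
  mem_qd.2 ⟨by simp [trM_coe], by simp [trM_coe], by simp [trM_coe]⟩

theorem ker_eq_trM {M : ↥(qdOver F)} (h : lin F M = 1) : M.1 = trM ![M.1 0 2, M.1 1 2] := by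
  obtain ⟨a, b, c, d⟩ := lin_eq_one.1 h
  obtain ⟨a0, a1, a2⟩ := mem_qd.1 M.2
  ext i j
  fin_cases i <;> fin_cases j <;> simp [trM_coe, a, b, c, d, a0, a1, a2]

theorem trM_mul (v w : Fin 2 → F) : trM v * trM w = trM (v + w) := by
  ext i j
  fin_cases i <;> fin_cases j <;>
    simp [trM_coe, Matrix.mul_apply, Matrix.vecMul, dotProduct, Fin.sum_univ_three, add_comm]

theorem trM_pow (w : Fin 2 → F) (n : ℕ) : trM w ^ n = trM (n • w) := by
  induction n with
  | zero =>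
    rw [pow_zero]
    ext i j
    fin_cases i <;> fin_cases j <;> simp [trM_coe]
  | succ n ih => rw [pow_succ, ih, trM_mul, succ_nsmul]

theorem isPGroup_ker {p : ℕ} [CharP F p] : IsPGroup p (lin F).ker := fun M => ⟨1, by
  refine Subtype.ext (Subtype.ext ?_)
  show (M : ↥(qdOver F)).1 ^ (p ^ 1) = 1
  rw [pow_one, ker_eq_trM (MonoidHom.mem_ker.1 M.2), trM_pow]
  ext i j
  fin_cases i <;> fin_cases j <;> simp [trM_coe]⟩

set_option maxHeartbeats 1000000 in
theorem sl2_pcore [Fintype F] {p : ℕ} [Fact p.Prime] [CharP F p] {N : Subgroup SL(2, F)}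
    (hN : N.Normal) (hp : IsPGroup p N) : N = ⊥ := by
  classical
  letI : MulAction N (Fin 2 → F) :=
    { smul := fun m w => (m : SL(2, F)).1.mulVec w
      one_smul := fun w => NatMod.mulVec_one w
      mul_smul := fun a b w => NatMod.mulVec_mul a b w }
  have hfix0 : (0 : Fin 2 → F) ∈ MulAction.fixedPoints N (Fin 2 → F) := fun m => Matrix.mulVec_zero _
  obtain ⟨m, hprime, hm⟩ := FiniteField.card F p
  obtain ⟨v, hv, hvne⟩ := hp.exists_fixed_point_of_prime_dvd_card_of_fixed_point (Fin 2 → F)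
    (by
      rw [Nat.card_eq_fintype_card, Fintype.card_fun, Fintype.card_fin, hm, ← pow_mul]
      exact dvd_pow_self p (Nat.mul_ne_zero m.2.ne' two_ne_zero)) hfix0
  obtain ⟨g, hg⟩ := NatMod.exists_first_col v (Ne.symm hvne)
  have hfix : ∀ a ∈ N, ∀ w : Fin 2 → F, w ≠ 0 → a.1.mulVec w = w := by
    intro a ha w hw
    obtain ⟨h, hh⟩ := NatMod.exists_first_col w hw
    have hb : (g * h⁻¹) * a * (g * h⁻¹)⁻¹ ∈ N := hN.conj_mem a ha _
    have h1 : ((g * h⁻¹) * a * (g * h⁻¹)⁻¹).1.mulVec v = v := hv ⟨_, hb⟩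
    have hk : (g * h⁻¹)⁻¹.1.mulVec v = w := by
      rw [← hg, ← NatMod.mulVec_mul, ← hh, show (g * h⁻¹)⁻¹ * g = h by group]
    have h2 : (g * h⁻¹).1.mulVec w = v := by
      rw [← hk, ← NatMod.mulVec_mul, mul_inv_cancel, NatMod.mulVec_one]
    rw [NatMod.mulVec_mul, NatMod.mulVec_mul, hk] at h1
    have h3 := congrArg (fun x => (g * h⁻¹)⁻¹.1.mulVec x) h1
    simp only [← NatMod.mulVec_mul, inv_mul_cancel, one_mul, hk] at h3
    rw [show (g * h⁻¹)⁻¹ * (g * h⁻¹ * a) = a by group] at h3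
    exact h3
  refine (Subgroup.eq_bot_iff_forall _).2 fun a ha => ?_
  have e0 := hfix a ha ![1, 0] (fun h => one_ne_zero (congrFun h 0))
  have e1 := hfix a ha ![0, 1] (fun h => one_ne_zero (congrFun h 1))
  rw [NatMod.mulVec_fin2] at e0 e1
  have a00 := congrFun e0 0
  have a10 := congrFun e0 1
  have a01 := congrFun e1 0
  have a11 := congrFun e1 1
  simp at a00 a10 a01 a11
  ext i j
  fin_cases i <;> fin_cases j <;> simp [a00, a10, a01, a11]

/-- S2762. -/
theorem structure_qdOver [Fintype F] {p : ℕ} [Fact p.Prime] [CharP F p] :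
    (∀ M : ↥(qdOver F), M ∈ pCore p ↥(qdOver F) ↔
      M.1 0 0 = 1 ∧ M.1 0 1 = 0 ∧ M.1 1 0 = 0 ∧ M.1 1 1 = 1) ∧
      ∃ K : Subgroup ↥(qdOver F), (∀ M : ↥(qdOver F), M ∈ K ↔ M.1 0 2 = 0 ∧ M.1 1 2 = 0) ∧
        K ⊓ pCore p ↥(qdOver F) = ⊥ ∧ K ⊔ pCore p ↥(qdOver F) = ⊤ ∧
        Nonempty (↥K ≃* SL(2, F)) ∧ IsNaturalSL2Module F (pCore p ↥(qdOver F)) K := by
  classical
  haveI : Finite ↥(qdOver F) := Finite.of_injective (fun M : ↥(qdOver F) => M.1.1) fun a b h =>
    Subtype.ext (Subtype.ext h)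
  have hcore : pCore p ↥(qdOver F) = (lin F).ker := by
    refine le_antisymm ?_ (Cfsg.Lib.Solv.le_pCore inferInstance isPGroup_ker)
    have hn : (pCore p ↥(qdOver F)).Normal := inferInstance
    have := sl2_pcore (p := p) (hn.map (lin F) fun m => ⟨emb F m, lin_emb m⟩)
      ((Cfsg.Lib.Solv.isPGroup_pCore p).map _)
    exact (Subgroup.map_eq_bot_iff _).1 this
  rw [hcore]
  have hK : ∀ M : ↥(qdOver F), M ∈ (emb F).range ↔ M.1 0 2 = 0 ∧ M.1 1 2 = 0 := by
    intro M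
    constructor
    · rintro ⟨m, rfl⟩
      simp [emb_coe]
    · rintro ⟨h0, h1⟩
      refine ⟨lin F M, Subtype.ext ?_⟩
      obtain ⟨a0, a1, a2⟩ := mem_qd.1 M.2
      ext i j
      fin_cases i <;> fin_cases j <;> simp [emb_coe, lin_coe, h0, h1, a0, a1, a2]
  have hlK : ∀ l : ↥(emb F).range, emb F (lin F l.1) = l.1 := by
    rintro ⟨_, m, rfl⟩
    rw [lin_emb]
  refine ⟨fun M => MonoidHom.mem_ker.trans lin_eq_one, (emb F).range, hK, ?_, ?_,
    ⟨(MonoidHom.ofInjective (f := emb F) fun a b h => by rw [← lin_emb a, h, lin_emb]).symm⟩, ?_⟩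
  · refine (Subgroup.eq_bot_iff_forall _).2 ?_
    rintro _ ⟨⟨m, rfl⟩, hm⟩
    have hm' : lin F (emb F m) = 1 := hm
    rw [lin_emb] at hm'
    rw [hm', map_one]
  · refine (Subgroup.eq_top_iff' _).2 fun M => ?_
    rw [show M = emb F (lin F M) * ((emb F (lin F M))⁻¹ * M) by group]
    exact mul_mem_sup ⟨_, rfl⟩ (by simp [MonoidHom.mem_ker, lin_emb])
  let ψ : Additive ↥(lin F).ker ≃+ (Fin 2 → F) :=
    { toFun := fun v => ![(Additive.toMul v).1.1 0 2, (Additive.toMul v).1.1 1 2]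
      invFun := fun w => Additive.ofMul ⟨⟨trM w, trM_mem w⟩,
        MonoidHom.mem_ker.2 (lin_eq_one.2 ⟨by simp [trM_coe], by simp [trM_coe], by simp [trM_coe],
          by simp [trM_coe]⟩)⟩
      left_inv := fun v => congrArg Additive.ofMul (Subtype.ext (Subtype.ext
        (ker_eq_trM (MonoidHom.mem_ker.1 (Additive.toMul v).2)).symm))
      right_inv := fun w => by
        funext i
        fin_cases i <;> simp [trM_coe]
      map_add' := fun v w => by
        have h' : (Additive.toMul (v + w)).1.1 =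
            trM (![(Additive.toMul v).1.1 0 2, (Additive.toMul v).1.1 1 2] +
              ![(Additive.toMul w).1.1 0 2, (Additive.toMul w).1.1 1 2]) := by
          rw [← trM_mul, ← ker_eq_trM (MonoidHom.mem_ker.1 (Additive.toMul v).2),
            ← ker_eq_trM (MonoidHom.mem_ker.1 (Additive.toMul w).2)]
          rfl
        funext i
        fin_cases i <;> simp only [h', trM_coe] <;> simp }
  have hψ : ∀ (l : ↥(emb F).range) (v : ↥(lin F).ker), ∃ w : ↥(lin F).ker,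
      (w : ↥(qdOver F)) = l.1 * v.1 * l.1⁻¹ ∧
        ψ (Additive.ofMul w) = (lin F l.1).1.mulVec (ψ (Additive.ofMul v)) := by
    intro l v
    obtain ⟨w, hwd⟩ : ∃ w : ↥(lin F).ker, (w : ↥(qdOver F)) = l.1 * v.1 * l.1⁻¹ :=
      ⟨⟨_, (MonoidHom.normal_ker (lin F)).conj_mem v.1 v.2 l.1⟩, rfl⟩
    refine ⟨w, hwd, ?_⟩
    obtain ⟨h0, h1⟩ := (hK l.1).1 l.2
    have hv := ker_eq_trM (MonoidHom.mem_ker.1 v.2)
    have hw := ker_eq_trM (MonoidHom.mem_ker.1 w.2)
    have hcomm : w.1.1 * l.1.1 = l.1.1 * v.1.1 := by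
      rw [hwd]
      simp only [Subgroup.coe_mul, Subgroup.coe_inv, inv_mul_cancel_right]
    rw [hw] at hcomm
    obtain ⟨-, -, a2⟩ := mem_qd.1 l.1.2
    have e : ∀ i, ((trM ![w.1.1 0 2, w.1.1 1 2]) * l.1.1).1 i 2 =
        (l.1.1 * v.1.1).1 i 2 := fun i => by rw [hcomm]
    have e0 := e 0
    have e1 := e 1
    rw [hv] at e0 e1
    simp [trM_coe, Matrix.mul_apply, Matrix.vecMul, dotProduct, Fin.sum_univ_three, h0, h1, a2] at e0 e1
    rw [NatMod.mulVec_fin2]
    funext i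
    fin_cases i
    · simpa [ψ, lin_coe] using e0
    · simpa [ψ, lin_coe] using e1
  refine ⟨fun x _ => mem_normalizer_iff.2 fun v => ?_, (lin F).comp (emb F).range.subtype, ψ,
    fun m => ⟨⟨emb F m, m, rfl⟩, lin_emb m⟩, ?_, hψ⟩
  · exact ⟨fun h => (MonoidHom.normal_ker (lin F)).conj_mem v h _, fun h => by
      simpa [mul_assoc] using (MonoidHom.normal_ker (lin F)).conj_mem _ h x⁻¹⟩
  ext l
  rw [MonoidHom.mem_ker, mem_subgroupOf, mem_centralizer_iff]
  show lin F l.1 = 1 ↔ _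
  constructor
  · intro h v _
    rw [← hlK l, h, map_one, one_mul, mul_one]
  · intro h
    have hfix : ∀ u : Fin 2 → F, (lin F l.1).1.mulVec u = u := by
      intro u
      obtain ⟨w, hw, hw'⟩ := hψ l (Additive.toMul (ψ.symm u))
      have : w = Additive.toMul (ψ.symm u) := Subtype.ext (by
        rw [hw, ← h _ (Additive.toMul (ψ.symm u)).2, mul_inv_cancel_right])
      rw [this, ofMul_toMul, AddEquiv.apply_symm_apply] at hw'
      exact hw'.symm
    ext i j
    have := congrFun (hfix (Pi.single j 1)) i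
    rw [Matrix.mulVec_single_one] at this
    rw [Matrix.SpecialLinearGroup.coe_one, Matrix.one_apply]
    simpa [Pi.single_apply] using this

end Cfsg.Lib.QdOver
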