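import Mathlib
import Cfsg.Prelude.Def_LocalEven
import Cfsg.Agent.Lib.PLocal.S4Section
import Cfsg.Agent.Lib.PLocal.DihedralInvolved
import Cfsg.Agent.Lib.Solv.Coprime2
import Cfsg.Agent.Lib.Solv.PGroupBasic

/-!
# When the symmetric group of degree four is involved
-/

set_option autoImplicit false

namespace Cfsg.Lib.S4Inv

open Cfsg Subgroup
open scoped commutatorElement

/-- The index of the pairing of `Fin 4` containing `{a, b}`. -/
def pairIdx (a b : Fin 4) : Fin 3 :=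
  match a.val ^^^ b.val with
  | 1 => 0
  | 2 => 1
  | _ => 2

/-- The action on the three pairings. -/
def pairFun (σ : Equiv.Perm (Fin 4)) (i : Fin 3) : Fin 3 := pairIdx (σ 0) (σ i.succ)

theorem pairFun_mul : ∀ (σ τ : Equiv.Perm (Fin 4)) (i : Fin 3), pairFun (σ * τ) i = pairFun σ (pairFun τ i) := by
  decide +kernel

theorem pairFun_one : ∀ i : Fin 3, pairFun 1 i = i := by decide

/-- The homomorphism onto the symmetric group of degree three. -/
def pairHom : Equiv.Perm (Fin 4) →* Equiv.Perm (Fin 3) where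
  toFun σ :=
    { toFun := pairFun σ
      invFun := pairFun σ⁻¹
      left_inv := fun i => by rw [← pairFun_mul, inv_mul_cancel, pairFun_one]
      right_inv := fun i => by rw [← pairFun_mul, mul_inv_cancel, pairFun_one] }
  map_one' := Equiv.ext pairFun_one
  map_mul' σ τ := Equiv.ext (pairFun_mul σ τ)

theorem pairHom_surjective : Function.Surjective pairHom := by
  have h : ∀ τ : Equiv.Perm (Fin 3), ∃ σ : Equiv.Perm (Fin 4), ∀ i, pairFun σ i = τ i := by decide +kernel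
  intro τ
  obtain ⟨σ, hσ⟩ := h τ
  exact ⟨σ, Equiv.ext hσ⟩

theorem pairKer_sq : ∀ σ : Equiv.Perm (Fin 4), (∀ i, pairFun σ i = i) → σ * σ = 1 := by decide +kernel

theorem pairKer_self : ∀ σ : Equiv.Perm (Fin 4),
    (∀ τ : Equiv.Perm (Fin 4), (∀ i, pairFun τ i = i) → σ * τ = τ * σ) → ∀ i, pairFun σ i = i := by
  decide +kernel

/-- The symmetric group of degree three is dihedral. -/
def dihPerm : DihedralGroup 3 → Equiv.Perm (ZMod 3)
  | .r i => Equiv.subRight i
  | .sr i => Equiv.subLeft i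

theorem dihPerm_mul : ∀ (a b : DihedralGroup 3) (x : ZMod 3), dihPerm (a * b) x = dihPerm a (dihPerm b x) := by
  decide +kernel

theorem dihPerm_bij : Function.Bijective dihPerm := by
  rw [Fintype.bijective_iff_injective_and_card]
  refine ⟨?_, by decide +kernel⟩
  have h : ∀ a b : DihedralGroup 3, (∀ x, dihPerm a x = dihPerm b x) → a = b := by decide +kernel
  exact fun a b e => h a b fun x => by rw [e]

/-- The isomorphism. -/
noncomputable def dihEquiv : DihedralGroup 3 ≃* Equiv.Perm (Fin 3) :=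
  MulEquiv.ofBijective
    (MonoidHom.mk' dihPerm fun a b => Equiv.ext (dihPerm_mul a b) : DihedralGroup 3 →* Equiv.Perm (ZMod 3))
    dihPerm_bij

theorem involves_congr {H H' A : Type*} [Group H] [Group H'] [Group A] (e : H ≃* H')
    (h : Involves H A) : Involves H' A := by
  obtain ⟨K, R, hn, ⟨f⟩⟩ := h
  exact ⟨K, R, hn, ⟨f.trans e⟩⟩

theorem involves_self {H : Type*} [Group H] : Involves H H := by
  refine ⟨⊤, ⊥, inferInstance, ⟨?_⟩⟩
  exact ((QuotientGroup.quotientMulEquivOfEq (Subgroup.bot_subgroupOf _)).trans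
    QuotientGroup.quotientBot).trans Subgroup.topEquiv

variable {G : Type*} [Group G] [Finite G]

/-- A section with a self-centralizing normal `p`-subgroup gives an action on a `p`-subgroup. -/
theorem involves_quotient {p : ℕ} [Fact p.Prime] {H Q : Type*} [Group H] [Group Q] [Finite H]
    (π : H →* Q) (hπ : Function.Surjective π) (hker : IsPGroup p π.ker)
    (hself : centralizer (π.ker : Set H) ≤ π.ker) (h : Involves H G) :
    ∃ T : Subgroup G, IsPGroup p T ∧ Involves Q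
      (↥(normalizer (T : Set G)) ⧸ (centralizer (T : Set G)).subgroupOf (normalizer (T : Set G))) := by
  obtain ⟨K, R, hn, ⟨e⟩⟩ := h
  haveI := hn
  let f : K →* H := e.toMonoidHom.comp (QuotientGroup.mk' (R.subgroupOf K))
  have hf : Function.Surjective f := e.surjective.comp (QuotientGroup.mk'_surjective _)
  set P := π.ker.comap f with hP
  haveI : P.Normal := Normal.comap inferInstance f
  let fP : P →* π.ker := (f.comp P.subtype).codRestrict π.ker fun x => x.2
  have hfP : Function.Surjective fP := fun a => by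
    obtain ⟨k, hk⟩ := hf a
    exact ⟨⟨k, by rw [hP, mem_comap, hk]; exact a.2⟩, Subtype.ext hk⟩
  obtain ⟨S⟩ : Nonempty (Sylow p P) := inferInstance
  set Q₁ := (S : Subgroup P).map P.subtype with hQ₁
  have hQA : ∀ a ∈ π.ker, ∃ q ∈ Q₁, f q = a := by
    intro a ha
    have htop : (S.mapSurjective hfP : Subgroup π.ker) = ⊤ :=
      ((S.mapSurjective hfP).is_maximal' (hker.to_subgroup ⊤) le_top).symm
    have hm : (⟨a, ha⟩ : π.ker) ∈ (S.mapSurjective hfP : Subgroup π.ker) := htop ▸ mem_top _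
    rw [Sylow.coe_mapSurjective hfP S] at hm
    obtain ⟨q, hq, hqe⟩ := hm
    exact ⟨(q : K), mem_map_of_mem _ hq, congrArg Subtype.val hqe⟩
  set N := normalizer (Q₁ : Set K) with hN
  have hfr : N ⊔ P = ⊤ := S.normalizer_sup_eq_top
  set T := Q₁.map K.subtype with hT
  refine ⟨T, (S.isPGroup'.map _).map _, ?_⟩
  have hmem : ∀ n : N, ((n : K) : G) ∈ normalizer (T : Set G) := by
    intro n
    refine mem_normalizer_fintype ?_
    rintro _ ⟨y, hy, rfl⟩
    exact ⟨(n : K) * y * (n : K)⁻¹, (mem_normalizer_iff.1 n.2 y).1 hy, rfl⟩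
  let i : N →* (↥(normalizer (T : Set G)) ⧸ (centralizer (T : Set G)).subgroupOf (normalizer (T : Set G))) :=
    (QuotientGroup.mk' _).comp ((K.subtype.comp N.subtype).codRestrict _ hmem)
  let g : N →* Q := π.comp (f.comp N.subtype)
  have hgker : i.ker ≤ g.ker := by
    intro n hn
    have h0 := (QuotientGroup.eq_one_iff ((K.subtype.comp N.subtype).codRestrict _ hmem n)).1
      (MonoidHom.mem_ker.1 hn)
    have h1 : ((n : K) : G) ∈ centralizer (T : Set G) := mem_subgroupOf.1 h0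
    refine hself (mem_centralizer_iff.2 fun a ha => ?_)
    obtain ⟨q, hq, rfl⟩ := hQA a ha
    show f q * f (n : K) = f (n : K) * f q
    rw [← map_mul, ← map_mul]
    exact congrArg f (Subtype.ext (mem_centralizer_iff.1 h1 _ (mem_map_of_mem K.subtype hq)))
  have hg : Function.Surjective g := by
    intro x
    obtain ⟨y, rfl⟩ := hπ x
    obtain ⟨k, rfl⟩ := hf y
    obtain ⟨n, hn, r, hr, rfl⟩ := mem_sup_of_normal_right.1 (show k ∈ N ⊔ P by rw [hfr]; trivial)
    refine ⟨⟨n, hn⟩, ?_⟩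
    show π (f n) = π (f (n * r))
    rw [map_mul, map_mul, show π (f r) = 1 from hr, mul_one]
  let e' : ↥i.range →* Q :=
    (MonoidHom.liftOfSurjective i.rangeRestrict i.rangeRestrict_surjective)
      ⟨g, by rw [MonoidHom.ker_rangeRestrict]; exact hgker⟩
  refine Cfsg.Lib.Fusion.involves_of_injective i.range.subtype i.range.subtype_injective
    (Cfsg.Lib.Fusion.involves_of_surjective e' (fun x => ?_) involves_self)
  obtain ⟨n, rfl⟩ := hg x
  exact ⟨i.rangeRestrict n, MonoidHom.liftOfRightInverse_comp_apply _ _ _ ⟨g, _⟩ n⟩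

set_option maxHeartbeats 1000000 in
theorem step_four (W : Subgroup G) [W.Normal] (hW : IsElementaryAbelian 2 W) (a g : G)
    (hga : a * g * a⁻¹ * g ∈ centralizer (W : Set G)) (hg3 : g ^ 3 ∈ centralizer (W : Set G))
    (hg : g ∉ centralizer (W : Set G)) (ha2 : ∃ k, a ^ 2 ^ k = 1) :
    Involves (Equiv.Perm (Fin 4)) G := by
  classical
  have hc : ∀ x ∈ W, ∀ y ∈ W, x * y = y * x := fun x hx y hy =>
    congrArg Subtype.val (hW.1.is_comm.comm (⟨x, hx⟩ : W) ⟨y, hy⟩)
  have hsq : ∀ x ∈ W, x * x = 1 := fun x hx => by rw [← pow_two]; exact hW.2 x hx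
  have hinv : ∀ x ∈ W, x⁻¹ = x := fun x hx => inv_eq_of_mul_eq_one_right (hsq x hx)
  have hWn : ∀ (x : G) {w : G}, w ∈ W → x * w * x⁻¹ ∈ W :=
    fun x {w} hw => (inferInstance : W.Normal).conj_mem w hw x
  have hfix : ∀ c ∈ centralizer (W : Set G), ∀ w ∈ W, c * w * c⁻¹ = w := fun c hc' w hw => by
    rw [← mem_centralizer_iff.1 hc' w hw, mul_inv_cancel_right]
  -- `a` interchanges `g` and its square
  have hag : ∀ w ∈ W, a * (g * w * g⁻¹) * a⁻¹ = g⁻¹ * (a * w * a⁻¹) * g := by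
    intro w hw
    have h1 := hfix _ hga (g⁻¹ * (a * w * a⁻¹) * g) (by simpa using hWn g⁻¹ (hWn a hw))
    calc a * (g * w * g⁻¹) * a⁻¹ = (a * g * a⁻¹ * g) * (g⁻¹ * (a * w * a⁻¹) * g) * (a * g * a⁻¹ * g)⁻¹ := by group
      _ = _ := h1
  have hgg : ∀ w ∈ W, g * (g * w * g⁻¹) * g⁻¹ = g⁻¹ * w * g := by
    intro w hw
    have h1 := hfix _ hg3 (g⁻¹ * w * g) (by simpa using hWn g⁻¹ hw)
    calc g * (g * w * g⁻¹) * g⁻¹ = g ^ 3 * (g⁻¹ * w * g) * (g ^ 3)⁻¹ := by simp only [pow_succ, pow_zero, one_mul]; group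
      _ = _ := h1
  set B := zpowers (a ^ 2) with hB
  have hBp : IsPGroup 2 B := by
    obtain ⟨k, hk⟩ := ha2
    rintro ⟨x, hx⟩
    obtain ⟨i, rfl⟩ := mem_zpowers_iff.1 hx
    refine ⟨k, Subtype.ext ?_⟩
    show ((a ^ 2) ^ i) ^ 2 ^ k = 1
    rw [← zpow_natCast, ← zpow_mul, mul_comm, zpow_mul, zpow_natCast, ← pow_mul, mul_comm, pow_mul, hk,
      one_pow, one_zpow]
  have hgB : ∀ b ∈ B, g * b * g⁻¹ * b⁻¹ ∈ centralizer (W : Set G) := by
    set q := QuotientGroup.mk' (centralizer (W : Set G))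
    intro b hb
    obtain ⟨i, rfl⟩ := mem_zpowers_iff.1 hb
    have h1 : q a * q g * (q a)⁻¹ = (q g)⁻¹ := by
      rw [← mul_eq_one_iff_eq_inv, ← map_inv, ← map_mul, ← map_mul, ← map_mul]
      exact (QuotientGroup.eq_one_iff _).2 hga
    have h2 : Commute (q g) (q a ^ 2) := by
      have h3 : q a ^ 2 * q g * (q a ^ 2)⁻¹ = q g := by
        calc q a ^ 2 * q g * (q a ^ 2)⁻¹ = q a * (q a * q g * (q a)⁻¹) * (q a)⁻¹ := by rw [pow_two]; group
          _ = q a * (q g)⁻¹ * (q a)⁻¹ := by rw [h1]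
          _ = (q a * q g * (q a)⁻¹)⁻¹ := by group
          _ = q g := by rw [h1, inv_inv]
      exact (mul_inv_eq_iff_eq_mul.1 h3).symm
    refine (QuotientGroup.eq_one_iff _).1 ?_
    show q (g * (a ^ 2) ^ i * g⁻¹ * ((a ^ 2) ^ i)⁻¹) = 1
    rw [map_mul, map_mul, map_mul, map_inv, map_inv, map_zpow, map_pow, (h2.zpow_right i).eq,
      mul_inv_cancel_right, mul_inv_cancel]
  obtain ⟨w, hw, hwB, hwg⟩ := Cfsg.Lib.PLocal.exists_fixed_moved W hW B hBp (n := 3) (by decide) hg3 hgB hg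
  -- a fixed vector in the commutator
  set Z : G → Prop := fun v => v ∈ W ∧ a ^ 2 * v * (a ^ 2)⁻¹ = v ∧ v * (g * v * g⁻¹) * (g⁻¹ * v * g) = 1
  have hwa : a ^ 2 * w * (a ^ 2)⁻¹ = w := by
    rw [mem_centralizer_iff.1 hwB _ (mem_zpowers _), mul_inv_cancel_right]
  have haga : ∀ v ∈ W, a ^ 2 * (g * v * g⁻¹) * (a ^ 2)⁻¹ = g * (a ^ 2 * v * (a ^ 2)⁻¹) * g⁻¹ := by
    intro v hv
    have h1 := hfix _ (hgB _ (mem_zpowers (a ^ 2))) (a ^ 2 * (g * v * g⁻¹) * (a ^ 2)⁻¹) (hWn _ (hWn _ hv))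
    calc a ^ 2 * (g * v * g⁻¹) * (a ^ 2)⁻¹
        = (g * a ^ 2 * g⁻¹ * (a ^ 2)⁻¹) * (a ^ 2 * (g * v * g⁻¹) * (a ^ 2)⁻¹) * (g * a ^ 2 * g⁻¹ * (a ^ 2)⁻¹)⁻¹ :=
          h1.symm
      _ = g * (a ^ 2 * v * (a ^ 2)⁻¹) * g⁻¹ := by group
  obtain ⟨v, hv1, hvW, hva, hvs⟩ : ∃ v, v ≠ 1 ∧ Z v := by
    refine ⟨g * w * g⁻¹ * w⁻¹, fun e => hwg (mul_inv_eq_one.1 e), mul_mem (hWn g hw) (inv_mem hw), ?_, ?_⟩
    · calc a ^ 2 * (g * w * g⁻¹ * w⁻¹) * (a ^ 2)⁻¹
          = (a ^ 2 * (g * w * g⁻¹) * (a ^ 2)⁻¹) * (a ^ 2 * w * (a ^ 2)⁻¹)⁻¹ := by group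
        _ = _ := by rw [haga w hw, hwa]
    · have e1 := hgg w hw
      calc (g * w * g⁻¹ * w⁻¹) * (g * (g * w * g⁻¹ * w⁻¹) * g⁻¹) * (g⁻¹ * (g * w * g⁻¹ * w⁻¹) * g)
          = (g * w * g⁻¹) * w⁻¹ * ((g * (g * w * g⁻¹) * g⁻¹) * (g * w * g⁻¹)⁻¹) * (w * (g⁻¹ * w * g)⁻¹) := by group
        _ = 1 := by
          rw [e1]
          have hx := hWn g hw
          have hy : g⁻¹ * w * g ∈ W := by simpa using hWn g⁻¹ hw
          generalize g * w * g⁻¹ = x at hx
          generalize g⁻¹ * w * g = y at hy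
          rw [hinv w hw, hinv x hx, hinv y hy]
          calc x * w * (y * x) * (w * y) = x * w * (x * y) * (y * w) := by rw [hc y hy x hx, hc w hw y hy]
            _ = x * w * x * (y * y) * w := by group
            _ = (x * w) * (x * w) := by rw [hsq y hy]; group
            _ = 1 := hsq _ (mul_mem hx hw)
  obtain ⟨u, hu1, huW, hua, hus⟩ :
      ∃ u, u ≠ 1 ∧ u ∈ W ∧ a * u * a⁻¹ = u ∧ u * (g * u * g⁻¹) * (g⁻¹ * u * g) = 1 := by
    by_cases hd : v * (a * v * a⁻¹) = 1
    · exact ⟨v, hv1, hvW, (mul_eq_one_iff_eq_inv'.1 hd).trans (hinv v hvW), hvs⟩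
    refine ⟨_, hd, mul_mem hvW (hWn a hvW), ?_, ?_⟩
    · calc a * (v * (a * v * a⁻¹)) * a⁻¹ = (a * v * a⁻¹) * (a ^ 2 * v * (a ^ 2)⁻¹) := by rw [pow_two]; group
        _ = _ := by rw [hva]; exact hc _ (hWn a hvW) _ hvW
    · set x := a * v * a⁻¹ with hx
      have hxW : x ∈ W := hWn a hvW
      have hxs : x * (g⁻¹ * x * g) * (g * x * g⁻¹) = 1 := by
        have e1 : a * (g * v * g⁻¹) * a⁻¹ = g⁻¹ * x * g := hag v hvW
        have e2 : a * (g⁻¹ * v * g) * a⁻¹ = g * x * g⁻¹ := by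
          have h := hag (g⁻¹ * v * g) (by simpa using hWn g⁻¹ hvW)
          rw [show g * (g⁻¹ * v * g) * g⁻¹ = v by group, ← hx] at h
          calc a * (g⁻¹ * v * g) * a⁻¹ = g * (g⁻¹ * (a * (g⁻¹ * v * g) * a⁻¹) * g) * g⁻¹ := by group
            _ = g * x * g⁻¹ := by rw [← h]
        calc x * (g⁻¹ * x * g) * (g * x * g⁻¹)
            = a * (v * (g * v * g⁻¹) * (g⁻¹ * v * g)) * a⁻¹ := by rw [← e1, ← e2, hx]; group
          _ = 1 := by rw [hvs]; group
      have hv' := hWn g hvW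
      have hv'' : g⁻¹ * v * g ∈ W := by simpa using hWn g⁻¹ hvW
      have hx' := hWn g hxW
      have hx'' : g⁻¹ * x * g ∈ W := by simpa using hWn g⁻¹ hxW
      calc v * x * (g * (v * x) * g⁻¹) * (g⁻¹ * (v * x) * g)
          = v * x * ((g * v * g⁻¹) * (g * x * g⁻¹)) * ((g⁻¹ * v * g) * (g⁻¹ * x * g)) := by group
        _ = (v * (g * v * g⁻¹) * (g⁻¹ * v * g)) * (x * (g⁻¹ * x * g) * (g * x * g⁻¹)) := by
            letI : CommGroup W := { (inferInstance : Group W) with
              mul_comm := fun p q => Subtype.ext (hc p p.2 q q.2) }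
            exact congrArg Subtype.val (show (⟨v, hvW⟩ : W) * ⟨x, hxW⟩ * (⟨_, hv'⟩ * ⟨_, hx'⟩) * (⟨_, hv''⟩ * ⟨_, hx''⟩) =
              (⟨v, hvW⟩ * ⟨_, hv'⟩ * ⟨_, hv''⟩) * (⟨x, hxW⟩ * ⟨_, hx''⟩ * ⟨_, hx'⟩) by ac_rfl)
        _ = 1 := by rw [hvs, hxs, one_mul]
  set r := g * u * g⁻¹ with hr
  have hrW : r ∈ W := hWn g huW
  have huu := hsq u huW
  have hrr := hsq r hrW
  have hru : r * u = u * r := hc r hrW u huW
  have hs : g⁻¹ * u * g = u * r := by
    rw [← hinv _ (mul_mem huW hrW)]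
    exact eq_inv_of_mul_eq_one_right hus
  have hne : r ≠ u := by
    intro e
    have : g⁻¹ * u * g = u := by
      calc g⁻¹ * u * g = g⁻¹ * (g * u * g⁻¹) * g := by rw [← hr, e]
        _ = u := by group
    rw [e, huu, one_mul, this] at hus
    exact hu1 hus
  have hr1 : r ≠ 1 := fun e => hu1 (by
    rw [hr, mul_inv_eq_one] at e
    exact mul_eq_left.1 e)
  let U : Subgroup G :=
    { carrier := {1, u, r, u * r}
      one_mem' := Set.mem_insert _ _
      mul_mem' := by
        have e1 : u * (u * r) = r := by rw [← mul_assoc, huu, one_mul]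
        have e2 : r * (u * r) = u := by rw [← hru, ← mul_assoc, hrr, one_mul]
        have e3 : u * r * u = r := by rw [mul_assoc, hru, e1]
        have e4 : u * r * r = u := by rw [mul_assoc, hrr, mul_one]
        have e5 : u * r * (u * r) = 1 := hsq _ (mul_mem huW hrW)
        rintro x y (h | h | h | h) (h' | h' | h' | h') <;> rw [h, h'] <;>
          simp [huu, hrr, hru, e1, e2, e3, e4, e5]
      inv_mem' := by
        rintro x (h | h | h | h) <;> rw [h] <;>
          simp [hinv u huW, hinv r hrW, hru] }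
  have hUc : Nat.card U = 4 := by
    show Nat.card ({1, u, r, u * r} : Set G) = 4
    rw [Nat.card_coe_set_eq, Set.ncard_insert_of_notMem, Set.ncard_insert_of_notMem,
      Set.ncard_insert_of_notMem, Set.ncard_singleton]
    · simp [hu1]
    · simp [Ne.symm hne, hr1]
    · simp only [Set.mem_insert_iff, Set.mem_singleton_iff, not_or]
      exact ⟨Ne.symm hu1, Ne.symm hr1, fun e => hne ((eq_inv_of_mul_eq_one_right e.symm).trans (hinv u huW))⟩
  have hgr : g * r * g⁻¹ = u * r := by rw [hr, hgg u huW, hs]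
  have har : a * r * a⁻¹ = u * r := by rw [hr, hag u huW, hua, hs]
  have hgur : g * (u * r) * g⁻¹ = u := by
    rw [← hs]; group
  have haur : a * (u * r) * a⁻¹ = r := by
    calc a * (u * r) * a⁻¹ = (a * u * a⁻¹) * (a * r * a⁻¹) := by group
      _ = r := by rw [hua, har, ← mul_assoc, huu, one_mul]
  have hgN : g ∈ normalizer (U : Set G) := by
    refine mem_normalizer_fintype ?_
    rintro x (h | h | h | h) <;> rw [h]
    · exact Or.inl (by group)
    · exact Or.inr (Or.inr (Or.inl hr.symm))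
    · exact Or.inr (Or.inr (Or.inr hgr))
    · exact Or.inr (Or.inl hgur)
  have haN : a ∈ normalizer (U : Set G) := by
    refine mem_normalizer_fintype ?_
    rintro x (h | h | h | h) <;> rw [h]
    · exact Or.inl (by group)
    · exact Or.inr (Or.inl hua)
    · exact Or.inr (Or.inr (Or.inr har))
    · exact Or.inr (Or.inr (Or.inl haur))
  have hUW : U ≤ W := by
    rintro x (h | h | h | h) <;> rw [h]
    · exact one_mem W
    · exact huW
    · exact hrW
    · exact mul_mem huW hrW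
  refine Cfsg.Lib.PLocal.involves_s4_of_four U hUc a g (n := 3) (by decide) haN hgN ?_ ?_
    (centralizer_le hUW hg3) ?_
  · refine mem_centralizer_iff.2 fun x hx => ?_
    have e : a * (a * x * a⁻¹) * a⁻¹ = x := by
      rcases hx with h | h | h | h <;> rw [h]
      · group
      · rw [hua, hua]
      · rw [har, haur]
      · rw [haur, har]
    calc x * a ^ 2 = a * (a * x * a⁻¹) * a⁻¹ * a ^ 2 := by rw [e]
      _ = a ^ 2 * x := by rw [pow_two]; group
  · intro ha
    have h := mem_centralizer_iff.1 ha r (Or.inr (Or.inr (Or.inl rfl)))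
    rw [← h, mul_inv_cancel_right] at har
    exact hu1 (mul_eq_right.1 har.symm)
  · intro x hx e
    rcases hx with h | h | h | h <;> rw [h] at e ⊢
    · exact absurd e hne
    · rw [hgr] at e
      exact absurd (mul_eq_right.1 e) hu1
    · rw [hgur] at e
      exact absurd (mul_eq_left.1 e.symm) hr1

theorem two_part {x : G} {k : ℕ} {Q : Type*} [Group Q] (q : G →* Q) (hx : q x ^ 2 ^ k = 1) :
    ∃ a, q a = q x ∧ ∃ j, a ^ 2 ^ j = 1 := by
  obtain ⟨e, m, hm, he⟩ := Nat.exists_eq_pow_mul_and_not_dvd (orderOf_pos x).ne' 2 (by norm_num)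
  obtain ⟨s, hs⟩ : ∃ s, m * s ≡ 1 [MOD 2 ^ k] := by
    have hcop : m.Coprime (2 ^ k) :=
      ((Nat.Prime.coprime_iff_not_dvd Nat.prime_two).2 hm).symm.pow_right k
    rcases Nat.eq_zero_or_pos k with h | h
    · exact ⟨0, by rw [h, pow_zero]; exact Nat.modEq_one⟩
    obtain ⟨s, hs⟩ := Nat.exists_mul_mod_eq_one_of_coprime hcop (Nat.one_lt_pow h.ne' (by norm_num))
    exact ⟨s, by rw [Nat.ModEq, hs.2, Nat.mod_eq_of_lt (Nat.one_lt_pow h.ne' (by norm_num))]⟩
  refine ⟨x ^ (m * s), ?_, e, ?_⟩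
  · rw [map_pow, ← pow_one (q x), ← pow_mul, one_mul]
    exact pow_eq_pow_iff_modEq.2 (hs.of_dvd (orderOf_dvd_of_pow_eq_one hx))
  · rw [← pow_mul, show m * s * 2 ^ e = orderOf x * s by rw [he]; ring, pow_mul, pow_orderOf_eq_one, one_pow]

set_option maxHeartbeats 1000000 in
/-- S2759. -/
theorem s4_involved : Involves (Equiv.Perm (Fin 4)) G ↔ ∃ T : Subgroup G, IsPGroup 2 T ∧
    Involves (Equiv.Perm (Fin 3))
      (↥(normalizer (T : Set G)) ⧸ (centralizer (T : Set G)).subgroupOf (normalizer (T : Set G))) := by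
  classical
  haveI : Fact (Nat.Prime 3) := ⟨Nat.prime_three⟩
  constructor
  · refine involves_quotient pairHom pairHom_surjective (fun x => ⟨1, Subtype.ext ?_⟩) ?_
    · show (x : Equiv.Perm (Fin 4)) ^ (2 ^ 1) = 1
      rw [pow_one, pow_two]
      exact pairKer_sq x fun i => by
        have := Equiv.ext_iff.1 (MonoidHom.mem_ker.1 x.2) i
        exact this
    · intro σ hσ
      refine MonoidHom.mem_ker.2 (Equiv.ext (pairKer_self σ fun τ hτ => ?_))
      exact (mem_centralizer_iff.1 hσ τ (MonoidHom.mem_ker.2 (Equiv.ext hτ))).symm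
  rintro ⟨T, hT, h⟩
  set N := normalizer (T : Set G) with hN
  set q := QuotientGroup.mk' ((centralizer (T : Set G)).subgroupOf N) with hq
  obtain ⟨x, y, ⟨k, hk⟩, ⟨j, hj⟩, hy1, hxy⟩ :=
    (Cfsg.Lib.DihInv.dihedral_involved (p := 3) (by norm_num)).2.1 (involves_congr dihEquiv.symm h)
  obtain ⟨j, rfl⟩ : ∃ i, j = i + 1 := Nat.exists_eq_succ_of_ne_zero fun e => hy1 (orderOf_eq_one_iff.1 (by rw [hj, e, pow_zero]))
  obtain ⟨a₀, rfl⟩ := QuotientGroup.mk'_surjective _ x
  obtain ⟨g₀, rfl⟩ := QuotientGroup.mk'_surjective _ y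
  obtain ⟨a, hae, l, hl⟩ := two_part q (x := a₀) (k := k) (by rw [← hk]; exact pow_orderOf_eq_one _)
  set g := g₀ ^ 3 ^ j with hgdef
  have hqg : orderOf (q g) = 3 := by
    rw [hgdef, map_pow, orderOf_pow, hj, pow_succ, Nat.gcd_eq_right (Dvd.intro _ rfl),
      Nat.mul_div_cancel_left _ (by positivity)]
  have hga : q (a * g * a⁻¹ * g) = 1 := by
    rw [map_mul, map_mul, map_mul, map_inv, hae, hgdef, map_pow, ← conj_pow, hxy, inv_pow, inv_mul_cancel]
  -- the Frattini quotient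
  set T' := T.subgroupOf N with hT'
  haveI : T'.Normal := normal_in_normalizer
  have hT'p : IsPGroup 2 T' := hT.of_equiv (subgroupOfEquivOfLe le_normalizer).symm
  set Φ := (frattini T').map T'.subtype with hΦ
  haveI : Φ.Normal := ConjAct.normal_of_characteristic_of_normal
  set π := QuotientGroup.mk' Φ with hπ
  haveI : (T'.map π).Normal := Normal.map inferInstance _ (QuotientGroup.mk'_surjective _)
  have hW : IsElementaryAbelian 2 (T'.map π) := by
    refine ⟨⟨⟨?_⟩⟩, ?_⟩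
    · rintro ⟨_, s, hs, rfl⟩ ⟨_, t, ht, rfl⟩
      refine Subtype.ext ((?_ : π s * π t = π t * π s))
      have h1 : ((⁅(⟨s, hs⟩ : T'), ⟨t, ht⟩⁆ : T') : N) ∈ Φ := mem_map_of_mem _
        (Cfsg.Lib.Solv.commutator_le_frattini hT'p (commutator_mem_commutator (mem_top _) (mem_top _)))
      have h2 : π (s * t * s⁻¹ * t⁻¹) = 1 := (QuotientGroup.eq_one_iff _).2 (by
        simpa [commutatorElement_def] using h1)
      rw [map_mul, map_mul, map_mul, map_inv, map_inv, mul_inv_eq_one, mul_inv_eq_iff_eq_mul] at h2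
      exact h2
    · rintro _ ⟨s, hs, rfl⟩
      rw [← map_pow]
      exact (QuotientGroup.eq_one_iff _).2 (mem_map_of_mem T'.subtype
        (Cfsg.Lib.Solv.pow_mem_frattini hT'p ⟨s, hs⟩))
  have hcent : ∀ z : N, q z = 1 → π z ∈ centralizer ((T'.map π : Subgroup _) : Set (N ⧸ Φ)) := by
    intro z hz
    refine mem_centralizer_iff.2 ?_
    rintro _ ⟨s, hs, rfl⟩
    rw [← map_mul, ← map_mul]
    exact congrArg π (Subtype.ext (mem_centralizer_iff.1 ((QuotientGroup.eq_one_iff (N := (centralizer (T : Set G)).subgroupOf N) z).1 hz) _ hs))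
  refine Cfsg.Lib.Fusion.involves_of_injective N.subtype N.subtype_injective
    (Cfsg.Lib.Fusion.involves_of_surjective π (QuotientGroup.mk'_surjective _) ?_)
  refine step_four (T'.map π) hW (π a) (π g) ?_ ?_ ?_ ⟨l, by rw [← map_pow, hl, map_one]⟩
  · rw [← map_inv, ← map_mul, ← map_mul, ← map_mul]
    exact hcent _ hga
  · rw [← map_pow]
    exact hcent _ (by rw [map_pow, ← hqg, pow_orderOf_eq_one])
  · intro hg
    -- a power of odd order centralizes the Frattini quotient, hence everything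
    obtain ⟨e, m, hm, he⟩ := Nat.exists_eq_pow_mul_and_not_dvd (orderOf_pos g).ne' 2 (by norm_num)
    have hodd : (orderOf (g ^ 2 ^ e)).Coprime 2 := by
      rw [orderOf_pow, he, Nat.gcd_eq_right (Dvd.intro _ rfl), Nat.mul_div_cancel_left _ (by positivity)]
      exact ((Nat.Prime.coprime_iff_not_dvd Nat.prime_two).2 hm).symm
    have hle : zpowers (g ^ 2 ^ e) ≤ centralizer (T' : Set N) := by
      refine Cfsg.Lib.Solv.centralizes_of_frattini _ T' (le_top.trans (normalizer_eq_top (H := T')).ge) ?_ ?_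
      · obtain ⟨i, hi⟩ := IsPGroup.iff_card.1 (hT'p.to_subgroup (frattini T'))
        rw [Nat.card_zpowers, hi]
        exact hodd.pow_right i
      · intro b hb s hs
        obtain ⟨i, rfl⟩ := mem_zpowers_iff.1 hb
        rw [← hΦ]
        refine (QuotientGroup.eq_one_iff _).1 ?_
        show π ((g ^ 2 ^ e) ^ i * s * ((g ^ 2 ^ e) ^ i)⁻¹ * s⁻¹) = 1
        rw [map_mul, map_mul, map_mul, map_inv, map_inv, map_zpow, map_pow,
          ← mem_centralizer_iff.1 (zpow_mem (pow_mem hg _) i) _ (mem_map_of_mem π hs),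
          mul_inv_cancel_right, mul_inv_cancel]
    have h1 : q (g ^ 2 ^ e) = 1 := by
      refine (QuotientGroup.eq_one_iff _).2 (mem_subgroupOf.2 (mem_centralizer_iff.2 fun s hs => ?_))
      exact congrArg Subtype.val
        (mem_centralizer_iff.1 (hle (mem_zpowers _)) ⟨s, le_normalizer hs⟩ hs)
    rw [map_pow] at h1
    have h3 := orderOf_dvd_of_pow_eq_one h1
    rw [hqg] at h3
    have := Nat.prime_three.dvd_of_dvd_pow h3
    norm_num at this

end Cfsg.Lib.S4Inv
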