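import Mathlib
import Cfsg.Prelude.Def_Transfer
import Cfsg.Agent.Lib.NumTheory.Zsigmondy

/-!
The fixed points of a `p`-element of `SL₂(q)` in a faithful module of characteristic `p` have index at least `q`.
-/

set_option autoImplicit false

open Matrix
open scoped MatrixGroups

namespace Cfsg.Lib.PLocal.SL2FixedIndex

/-- Powers of a matrix and of a root of its characteristic polynomial. -/
theorem pow_coeff {R K : Type*} [CommRing R] [CommRing K] (φ : R →+* K) {M : Matrix (Fin 2) (Fin 2) R} {τ : R}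
    (hM : M * M = τ • M - 1) {η : K} (hη : η * η = φ τ * η - 1) :
    ∀ m : ℕ, ∃ α β : R, M ^ m = α • M + β • 1 ∧ η ^ m = φ α * η + φ β := by
  intro m
  induction m with
  | zero => exact ⟨0, 1, by simp, by simp⟩
  | succ m ih =>
    obtain ⟨α, β, h1, h2⟩ := ih
    refine ⟨τ * α + β, -α, ?_, ?_⟩
    · rw [pow_succ, h1, add_mul, smul_mul_assoc, smul_mul_assoc, one_mul, hM, smul_sub, smul_smul,
        add_smul, neg_smul, mul_comm τ α]
      abel
    · rw [pow_succ, h2, map_add, map_mul, map_neg]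
      linear_combination φ α * hη

theorem exists_order {p n d : ℕ} [Fact p.Prime] {F : Type*} [Field F] [Fintype F]
    (hF : Fintype.card F = p ^ n) (hn : n ≠ 0) (hodd : Odd d) (hd : d ∣ p ^ n + 1) (hd1 : d ≠ 1) (s : F) (hs : s ≠ 0) :
    ∃ μ : F, μ ≠ 0 ∧ ∀ m : ℕ, (!![1, s; 0, 1] * !![1, 0; -(μ ^ 2 * s), 1] : Matrix (Fin 2) (Fin 2) F) ^ m = 1 → d ∣ m := by
  classical
  haveI : CharP F p := by
    obtain ⟨q, hq⟩ := CharP.exists F
    obtain ⟨k, hqp, hk⟩ := FiniteField.card F q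
    rw [hF] at hk
    have hdvd : q ∣ p := hqp.dvd_of_dvd_pow (hk ▸ dvd_pow_self q k.ne_zero)
    exact (Nat.prime_dvd_prime_iff_eq hqp Fact.out).1 hdvd ▸ hq
  letI : Algebra (ZMod p) F := ZMod.algebra F p
  set K := GaloisField p (2 * n)
  haveI : Fintype K := Fintype.ofFinite K
  have hKf : Module.finrank (ZMod p) K = 2 * n := GaloisField.finrank p (by omega)
  have hKc : Fintype.card K = p ^ (2 * n) := by
    rw [← Nat.card_eq_fintype_card]; exact GaloisField.card p _ (by omega)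
  have hFf : Module.finrank (ZMod p) F = n := by
    have h := Module.natCard_eq_pow_finrank (K := ZMod p) (V := F)
    rw [Nat.card_eq_fintype_card, hF, Nat.card_zmod] at h
    exact (Nat.pow_right_injective (Fact.out : p.Prime).two_le h).symm
  obtain ⟨φ⟩ := FiniteField.nonempty_algHom_of_finrank_dvd (F := ZMod p) (K := F) (L := K)
    (by rw [hKf, hFf]; exact Dvd.intro_left 2 rfl)
  obtain ⟨g, hg⟩ := IsCyclic.exists_generator (α := Kˣ)
  have hog : orderOf g = p ^ (2 * n) - 1 := by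
    rw [orderOf_eq_card_of_forall_mem_zpowers hg, Nat.card_eq_fintype_card, Fintype.card_units, hKc]
  have hdd : d ∣ p ^ (2 * n) - 1 := by
    refine hd.trans ⟨p ^ n - 1, ?_⟩
    have h := Nat.sq_sub_sq (p ^ n) 1
    rw [one_pow, sq] at h
    rw [two_mul, pow_add, h]
  have hpos : p ^ (2 * n) - 1 ≠ 0 := by
    have := Nat.one_lt_pow (show 2 * n ≠ 0 by omega) (Fact.out : p.Prime).one_lt
    omega
  set ξu := g ^ ((p ^ (2 * n) - 1) / d) with hξu
  have hξo : orderOf ξu = d := by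
    have hne : (p ^ (2 * n) - 1) / d ≠ 0 :=
      (Nat.div_pos (Nat.le_of_dvd (Nat.pos_of_ne_zero hpos) hdd) hodd.pos).ne'
    rw [orderOf_pow' g hne, hog, Nat.gcd_eq_right (Nat.div_dvd_of_dvd hdd), Nat.div_div_self hdd hpos]
  set ξ : K := (ξu : K) with hξ
  have hξ0 : ξ ≠ 0 := ξu.ne_zero
  have hξd : ∀ m : ℕ, ξ ^ m = 1 ↔ d ∣ m := fun m => by
    rw [← hξo, orderOf_dvd_iff_pow_eq_one, hξ, ← Units.val_pow_eq_pow_val, Units.val_eq_one]
  -- the trace lies in `F`
  have hq : ξ ^ (p ^ n) = ξ⁻¹ := by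
    apply eq_inv_of_mul_eq_one_left
    rw [← pow_succ]
    exact (hξd _).2 hd
  have hrange : ξ + ξ⁻¹ ∈ Set.range φ := by
    haveI : CharP K p := charP_of_injective_algebraMap (algebraMap (ZMod p) K).injective p
    have hfix : (ξ + ξ⁻¹) ^ (p ^ n) = ξ + ξ⁻¹ := by
      rw [add_pow_char_pow, inv_pow, hq, inv_inv, add_comm]
    let P : Polynomial K := Polynomial.X ^ (p ^ n) - Polynomial.X
    have hP : P ≠ 0 := FiniteField.X_pow_card_pow_sub_X_ne_zero K hn (Fact.out : p.Prime).one_lt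
    have hsub : Finset.univ.image φ ⊆ P.roots.toFinset := by
      intro u hu
      obtain ⟨w, -, rfl⟩ := Finset.mem_image.1 hu
      rw [Multiset.mem_toFinset, Polynomial.mem_roots hP]
      simp only [P, Polynomial.IsRoot, Polynomial.eval_sub, Polynomial.eval_pow, Polynomial.eval_X]
      rw [← map_pow, ← hF, FiniteField.pow_card, sub_self]
    have hcard : P.roots.toFinset.card ≤ (Finset.univ.image φ).card := by
      rw [Finset.card_image_of_injective (f := (φ : F → K)) _ (fun a b h => φ.toRingHom.injective h), Finset.card_univ, hF]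
      refine ((Multiset.toFinset_card_le _).trans (Polynomial.card_roots' P)).trans ?_
      rw [FiniteField.X_pow_card_pow_sub_X_natDegree_eq K hn (Fact.out : p.Prime).one_lt]
    have hmem : ξ + ξ⁻¹ ∈ P.roots.toFinset := by
      rw [Multiset.mem_toFinset, Polynomial.mem_roots hP]
      simp [P, Polynomial.IsRoot, hfix]
    rw [← Finset.eq_of_subset_of_card_le hsub hcard, Finset.mem_image] at hmem
    obtain ⟨w, -, hw⟩ := hmem
    exact ⟨w, hw⟩
  obtain ⟨t, ht⟩ := hrange
  have ht0 : t ≠ 0 := by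
    rintro rfl
    rw [map_zero] at ht
    have h2 : ξ ^ 2 = -1 := by
      have := congrArg (· * ξ) ht
      simp only [zero_mul, add_mul, inv_mul_cancel₀ hξ0] at this
      linear_combination -this
    have h4 : d ∣ 4 := (hξd 4).1 (by linear_combination (ξ ^ 2 - 1) * h2)
    have := Nat.le_of_dvd (by norm_num) h4
    obtain ⟨k, rfl⟩ := hodd
    have : k ≤ 1 := by omega
    interval_cases k
    · exact hd1 rfl
    · exact absurd h4 (by decide)
  refine ⟨t * s⁻¹, mul_ne_zero ht0 (inv_ne_zero hs), fun m hm => ?_⟩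
  set M : Matrix (Fin 2) (Fin 2) F := !![1, s; 0, 1] * !![1, 0; -((t * s⁻¹) ^ 2 * s), 1] with hMdef
  have hMM : M = !![1 - t ^ 2, s; -((t * s⁻¹) ^ 2 * s), 1] := by
    rw [hMdef, Matrix.mul_fin_two]
    have hss : s * s⁻¹ = 1 := mul_inv_cancel₀ hs
    have : s * -((t * s⁻¹) ^ 2 * s) = -t ^ 2 := by linear_combination (-(t ^ 2) * (s * s⁻¹ + 1)) * hss
    ext i j
    fin_cases i <;> fin_cases j <;> simp <;>
      first | linear_combination this | linear_combination -this
  have hsq : M * M = (2 - t ^ 2) • M - 1 := by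
    rw [hMM, Matrix.mul_fin_two]
    have hss : s * s⁻¹ = 1 := mul_inv_cancel₀ hs
    have : (t * s⁻¹) ^ 2 * s * s = t ^ 2 := by linear_combination (t ^ 2 * (s * s⁻¹ + 1)) * hss
    ext i j
    fin_cases i <;> fin_cases j <;> simp <;> field_simp <;> ring
  have hη : (-ξ ^ 2) * (-ξ ^ 2) = φ.toRingHom (2 - t ^ 2) * (-ξ ^ 2) - 1 := by
    show _ = φ (2 - t ^ 2) * _ - 1
    rw [map_sub, map_pow, ht, map_ofNat]
    linear_combination (2 * ξ ^ 2 + ξ * ξ⁻¹ + 1) * (mul_inv_cancel₀ hξ0) * (-1)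
  obtain ⟨α, β, h1, h2⟩ := pow_coeff φ.toRingHom hsq hη m
  rw [hm] at h1
  have hα : α = 0 := by
    have := congrFun (congrFun h1 0) 1
    simp [hMM] at this
    tauto
  have hβ : β = 1 := by
    have := congrFun (congrFun h1 0) 0
    simp [hα] at this
    exact this.symm
  rw [hα, hβ, map_zero, map_one, zero_mul, zero_add] at h2
  have h3 : ξ ^ (2 * m * 2) = 1 := by
    rw [show 2 * m * 2 = 2 * (m * 2) by ring, pow_mul, show ξ ^ 2 = -(-ξ ^ 2) by ring, mul_comm m 2, pow_mul,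
      neg_sq, ← pow_mul, mul_comm 2 m, pow_mul, h2, one_pow]
  have hc : Nat.Coprime d 4 := Nat.Coprime.pow_right 2 (Nat.coprime_two_right.2 hodd)
  exact hc.dvd_of_dvd_mul_left (show d ∣ 4 * m by rw [show 4 * m = 2 * m * 2 by ring]; exact (hξd _).1 h3)

/-- A suitable prime power divisor of `p ^ n + 1`. -/
theorem exists_divisor {p n : ℕ} (hp : p.Prime) (hn : 2 ≤ n) :
    ∃ r e : ℕ, r.Prime ∧ r ≠ 2 ∧ e ≠ 0 ∧ r ^ e ∣ p ^ n + 1 ∧ ∀ k : ℕ, 0 < k → k < 2 * n → ¬ r ^ e ∣ p ^ k - 1 := by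
  by_cases h6 : p = 2 ∧ 2 * n = 6
  · obtain ⟨rfl, h⟩ := h6
    obtain rfl : n = 3 := by omega
    refine ⟨3, 2, Nat.prime_three, by norm_num, by norm_num, by norm_num, fun k hk0 hk => ?_⟩
    interval_cases k <;> norm_num
  · obtain ⟨r, hr, hrd, hprim⟩ := Cfsg.Agent.NumTheory.zsigmondy p (2 * n) hp.one_lt (by omega) h6
      (by omega)
    have hfac : p ^ (2 * n) - 1 = (p ^ n + 1) * (p ^ n - 1) := by
      rw [two_mul, pow_add, ← Nat.sq_sub_sq, one_pow, sq]
    have hr2 : r ≠ 2 := by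
      rintro rfl
      rcases hp.eq_two_or_odd with h | h
      · subst h
        have h2 : 2 ∣ 2 ^ (2 * n) := dvd_pow_self 2 (by omega)
        have := Nat.one_le_two_pow (n := 2 * n)
        omega
      · exact hprim 1 one_pos (by omega) (by rw [pow_one]; omega)
    refine ⟨r, 1, hr, hr2, one_ne_zero, ?_, fun k hk0 hk => by rw [pow_one]; exact hprim k hk0 hk⟩
    rw [pow_one]
    rw [hfac] at hrd
    exact (hr.dvd_mul.1 hrd).resolve_right (hprim n (by omega) (by omega))

/-- An element of prime power order moves many points. -/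
theorem fixed_index {G : Type*} [Group G] [Finite G] {p r e : ℕ} [Fact p.Prime] (hr : r.Prime) (hrp : r ≠ p) (he : e ≠ 0)
    {N : ℕ} (hprim : ∀ k : ℕ, 0 < k → k < N → ¬ r ^ e ∣ p ^ k - 1) (V C : Subgroup G)
    (hV : Cfsg.IsElementaryAbelian p V) {X : G} (hXo : orderOf X = r ^ e)
    (hXV : X ∈ Subgroup.normalizer (V : Set G)) (hY : X ^ r ^ (e - 1) ∉ Subgroup.centralizer (V : Set G))
    (hC : C ≤ V ⊓ Subgroup.centralizer ({X} : Set G)) : p ^ N ≤ C.relIndex V := by
  classical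
  have hp := (Fact.out : p.Prime)
  set Y := X ^ r ^ (e - 1) with hYdef
  set C' := V ⊓ Subgroup.centralizer ({Y} : Set G) with hC'
  have hle : C ≤ C' := fun c hc => ⟨(hC hc).1, Subgroup.mem_centralizer_singleton_iff.2 (by
    have h := (Subgroup.mem_centralizer_singleton_iff.1 (hC hc).2)
    exact ((show Commute c X from h).pow_right _).eq)⟩
  refine le_trans ?_ (Nat.le_of_dvd (Nat.pos_of_ne_zero Subgroup.index_ne_zero_of_finite) (Subgroup.relIndex_dvd_of_le_left V hle))
  -- `⟨X⟩` acts freely on `V \ C'`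
  set Z := Subgroup.zpowers X
  have hnorm : ∀ z : Z, (z : G) ∈ Subgroup.normalizer (V : Set G) := fun z => (Subgroup.zpowers_le.2 hXV) z.2
  have hstab : ∀ (z : Z) (v : G), v ∈ V ∧ v ∉ C' → (z : G) * v * (z : G)⁻¹ ∈ V ∧ (z : G) * v * (z : G)⁻¹ ∉ C' := by
    rintro z v ⟨hv, hv'⟩
    refine ⟨(Subgroup.mem_normalizer_iff.1 (hnorm z) v).1 hv, fun h => hv' ⟨hv, ?_⟩⟩
    have h2 := Subgroup.mem_centralizer_singleton_iff.1 h.2
    obtain ⟨j, hj⟩ := Subgroup.mem_zpowers_iff.1 z.2
    have hc : (z : G) * Y = Y * z := by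
      rw [← hj, hYdef]; exact (((Commute.refl X).zpow_left j).pow_right _).eq
    refine Subgroup.mem_centralizer_singleton_iff.2 ?_
    calc v * Y = v * ((z : G)⁻¹ * ((z : G) * Y)) := by group
      _ = v * ((z : G)⁻¹ * (Y * (z : G))) := by rw [hc]
      _ = (z : G)⁻¹ * ((z : G) * v * (z : G)⁻¹ * Y) * z := by group
      _ = (z : G)⁻¹ * (Y * ((z : G) * v * (z : G)⁻¹)) * z := by rw [h2]
      _ = (z : G)⁻¹ * Y * z * v := by group
      _ = Y * v := by rw [mul_assoc (z : G)⁻¹, ← hc]; group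
  letI : MulAction Z {v : G // v ∈ V ∧ v ∉ C'} :=
    { smul := fun z v => ⟨(z : G) * v * (z : G)⁻¹, hstab z v v.2⟩
      one_smul := fun v => Subtype.ext (by show (1 : G) * v * (1 : G)⁻¹ = v; simp)
      mul_smul := fun a b v => Subtype.ext (by
        show ((a : G) * b) * v * ((a : G) * b)⁻¹ = (a : G) * ((b : G) * v * (b : G)⁻¹) * (a : G)⁻¹
        group) }
  have hfree : ∀ v : {v : G // v ∈ V ∧ v ∉ C'}, MulAction.stabilizer Z v = ⊥ := by
    intro v
    rw [Subgroup.eq_bot_iff_forall]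
    intro z hz
    by_contra hz1
    apply v.2.2
    refine ⟨v.2.1, ?_⟩
    refine Subgroup.mem_centralizer_singleton_iff.2 ?_
    have hzv : (z : G) * v * (z : G)⁻¹ = v := congrArg Subtype.val hz
    -- `Y` is a power of `z`
    obtain ⟨k, hk⟩ : ∃ k, orderOf (z : G) = r ^ k ∧ k ≤ e := by
      have h := orderOf_dvd_of_mem_zpowers z.2
      rw [hXo] at h
      obtain ⟨k, hk, hkk⟩ := (Nat.dvd_prime_pow hr).1 h
      exact ⟨k, hkk, hk⟩
    have hk0 : k ≠ 0 := by
      rintro rfl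
      exact hz1 (Subtype.ext (orderOf_eq_one_iff.1 (by simpa using hk.1)))
    have hmem : Y ∈ Subgroup.zpowers (z : G) := by
      obtain ⟨i, hi⟩ := Subgroup.mem_zpowers_iff.1 z.2
      set u := (z : G) ^ r ^ (k - 1) with hu
      have hur : u ^ r = 1 := by
        rw [hu, ← pow_mul, ← pow_succ, Nat.sub_add_cancel (Nat.pos_of_ne_zero hk0), ← hk.1, pow_orderOf_eq_one]
      have huo : orderOf u = r := by
        haveI := Fact.mk hr
        refine orderOf_eq_prime hur fun h => ?_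
        rw [hu, ← orderOf_dvd_iff_pow_eq_one, hk.1] at h
        exact absurd (Nat.le_of_dvd (pow_pos hr.pos _) h)
          (not_le.2 (Nat.pow_lt_pow_right hr.one_lt (Nat.sub_lt (Nat.pos_of_ne_zero hk0) one_pos)))
      have hYo : orderOf Y ∣ r := by
        rw [orderOf_dvd_iff_pow_eq_one, hYdef, ← pow_mul, ← pow_succ, Nat.sub_add_cancel (Nat.pos_of_ne_zero he),
          ← hXo, pow_orderOf_eq_one]
      have huY : u ∈ Subgroup.zpowers Y := by
        have hu' : u = X ^ (i * ((r ^ (k - 1) : ℕ) : ℤ)) := by rw [hu, ← hi, _root_.zpow_mul, zpow_natCast]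
        have h2 := hur
        rw [hu', ← zpow_natCast, ← _root_.zpow_mul, ← orderOf_dvd_iff_zpow_eq_one, hXo,
          show r ^ e = r ^ (e - 1) * r by rw [← pow_succ, Nat.sub_add_cancel (Nat.pos_of_ne_zero he)],
          Nat.cast_mul] at h2
        obtain ⟨j, hj⟩ := (mul_dvd_mul_iff_right (by exact_mod_cast hr.ne_zero)).1 h2
        rw [hu', hj, _root_.zpow_mul, zpow_natCast]
        exact Subgroup.zpow_mem _ (Subgroup.mem_zpowers _) j
      have heq : Subgroup.zpowers u = Subgroup.zpowers Y := Subgroup.eq_of_le_of_card_ge (Subgroup.zpowers_le.2 huY)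
        (by rw [Nat.card_zpowers, Nat.card_zpowers, huo]; exact Nat.le_of_dvd hr.pos hYo)
      have hY' : Y ∈ Subgroup.zpowers u := heq ▸ Subgroup.mem_zpowers Y
      exact (Subgroup.zpowers_le.2 (pow_mem (Subgroup.mem_zpowers (z : G)) _)) hY'
    obtain ⟨j, hj⟩ := Subgroup.mem_zpowers_iff.1 hmem
    rw [← hj]
    have hc : Commute (z : G) (v : G) := mul_inv_eq_iff_eq_mul.1 hzv
    exact ((hc.zpow_left j).eq).symm
  have hdvd : r ^ e ∣ Nat.card {v : G // v ∈ V ∧ v ∉ C'} := by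
    rw [Nat.card_congr (MulAction.selfEquivOrbitsQuotientProd hfree), Nat.card_prod,
      show Nat.card Z = r ^ e by rw [Nat.card_zpowers, hXo]]
    exact Dvd.intro_left _ rfl
  have hcard : Nat.card {v : G // v ∈ V ∧ v ∉ C'} + Nat.card C' = Nat.card V := by
    have hsub : (C' : Set G) ⊆ V := fun c hc => hc.1
    have h := Set.ncard_sdiff_add_ncard_of_subset hsub (Set.toFinite _)
    rw [← Nat.card_coe_set_eq, ← Nat.card_coe_set_eq, ← Nat.card_coe_set_eq] at h
    exact h
  obtain ⟨a, ha⟩ := IsPGroup.iff_card.1 (show IsPGroup p V from fun u => ⟨1, Subtype.ext (by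
    rw [pow_one, Subgroup.coe_pow, Subgroup.coe_one]; exact hV.2 u u.2)⟩)
  have hC'le : C' ≤ V := inf_le_left
  obtain ⟨b, hba, hb⟩ := (Nat.dvd_prime_pow hp).1 (ha ▸ Subgroup.card_dvd_of_le hC'le)
  have hne : b ≠ a := by
    rintro rfl
    have : C' = V := Subgroup.eq_of_le_of_card_ge hC'le (by rw [ha, hb])
    apply hY
    rw [Subgroup.mem_centralizer_iff]
    intro v hv
    exact Subgroup.mem_centralizer_singleton_iff.1 ((this.symm ▸ hv : v ∈ C').2)
  have hrel : C'.relIndex V = p ^ (a - b) := by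
    have h := Subgroup.card_mul_index (C'.subgroupOf V)
    rw [Nat.card_congr (Subgroup.subgroupOfEquivOfLe hC'le).toEquiv, ha, hb] at h
    rw [Subgroup.relIndex]
    refine Nat.eq_of_mul_eq_mul_left (pow_pos hp.pos b) ?_
    rw [h, ← pow_add, Nat.add_sub_cancel' hba]
  rw [hrel]
  refine Nat.pow_le_pow_right hp.pos ?_
  by_contra hlt
  push Not at hlt
  apply hprim (a - b) (by omega) hlt
  have hcop : Nat.Coprime (r ^ e) (p ^ b) := by
    refine Nat.Coprime.pow _ _ ((Nat.coprime_primes hr hp).2 ?_)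
    exact hrp
  apply hcop.dvd_of_dvd_mul_left
  rw [Nat.mul_sub, mul_one, ← pow_add, Nat.add_sub_cancel' hba]
  have : Nat.card {v : G // v ∈ V ∧ v ∉ C'} = p ^ a - p ^ b := by rw [← ha, ← hb]; omega
  rw [← this]
  exact hdvd

/-- S2788. -/
theorem index_bound {G : Type*} [Group G] [Finite G] {p : ℕ} [Fact p.Prime] (V H : Subgroup G)
    (hV : Cfsg.IsElementaryAbelian p V) (hHV : H ≤ Subgroup.normalizer (V : Set G))
    (hf : H ⊓ Subgroup.centralizer (V : Set G) = ⊥) {F : Type*} [Field F] [Fintype F] (n : ℕ)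
    (hF : Fintype.card F = p ^ n) (e : ↥H ≃* SpecialLinearGroup (Fin 2) F) {a : G} (haH : a ∈ H)
    {k : ℕ} (hap : a ^ p ^ k = 1) (ha1 : a ≠ 1) :
    p ^ n ≤ (V ⊓ Subgroup.centralizer ({a} : Set G)).relIndex V := by
  classical
  have hp := (Fact.out : p.Prime)
  set C := V ⊓ Subgroup.centralizer ({a} : Set G) with hC
  have hn0 : n ≠ 0 := by
    rintro rfl
    exact absurd hF (by simpa using (Fintype.one_lt_card (α := F)).ne')
  have hVp : IsPGroup p V := fun u => ⟨1, Subtype.ext (by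
    rw [pow_one, Subgroup.coe_pow, Subgroup.coe_one]; exact hV.2 u u.2)⟩
  rcases Nat.lt_or_ge n 2 with hn | hn
  · obtain rfl : n = 1 := by omega
    rw [pow_one]
    have hne : C.relIndex V ≠ 1 := fun h => ha1 (by
      have hle : V ≤ C := Subgroup.relIndex_eq_one.1 h
      have : a ∈ H ⊓ Subgroup.centralizer (V : Set G) := ⟨haH, Subgroup.mem_centralizer_iff.2 fun v hv =>
        Subgroup.mem_centralizer_singleton_iff.1 (hle hv).2⟩
      rwa [hf, Subgroup.mem_bot] at this)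
    obtain ⟨j, hj⟩ := hVp.index (C.subgroupOf V)
    rw [Subgroup.relIndex] at hne ⊢
    rw [hj]
    exact Nat.le_self_pow (fun h0 => hne (by rw [hj, h0, pow_zero])) p
  obtain ⟨r, ee, hr, hr2, hee, hrd, hprim⟩ := exists_divisor hp hn
  have hodd : Odd (r ^ ee) := (hr.odd_of_ne_two hr2).pow
  -- the matrix of `a`
  set A : SpecialLinearGroup (Fin 2) F := e ⟨a, haH⟩ with hA
  haveI : CharP F p := by
    obtain ⟨q, hq⟩ := CharP.exists F
    obtain ⟨i, hqp, hi⟩ := FiniteField.card F q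
    rw [hF] at hi
    have hdvd : q ∣ p := hqp.dvd_of_dvd_pow (hi ▸ dvd_pow_self q i.ne_zero)
    exact (Nat.prime_dvd_prime_iff_eq hqp hp).1 hdvd ▸ hq
  have hAp : A ^ p ^ k = 1 := by
    rw [hA, ← map_pow, show (⟨a, haH⟩ : H) ^ p ^ k = 1 from Subtype.ext hap, map_one]
  have hnil : IsNilpotent ((A : Matrix (Fin 2) (Fin 2) F) - 1) := ⟨p ^ k, by
    rw [sub_pow_char_pow_of_commute p k (Commute.one_right _), one_pow,
      show (A : Matrix (Fin 2) (Fin 2) F) ^ p ^ k = 1 from
        (Matrix.SpecialLinearGroup.coe_pow A (p ^ k)).symm.trans (congrArg Subtype.val hAp), sub_self]⟩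
  have htr : (A : Matrix (Fin 2) (Fin 2) F) 0 0 + A 1 1 = 2 := by
    have h := (Matrix.isNilpotent_trace_of_isNilpotent hnil).eq_zero
    rw [Matrix.trace_fin_two] at h
    simp at h
    linear_combination h
  have hdet : (A : Matrix (Fin 2) (Fin 2) F) 0 0 * A 1 1 - A 0 1 * A 1 0 = 1 := by
    rw [← Matrix.det_fin_two]; exact A.2
  -- conjugate to an upper transvection
  obtain ⟨g, s, hs, hgs⟩ : ∃ (g : SpecialLinearGroup (Fin 2) F) (s : F), s ≠ 0 ∧
      (A : Matrix (Fin 2) (Fin 2) F) * g = g * !![1, s; 0, 1] := by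
    have hA1 : (A : Matrix (Fin 2) (Fin 2) F) ≠ 1 := fun h => ha1 (by
      have : A = 1 := Subtype.ext h
      rw [hA, ← map_one e] at this
      exact congrArg Subtype.val (e.injective this))
    by_cases hγ : A 1 0 = 0
    · have h00 : A 0 0 = 1 := by
        have : (A 0 0 - 1) ^ 2 = 0 := by linear_combination (A 0 0) * htr - hdet - (A 0 1) * hγ
        exact sub_eq_zero.1 (eq_zero_of_pow_eq_zero this)
      have h11 : A 1 1 = 1 := by linear_combination htr - h00
      refine ⟨1, A 0 1, fun h => hA1 ?_, ?_⟩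
      · ext i j; fin_cases i <;> fin_cases j <;> simp [h, h00, h11, hγ]
      · show (A : Matrix (Fin 2) (Fin 2) F) * (1 : Matrix (Fin 2) (Fin 2) F) = (1 : Matrix (Fin 2) (Fin 2) F) * _
        rw [mul_one, one_mul]
        ext i j; fin_cases i <;> fin_cases j <;> simp [h00, h11, hγ]
    · set γ := A 1 0 with hγd
      set α := A 0 0 - 1 with hα
      refine ⟨⟨!![α, -γ⁻¹; γ, 0], by rw [Matrix.det_fin_two]; simp [hγ]⟩, -γ⁻¹, by simp [hγ], ?_⟩
      have h11 : A 1 1 = 1 - α := by rw [hα]; linear_combination htr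
      have h01 : A 0 1 * γ = -α ^ 2 := by rw [hα]; linear_combination (A 0 0) * htr - hdet
      rw [Matrix.eta_fin_two (A : Matrix (Fin 2) (Fin 2) F)]
      show !![A 0 0, A 0 1; γ, A 1 1] * !![α, -γ⁻¹; γ, 0] = !![α, -γ⁻¹; γ, 0] * !![1, -γ⁻¹; 0, 1]
      rw [h11, show A 0 0 = 1 + α by rw [hα]; ring]
      simp only [Matrix.mul_fin_two]
      ext i j
      fin_cases i <;> fin_cases j <;> simp
      · linear_combination h01
      · field_simp; ring
      · ring
  obtain ⟨μ, hμ, hord⟩ := exists_order hF hn0 hodd hrd (Nat.one_lt_pow hee hr.one_lt).ne' s hs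
  let W : SpecialLinearGroup (Fin 2) F := ⟨!![0, -μ⁻¹; μ, 0], by rw [Matrix.det_fin_two]; simp [hμ]⟩
  set B := (g * W * g⁻¹) * A * (g * W * g⁻¹)⁻¹ with hB
  -- the product has order divisible by `r ^ ee`
  have hAB : ((g⁻¹ * (A * B) * g : SpecialLinearGroup (Fin 2) F) : Matrix (Fin 2) (Fin 2) F) =
      !![1, s; 0, 1] * !![1, 0; -(μ ^ 2 * s), 1] := by
    let U : SpecialLinearGroup (Fin 2) F := ⟨!![1, s; 0, 1], by rw [Matrix.det_fin_two]; simp⟩
    have hU : A = g * U * g⁻¹ := eq_mul_inv_of_mul_eq (Subtype.ext hgs)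
    have e1 : g⁻¹ * (A * B) * g = U * (W * U * W⁻¹) := by rw [hB, hU]; group
    rw [e1]
    have hW : (W * U * W⁻¹ : SpecialLinearGroup (Fin 2) F) = ⟨!![1, 0; -(μ ^ 2 * s), 1], by
        rw [Matrix.det_fin_two]; simp⟩ := by
      refine mul_inv_eq_iff_eq_mul.2 (Subtype.ext ?_)
      show !![0, -μ⁻¹; μ, 0] * !![1, s; 0, 1] = !![1, 0; -(μ ^ 2 * s), 1] * !![0, -μ⁻¹; μ, 0]
      simp only [Matrix.mul_fin_two]
      ext i j
      fin_cases i <;> fin_cases j <;> simp
      field_simp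
    rw [hW]
    rfl
  set b : G := ((e.symm B : H) : G) with hb
  set hh : G := ((e.symm (g * W * g⁻¹) : H) : G) with hhdef
  have hbconj : b = hh * a * hh⁻¹ := by
    rw [hb, hB, map_mul, map_mul, map_inv, hA, e.symm_apply_apply]; rfl
  have hdiv : r ^ ee ∣ orderOf (a * b) := by
    refine hord _ ?_
    rw [← hAB]
    refine (Matrix.SpecialLinearGroup.coe_pow _ _).symm.trans ?_
    have hab : (⟨a, haH⟩ * e.symm B : H) ^ orderOf (a * b) = 1 := Subtype.ext (pow_orderOf_eq_one (a * b))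
    have h := congrArg e hab
    rw [map_pow, map_mul, e.apply_symm_apply, map_one, ← hA] at h
    have h2 : (g⁻¹ * (A * B) * g) ^ orderOf (a * b) = 1 := by
      have h3 : (g⁻¹ * (A * B) * g⁻¹⁻¹) ^ orderOf (a * b) = 1 := by rw [conj_pow, h]; group
      rwa [inv_inv] at h3
    rw [h2]
    rfl
  set X := (a * b) ^ (orderOf (a * b) / r ^ ee) with hX
  have hop := orderOf_pos (a * b)
  have hXo : orderOf X = r ^ ee := by
    rw [hX, orderOf_pow' _ (Nat.div_pos (Nat.le_of_dvd hop hdiv) (pow_pos hr.pos ee)).ne',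
      Nat.gcd_eq_right (Nat.div_dvd_of_dvd hdiv), Nat.div_div_self hdiv hop.ne']
  have hbH : b ∈ H := (e.symm B).2
  have hXH : X ∈ H := pow_mem (mul_mem haH hbH) _
  have hY : X ^ r ^ (ee - 1) ∉ Subgroup.centralizer (V : Set G) := by
    intro h
    have h2 : X ^ r ^ (ee - 1) ∈ H ⊓ Subgroup.centralizer (V : Set G) := ⟨pow_mem hXH _, h⟩
    rw [hf, Subgroup.mem_bot, ← orderOf_dvd_iff_pow_eq_one, hXo] at h2
    have := Nat.le_of_dvd (pow_pos hr.pos _) h2
    exact absurd this (not_le.2 (Nat.pow_lt_pow_right hr.one_lt (Nat.sub_lt (Nat.pos_of_ne_zero hee) one_pos)))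
  set Cb := V ⊓ Subgroup.centralizer ({b} : Set G) with hCb
  have h1 := fixed_index hr (fun h => by
    subst h
    exact hr.not_dvd_one ((Nat.dvd_add_right (dvd_pow_self r hn0)).1 ((dvd_pow_self r hee).trans hrd))) hee (N := 2 * n) hprim V (C ⊓ Cb) hV hXo (hHV hXH) hY (fun v hv => ⟨hv.1.1, by
    refine Subgroup.mem_centralizer_singleton_iff.2 ?_
    have hva : Commute v a := Subgroup.mem_centralizer_singleton_iff.1 hv.1.2
    have hvb : Commute v b := Subgroup.mem_centralizer_singleton_iff.1 hv.2.2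
    exact ((hva.mul_right hvb).pow_right _).eq⟩)
  have hhH : hh ∈ H := (e.symm (g * W * g⁻¹)).2
  have hVmap : V.map (MulAut.conj hh).toMonoidHom = V := by
    refine Subgroup.eq_of_le_of_card_ge ?_ (Subgroup.card_map_of_injective (MulAut.conj hh).injective).ge
    rintro _ ⟨v, hv, rfl⟩
    exact (Subgroup.mem_normalizer_iff.1 (hHV hhH) v).1 hv
  have hmap : C.map (MulAut.conj hh).toMonoidHom = Cb := by
    ext w
    constructor
    · rintro ⟨v, ⟨hv, hva⟩, rfl⟩
      refine ⟨hVmap ▸ ⟨v, hv, rfl⟩, Subgroup.mem_centralizer_singleton_iff.2 ?_⟩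
      have hva' := Subgroup.mem_centralizer_singleton_iff.1 hva
      show hh * v * hh⁻¹ * b = b * (hh * v * hh⁻¹)
      rw [hbconj]
      calc hh * v * hh⁻¹ * (hh * a * hh⁻¹) = hh * (v * a) * hh⁻¹ := by group
        _ = hh * (a * v) * hh⁻¹ := by rw [hva']
        _ = _ := by group
    · rintro ⟨hwV, hwb⟩
      refine ⟨hh⁻¹ * w * hh, ⟨by simpa using (Subgroup.mem_normalizer_iff.1 (inv_mem (hHV hhH)) w).1 hwV,
        Subgroup.mem_centralizer_singleton_iff.2 ?_⟩, by show hh * (hh⁻¹ * w * hh) * hh⁻¹ = w; group⟩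
      have hwb' := Subgroup.mem_centralizer_singleton_iff.1 hwb
      rw [hbconj] at hwb'
      calc hh⁻¹ * w * hh * a = hh⁻¹ * (w * (hh * a * hh⁻¹)) * hh := by group
        _ = hh⁻¹ * ((hh * a * hh⁻¹) * w) * hh := by rw [hwb']
        _ = _ := by group
  have h2 : Cb.relIndex V = C.relIndex V := by
    rw [← hmap]
    nth_rewrite 1 [← hVmap]
    exact Subgroup.relIndex_map_map_of_injective C V (MulAut.conj hh).injective
  have h3 := h1.trans (Subgroup.relIndex_inf_le (H := C) (K := Cb) (L := V))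
  rw [h2, two_mul, pow_add] at h3
  exact Nat.mul_self_le_mul_self_iff.1 h3

end Cfsg.Lib.PLocal.SL2FixedIndex
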