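import Mathlib
import Cfsg.Prelude.Def_PLocal
import Cfsg.Agent.Lib.PLocal.Offender
import Cfsg.Agent.Lib.PLocal.Factorization
import Cfsg.Agent.Lib.Solv.Coprime2
import Cfsg.Agent.Lib.Solv.Subnormal
import Cfsg.Agent.S0622

/-!
The stable normal closure `W(S)`: no quadratic action on it, and its normality in stable groups.
-/

set_option autoImplicit false
set_option linter.unusedSectionVars false
set_option linter.style.haveILetI false

open scoped commutatorElement

namespace Cfsg.Lib.PLocal.StableClosure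

open Cfsg Subgroup

universe u

section Basic

variable {G : Type*} [Group G]

theorem comm_congr {V : Subgroup G} {g g' : G} (h : g⁻¹ * g' ∈ centralizer (V : Set G)) {v : G} (hv : v ∈ V) :
    ⁅v, g'⁆ = ⁅v, g⁆ := by
  have h1 : v⁻¹ * (g⁻¹ * g') = g⁻¹ * g' * v⁻¹ := mem_centralizer_iff.1 h _ (inv_mem hv)
  calc ⁅v, g'⁆ = v * g * (g⁻¹ * g' * v⁻¹) * g'⁻¹ := by simp only [commutatorElement_def]; group
    _ = v * g * (v⁻¹ * (g⁻¹ * g')) * g'⁻¹ := by rw [h1]
    _ = _ := by simp only [commutatorElement_def]; group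

theorem commutator_congr {V U A B : Subgroup G} [(centralizer (V : Set G)).Normal] (hU : U ≤ V)
    (h : A.map (QuotientGroup.mk' (centralizer (V : Set G))) ≤ B.map (QuotientGroup.mk' (centralizer (V : Set G)))) :
    ⁅U, A⁆ ≤ ⁅U, B⁆ := by
  refine commutator_le.2 fun u hu a ha => ?_
  obtain ⟨b, hb, hba⟩ := h ⟨a, ha, rfl⟩
  rw [comm_congr (QuotientGroup.eq.1 hba) (hU hu)]
  exact commutator_mem_commutator hu hb

theorem le_normalizer_map_subtype {N : Subgroup G} (K : Subgroup ↥N) [K.Normal] :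
    N ≤ normalizer (K.map N.subtype : Set G) := by
  intro n hn
  rw [Subgroup.mem_normalizer_iff]
  intro y
  constructor
  · rintro ⟨k, hk, rfl⟩
    exact ⟨⟨n, hn⟩ * k * ⟨n, hn⟩⁻¹, ‹K.Normal›.conj_mem k hk _, rfl⟩
  · rintro ⟨k, hk, hky⟩
    refine ⟨⟨n, hn⟩⁻¹ * k * ⟨n, hn⟩, by simpa using ‹K.Normal›.conj_mem k hk ⟨n, hn⟩⁻¹, ?_⟩
    show n⁻¹ * (k : G) * n = y
    rw [show (k : G) = n * y * n⁻¹ from hky]
    group

theorem wOf_normalizer_conj {W : Subgroup G} {g s : G} (hs : s ∈ normalizer (W : Set G)) :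
    g * s * g⁻¹ ∈ normalizer (W.map (MulAut.conj g).toMonoidHom : Set G) := by
  rw [Subgroup.mem_normalizer_iff]
  intro y
  rw [conj_map_iff, conj_map_iff, (Subgroup.mem_normalizer_iff.1 hs) (g⁻¹ * y * g)]
  refine iff_of_eq (congrArg (· ∈ W) ?_)
  group

end Basic

/-- `W(S)` has normal image under stable embeddings. -/
theorem map_normal {S H : Type u} [Group S] [Group H] {p : ℕ} {τ : S →* H} (hτ : IsStableEmbedding p τ) :
    ((stableNormalClosure p S).map τ).Normal := by
  refine ⟨fun y hy g => ?_⟩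
  obtain ⟨w, hw, rfl⟩ := hy
  obtain ⟨u, hu, hue⟩ := (Cfsg.Agent.S0622.oct_map_normal hτ.1 hτ.2.2.2.2.1).conj_mem (τ w)
    ⟨w, (show stableNormalClosure p S ≤ omegaCenterThompson p S from sInf_le ⟨by
      haveI : Finite H := hτ.2.1
      haveI : Finite S := Finite.of_injective τ hτ.1
      exact Cfsg.Agent.S0622.omega_center_le S p, fun H _ σ hσ =>
        Cfsg.Agent.S0622.oct_map_normal hσ.1 hσ.2.2.2.2.1⟩) hw, rfl⟩ g
  refine ⟨u, mem_sInf.2 fun W hW => ?_, hue⟩
  obtain ⟨u', hu', hue'⟩ := (hW.2 H τ hτ).conj_mem (τ w) ⟨w, (mem_sInf.1 hw) W hW, rfl⟩ g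
  exact hτ.1 (hue'.trans hue.symm) ▸ hu'

/-- No element acts quadratically and nontrivially on `W(S)`. -/
theorem quadratic_trivial {S : Type u} [Group S] [Finite S] {p : ℕ} [Fact p.Prime] (hS : IsPGroup p S) {x : S}
    (hq : ⁅⁅stableNormalClosure p S, zpowers x⁆, zpowers x⁆ = ⊥) :
    ⁅stableNormalClosure p S, zpowers x⁆ = ⊥ := by
  obtain ⟨-, hlo, hhi, -, -⟩ := Cfsg.Agent.S0622.result hS
  set W := stableNormalClosure p S
  set Q : Set S := {y | ⁅⁅W, zpowers y⁆, zpowers y⁆ = ⊥}
  have hW : W ≤ W ⊓ centralizer Q := by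
    refine sInf_le ⟨le_inf hlo fun z hz => mem_centralizer_iff.2 fun y _ => ?_, fun H _ τ hτ => ?_⟩
    · have : omegaOne p (center S) ≤ center S := (closure_le _).2 fun a ha => ha.1
      exact mem_center_iff.1 (this hz) y
    · haveI : Finite H := hτ.2.1
      set V := W.map τ
      haveI hV : V.Normal := map_normal hτ
      have hst := hτ.2.2.2.2.2 V (map_mono hhi)
      haveI := Cfsg.Lib.Transfer.pCore_normal (G := H ⧸ centralizer (V : Set H)) p
      refine ⟨fun z hz g => ?_⟩
      obtain ⟨w, hw, rfl⟩ := hz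
      obtain ⟨u, hu, hue⟩ := hV.conj_mem (τ w) ⟨w, hw.1, rfl⟩ g
      refine ⟨u, ⟨hu, mem_centralizer_iff.2 fun y hy => hτ.1 ?_⟩, hue⟩
      have hqy : ⁅⁅V, zpowers (τ y)⁆, zpowers (τ y)⁆ = ⊥ := by
        rw [← MonoidHom.map_zpowers, ← map_commutator, ← map_commutator, show ⁅⁅W, zpowers y⁆, zpowers y⁆ = ⊥ from hy,
          Subgroup.map_bot]
      set mk := QuotientGroup.mk' (centralizer (V : Set H))
      have h1 : mk (g⁻¹ * τ y * g) ∈ pCore p (H ⧸ centralizer (V : Set H)) := by
        rw [map_mul, map_mul, map_inv]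
        simpa [mk] using Subgroup.Normal.conj_mem inferInstance _ (hst (τ y) hqy) (mk g)⁻¹
      obtain ⟨P, hP⟩ := hτ.2.2.1
      obtain ⟨r0, hr0, hr⟩ := Transfer.pCore_le_sylow (P.mapSurjective (QuotientGroup.mk'_surjective _)) h1
      rw [SetLike.mem_coe, hP] at hr0
      obtain ⟨r, rfl⟩ := hr0
      have hqr : r ∈ Q := by
        have hconj : ⁅⁅V, zpowers (g⁻¹ * τ y * g)⁆, zpowers (g⁻¹ * τ y * g)⁆ = ⊥ := by
          have h2 : (zpowers (τ y)).map (MulAut.conj g⁻¹).toMonoidHom = zpowers (g⁻¹ * τ y * g) := by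
            rw [MonoidHom.map_zpowers]; simp
          have h3 : V.map (MulAut.conj g⁻¹).toMonoidHom = V := Subgroup.eq_of_le_of_card_ge
            (by rintro _ ⟨a, ha, rfl⟩; exact hV.conj_mem a ha g⁻¹) (card_map_of_injective (MulAut.conj g⁻¹).injective).ge
          rw [← h2, ← h3, ← map_commutator, ← map_commutator, hqy, Subgroup.map_bot]
        have hmk : (zpowers (τ r)).map mk ≤ (zpowers (g⁻¹ * τ y * g)).map mk := by
          rw [MonoidHom.map_zpowers, MonoidHom.map_zpowers, hr]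
        show ⁅⁅W, zpowers r⁆, zpowers r⁆ = ⊥
        rw [← Subgroup.map_eq_bot_iff_of_injective _ hτ.1, map_commutator, map_commutator, MonoidHom.map_zpowers]
        refine le_bot_iff.1 (le_trans ?_ hconj.le)
        exact (commutator_mono (commutator_congr le_rfl hmk) le_rfl).trans
          (commutator_congr (commutator_le_of_le_normalizer (by rw [normalizer_eq_top]; exact le_top) le_rfl) hmk)
      have hc : (τ r)⁻¹ * (g⁻¹ * τ y * g) ∈ centralizer (V : Set H) := QuotientGroup.eq.1 hr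
      have hrw : τ r * τ w = τ w * τ r := by rw [← map_mul, ← map_mul, mem_centralizer_iff.1 hw.2 r hqr]
      have hcw := mem_centralizer_iff.1 hc (τ w) ⟨w, hw.1, rfl⟩
      rw [map_mul, map_mul, hue]
      calc τ y * (g * τ w * g⁻¹) = g * (τ r * ((τ r)⁻¹ * (g⁻¹ * τ y * g) * τ w)) * g⁻¹ := by group
        _ = g * (τ r * (τ w * ((τ r)⁻¹ * (g⁻¹ * τ y * g)))) * g⁻¹ := by rw [← hcw]
        _ = g * ((τ r * τ w) * ((τ r)⁻¹ * (g⁻¹ * τ y * g))) * g⁻¹ := by group
        _ = g * ((τ w * τ r) * ((τ r)⁻¹ * (g⁻¹ * τ y * g))) * g⁻¹ := by rw [hrw]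
        _ = g * τ w * g⁻¹ * τ y := by group
  rw [commutator_eq_bot_iff_le_centralizer]
  intro w hw
  refine mem_centralizer_iff.2 ?_
  rintro _ ⟨i, rfl⟩
  have h1 : x * w = w * x := mem_centralizer_iff.1 (hW hw).2 x hq
  exact (Commute.zpow_left h1 i).eq

section Normality

variable {G : Type u} [Group G] [Finite G] {p : ℕ} [hp : Fact p.Prime]

/-- `W(S)` in `G`. -/
abbrev wOf (p : ℕ) {G : Type u} [Group G] (S : Subgroup G) : Subgroup G := (stableNormalClosure p ↥S).map S.subtype

theorem wOf_le_normalizer (S : Sylow p G) : (S : Subgroup G) ≤ normalizer (wOf p (S : Subgroup G) : Set G) := by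
  haveI : (stableNormalClosure p ↥(S : Subgroup G)).Characteristic := (Cfsg.Agent.S0622.result S.isPGroup').1
  exact le_normalizer_map_subtype _

theorem sectionKernel_isPGroup (hc : centralizer (pCore p G : Set G) ≤ pCore p G)
    [((frattini ↥(pCore p G)).map (pCore p G).subtype).Normal] :
    IsPGroup p ↥(sectionKernel (pCore p G) ((frattini ↥(pCore p G)).map (pCore p G).subtype)) := by
  set Q := pCore p G
  haveI : Q.Normal := Transfer.pCore_normal p
  set N := (frattini ↥Q).map Q.subtype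
  refine IsPGroup.iff_orderOf.2 fun k => ?_
  obtain ⟨n, hn⟩ := IsPGroup.iff_card.1 (Transfer.pCore_isPGroup (G := G) p)
  have hord : orderOf k ≠ 0 := (orderOf_pos k).ne'
  set e := (orderOf k).factorization p
  have hk0 : orderOf ((k : G) ^ p ^ e) = orderOf k / p ^ e := by
    rw [orderOf_pow, Subgroup.orderOf_coe, Nat.gcd_eq_right (Nat.ordProj_dvd _ p)]
  have hcop : (Nat.card (zpowers ((k : G) ^ p ^ e))).Coprime p := by
    rw [Nat.card_zpowers, hk0]
    exact (Nat.coprime_ordCompl hp.out hord).symm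
  have hcen : (k : G) ^ p ^ e ∈ centralizer (Q : Set G) := by
    obtain ⟨m, hm⟩ := IsPGroup.iff_card.1 ((Transfer.pCore_isPGroup (G := G) p).to_subgroup (frattini ↥Q))
    refine Cfsg.Lib.Solv.centralizes_of_frattini (zpowers ((k : G) ^ p ^ e)) Q (by rw [normalizer_eq_top]; exact le_top)
      (by rw [hm]; exact Nat.Coprime.pow_right _ hcop) ?_ (mem_zpowers _)
    intro a ha q hq
    have h1 : a ∈ sectionKernel Q N := (zpowers_le.2 (pow_mem k.2 _)) ha
    have h2 := mem_centralizer_iff.1 h1 (QuotientGroup.mk' N q) ⟨q, hq, rfl⟩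
    refine (QuotientGroup.eq_one_iff _).1 ?_
    show QuotientGroup.mk' N (a * q * a⁻¹ * q⁻¹) = 1
    rw [map_mul, map_mul, map_mul, map_inv, map_inv, ← h2, mul_inv_cancel_right, mul_inv_cancel]
  have hQ := hc hcen
  have h1 : orderOf ((k : G) ^ p ^ e) ∣ p ^ n := by
    have := orderOf_dvd_natCard (⟨_, hQ⟩ : ↥Q)
    rwa [Subgroup.orderOf_mk, hn] at this
  have h2 : orderOf k / p ^ e = 1 := by
    rw [← hk0]
    exact Nat.eq_one_of_dvd_coprimes (Nat.Coprime.pow_right n (by rwa [Nat.card_zpowers] at hcop)) dvd_rfl h1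
  exact ⟨e, (Nat.eq_of_dvd_of_div_eq_one (Nat.ordProj_dvd _ p) h2).symm⟩

theorem wOf_le_pCore [((frattini ↥(pCore p G)).map (pCore p G).subtype).Normal]
    (hst : IsPStableOnSection p (pCore p G) ((frattini ↥(pCore p G)).map (pCore p G).subtype))
    (hc : centralizer (pCore p G : Set G) ≤ pCore p G) (S : Sylow p G) (hW : IsMulCommutative ↥(wOf p (S : Subgroup G))) :
    wOf p (S : Subgroup G) ≤ pCore p G := by
  haveI : (pCore p G).Normal := Transfer.pCore_normal p
  intro w hw
  set W := wOf p (S : Subgroup G)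
  have h1 : ⁅pCore p G, zpowers w⁆ ≤ W := by
    rw [commutator_comm]
    exact commutator_le_of_le_normalizer (Transfer.pCore_le_sylow S |>.trans (wOf_le_normalizer S)) (zpowers_le.2 hw)
  obtain ⟨D, hDn, hKD, ⟨k, hk⟩, hwD⟩ := hst w ((commutator_mono h1 (zpowers_le.2 hw)).trans
    (le_trans (le_of_eq ((commutator_eq_bot_iff_le_centralizer).2 (fun a ha => mem_centralizer_iff.2 fun b hb =>
      congrArg Subtype.val (hW.is_comm.comm (⟨b, hb⟩ : W) ⟨a, ha⟩)))) bot_le))
  refine Cfsg.Lib.Solv.le_pCore hDn ?_ hwD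
  obtain ⟨j, hj⟩ := IsPGroup.iff_card.1 (sectionKernel_isPGroup hc)
  refine IsPGroup.of_card (n := j + k) ?_
  rw [pow_add, ← hj, ← hk]
  have := relIndex_mul_relIndex ⊥ (sectionKernel (pCore p G) ((frattini ↥(pCore p G)).map (pCore p G).subtype)) D bot_le hKD
  rwa [relIndex_bot_left, relIndex_bot_left, eq_comm] at this

theorem maxElem_of_sylow (S : Sylow p G) {A : Subgroup G} (hA : IsElementaryAbelian p A)
    (hmax : ∀ B : Subgroup G, B ≤ (S : Subgroup G) → IsElementaryAbelian p B → Nat.card B ≤ Nat.card A) :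
    A ∈ maxElementaryAbelianSubgroups p G := by
  refine ⟨hA, fun B hB => ?_⟩
  obtain ⟨T, hT⟩ := (elem_isPGroup hB).exists_le_sylow
  obtain ⟨g, rfl⟩ := MulAction.exists_smul_eq G S T
  have hle : B.map (MulAut.conj g⁻¹).toMonoidHom ≤ (S : Subgroup G) := by
    rintro _ ⟨b, hb, rfl⟩
    obtain ⟨s, hs, rfl⟩ := hT hb
    show g⁻¹ * (g * s * g⁻¹) * g⁻¹⁻¹ ∈ _
    rwa [show g⁻¹ * (g * s * g⁻¹) * g⁻¹⁻¹ = s by group]
  rw [← card_map_of_injective (K := B) (f := (MulAut.conj g⁻¹).toMonoidHom) (MulAut.conj g⁻¹).injective]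
  exact hmax _ hle (elem_map hB _)

theorem wOf_normalized_thompson (hc : centralizer (pCore p G : Set G) ≤ pCore p G) (S : Sylow p G)
    (hst : ∀ (V : Subgroup ↥(normalizer (thompsonSubgroupOf p (S : Subgroup G) : Set G))) [V.Normal],
      V.map (normalizer (thompsonSubgroupOf p (S : Subgroup G) : Set G)).subtype ≤
        (omegaCenterThompson p ↥(S : Subgroup G)).map (S : Subgroup G).subtype → IsPStableOn p V) :
    normalizer (thompsonSubgroupOf p (S : Subgroup G) : Set G) ≤ normalizer (wOf p (S : Subgroup G) : Set G) := by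
  set N := normalizer (thompsonSubgroupOf p (S : Subgroup G) : Set G)
  haveI : (pCore p G).Normal := Transfer.pCore_normal p
  have hSN : (S : Subgroup G) ≤ N := by
    haveI := thompsonSubgroup_characteristic (G := ↥(S : Subgroup G)) (p := p)
    exact le_normalizer_map_subtype _
  let τ : ↥(S : Subgroup G) →* ↥N := inclusion hSN
  have hτ : N.subtype.comp τ = (S : Subgroup G).subtype := rfl
  have hQN : pCore p G ≤ N := (Transfer.pCore_le_sylow S).trans hSN
  have hemb : IsStableEmbedding p τ := by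
    refine ⟨inclusion_injective hSN, inferInstance, ⟨S.subtype hSN, ?_⟩, ?_, ?_, fun V _ hV => hst V ?_⟩
    · rw [inclusion_range, Sylow.coe_subtype]
    · intro x hx
      have hQ : (pCore p G).subgroupOf N ≤ pCore p ↥N := Cfsg.Lib.Solv.le_pCore inferInstance
        ((Transfer.pCore_isPGroup p).comap_of_injective N.subtype N.subtype_injective)
      refine hQ (hc (mem_centralizer_iff.2 fun q hq => ?_) : (x : G) ∈ pCore p G)
      exact congrArg Subtype.val (mem_centralizer_iff.1 hx (⟨q, hQN hq⟩ : ↥N) (hQ hq))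
    · have : (thompsonSubgroup p ↥(S : Subgroup G)).map τ = (thompsonSubgroupOf p (S : Subgroup G)).subgroupOf N := by
        apply map_injective N.subtype_injective
        rw [map_map, hτ, subgroupOf_map_subtype, inf_eq_left.2 le_normalizer]
        rfl
      rw [this]
      exact normal_in_normalizer
    · refine (map_mono hV).trans ?_
      rw [map_map, hτ]
  have hn := map_normal hemb
  have h := le_normalizer_map_subtype ((stableNormalClosure p ↥(S : Subgroup G)).map τ)
  rwa [map_map, hτ] at h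

/-- `W(S)` is normal in stable groups. -/
theorem wOf_normal (hst : IsActionPStable p G) (hc : centralizer (pCore p G : Set G) ≤ pCore p G) (S : Sylow p G) :
    (wOf p (S : Subgroup G)).Normal := by
  obtain ⟨h1, h2, h3⟩ := hst
  obtain ⟨-, -, hWJ, -, -⟩ := Cfsg.Agent.S0622.result (p := p) S.isPGroup'
  set W := wOf p (S : Subgroup G)
  set J := thompsonSubgroupOf p (S : Subgroup G)
  set Z : Subgroup G := (omegaCenterThompson p ↥(S : Subgroup G)).map (S : Subgroup G).subtype
  have hWZ : W ≤ Z := map_mono hWJ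
  have hZcomm : ∀ a ∈ Z, ∀ b ∈ J, Commute a b := by
    rintro _ ⟨a, ha, rfl⟩ _ ⟨b, hb, rfl⟩
    have : omegaCenterThompson p ↥(S : Subgroup G) ≤ centralizer (thompsonSubgroup p ↥(S : Subgroup G) : Set _) :=
      (closure_le _).2 fun x hx => hx.1.2
    exact congrArg Subtype.val (mem_centralizer_iff.1 (this ha) b hb).symm
  have hZJ : Z ≤ J := map_mono ((closure_le _).2 fun x hx => hx.1.1)
  have hW : IsElementaryAbelian p W := by
    have hcomm : ∀ a ∈ W, ∀ b ∈ W, a * b = b * a := fun a ha b hb => hZcomm a (hWZ ha) b (hZJ (hWZ hb))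
    refine ⟨⟨⟨fun a b => Subtype.ext (hcomm a a.2 b b.2)⟩⟩, fun a ha => ?_⟩
    obtain ⟨a', ha', rfl⟩ := hWZ ha
    rw [← map_pow, show a' ^ p = 1 from ?_, map_one]
    refine closure_induction (p := fun b _ => b ^ p = 1) (fun b hb => hb.2) (one_pow p) ?_ (fun b _ hb => by
      rw [inv_pow, hb, inv_one]) ha'
    intro b c hb hc hb' hc'
    have : Commute b c := Subtype.ext (hZcomm b ⟨b, hb, rfl⟩ c (hZJ ⟨c, hc, rfl⟩))
    rw [this.mul_pow, hb', hc', one_mul]
  have hNJ := wOf_normalized_thompson hc S (fun V _ => h3 S V)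
  haveI : (pCore p G).Normal := Transfer.pCore_normal p
  haveI : ((frattini ↥(pCore p G)).map (pCore p G).subtype).Normal := ConjAct.normal_of_characteristic_of_normal
  have hWQ : W ≤ pCore p G := wOf_le_pCore h2 hc S hW.1
  have hQS : pCore p G ≤ (S : Subgroup G) := Transfer.pCore_le_sylow S
  have hpair : ∀ g : G, ∀ a ∈ W, ∀ b ∈ W, Commute a (g * b * g⁻¹) := by
    intro g a ha b hb
    set Wg := W.map (MulAut.conj g).toMonoidHom
    have hgb : g * b * g⁻¹ ∈ Wg := ⟨b, hb, rfl⟩
    have hgQ : Wg ≤ pCore p G := by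
      rintro _ ⟨c, hc, rfl⟩; exact Subgroup.Normal.conj_mem inferInstance c (hWQ hc) g
    have hWn : W ≤ normalizer (Wg : Set G) := by
      intro c hc
      have h4 : g⁻¹ * c * g ∈ (S : Subgroup G) :=
        hQS (by simpa using Subgroup.Normal.conj_mem (inferInstance : (pCore p G).Normal) c (hWQ hc) g⁻¹)
      have h5 := wOf_normalizer_conj (g := g) (wOf_le_normalizer S h4)
      rwa [show g * (g⁻¹ * c * g) * g⁻¹ = c by group] at h5
    set x : ↥(S : Subgroup G) := ⟨g * b * g⁻¹, hQS (hgQ hgb)⟩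
    have hq : ⁅⁅W, zpowers (x : G)⁆, zpowers (x : G)⁆ = ⊥ := by
      have hx : zpowers (x : G) ≤ Wg := zpowers_le.2 hgb
      have h6 : ⁅W, zpowers (x : G)⁆ ≤ Wg := by
        rw [commutator_comm]
        exact commutator_le_of_le_normalizer hWn hx
      refine le_bot_iff.1 ((commutator_mono h6 hx).trans (le_of_eq ((commutator_eq_bot_iff_le_centralizer).2 ?_)))
      intro u hu
      exact mem_centralizer_iff.2 fun v hv => elem_comm (elem_map hW _) hv hu
    have hq' : ⁅⁅stableNormalClosure p ↥(S : Subgroup G), zpowers x⁆, zpowers x⁆ = ⊥ := by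
      rw [← Subgroup.map_eq_bot_iff_of_injective _ (S : Subgroup G).subtype_injective, map_commutator, map_commutator,
        MonoidHom.map_zpowers]
      exact hq
    obtain ⟨a', ha', rfl⟩ := ha
    have := mem_centralizer_iff.1 ((commutator_eq_bot_iff_le_centralizer).1 (quadratic_trivial S.isPGroup' hq') ha') x
      (mem_zpowers x)
    exact (congrArg Subtype.val this).symm
  set V := normalClosure (W : Set G)
  have hWV : W ≤ V := le_normalClosure
  have hV : IsElementaryAbelian p V := by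
    refine elem_closure ?_ ?_
    · intro u hu v hv
      obtain ⟨a, ha, hau⟩ := Group.mem_conjugatesOfSet_iff.1 hu
      obtain ⟨b, hb, hbv⟩ := Group.mem_conjugatesOfSet_iff.1 hv
      obtain ⟨g, rfl⟩ := isConj_iff.1 hau
      obtain ⟨k, rfl⟩ := isConj_iff.1 hbv
      have h7 := hpair (g⁻¹ * k) a ha b hb
      have h8 := h7.map (MulAut.conj g).toMonoidHom
      rwa [show (MulAut.conj g).toMonoidHom (g⁻¹ * k * b * (g⁻¹ * k)⁻¹) = k * b * k⁻¹ by
        show g * _ * g⁻¹ = _
        group] at h8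
    · intro u hu
      obtain ⟨a, ha, hau⟩ := Group.mem_conjugatesOfSet_iff.1 hu
      obtain ⟨g, rfl⟩ := isConj_iff.1 hau
      rw [conj_pow, hW.2 a ha, mul_one, mul_inv_cancel]
  have hVQ : V ≤ pCore p G := normalClosure_le_normal hWQ
  have hVS : V ≤ (S : Subgroup G) := hVQ.trans hQS
  set C := centralizer (V : Set G)
  haveI := Transfer.pCore_normal (G := G ⧸ C) p
  set mk := QuotientGroup.mk' C
  set D := (pCore p (G ⧸ C)).comap mk
  set T := (S : Subgroup G) ⊓ D
  obtain ⟨P, hP⟩ := Cfsg.Lib.Solv.sylow_inf_subnormal (inferInstance : D.Normal).isSubnormal S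
  have htop : normalizer (((P : Subgroup ↥D).map D.subtype : Subgroup G) : Set G) ⊔ D = ⊤ := P.normalizer_sup_eq_top
  rw [hP, subgroupOf_map_subtype] at htop
  have hCD : C ≤ D := fun c hc => by
    show mk c ∈ pCore p (G ⧸ C)
    rw [show mk c = 1 from (QuotientGroup.eq_one_iff c).2 hc]
    exact one_mem _
  have hDT : D ≤ T ⊔ C := by
    intro d hd
    obtain ⟨s, hs, hsd⟩ := Transfer.pCore_le_sylow (S.mapSurjective (QuotientGroup.mk'_surjective C)) hd
    have h4 : s⁻¹ * d ∈ C := QuotientGroup.eq.1 hsd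
    rw [← mul_inv_cancel_left s d]
    refine mul_mem (mem_sup_left ⟨hs, ?_⟩) (mem_sup_right h4)
    show mk s ∈ pCore p (G ⧸ C)
    rw [show mk s = mk d from hsd]
    exact hd
  have hG : ∀ g : G, ∃ c ∈ C, ∃ n ∈ normalizer (T : Set G), g = c * n := by
    intro g
    have : g ∈ C ⊔ normalizer (T : Set G) := (htop.ge.trans (sup_le le_sup_right
      (hDT.trans (sup_le (le_normalizer.trans le_sup_right) le_sup_left)))) (mem_top g)
    obtain ⟨c, hc, n, hn, rfl⟩ := mem_sup_of_normal_left.1 this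
    exact ⟨c, hc, n, hn, rfl⟩
  have hmem : ∀ A : Subgroup G, A ≤ T → A ∈ maxElementaryAbelianSubgroups p G → V ≤ A := by
    intro A hAT hA
    have hVC : V ≤ centralizer (A : Set G) := by
      refine (closure_le _).2 fun u hu => ?_
      obtain ⟨a, ha, hau⟩ := Group.mem_conjugatesOfSet_iff.1 hu
      obtain ⟨g, rfl⟩ := isConj_iff.1 hau
      obtain ⟨c, hc, n, hn, rfl⟩ := hG g
      have hv : n * a * n⁻¹ ∈ V := Subgroup.Normal.conj_mem normalClosure_normal a (hWV ha) n
      rw [show c * n * a * (c * n)⁻¹ = c * (n * a * n⁻¹) * c⁻¹ by group, ← mem_centralizer_iff.1 hc _ hv,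
        mul_inv_cancel_right]
      refine mem_centralizer_iff.2 fun b hb => ?_
      have hb' : n⁻¹ * b * n ∈ J := by
        have hle : A.map (MulAut.conj n⁻¹).toMonoidHom ≤ (S : Subgroup G) := by
          rintro _ ⟨y, hy, rfl⟩
          exact ((mem_normalizer_iff''.1 hn y).1 (hAT hy) |> fun h => by simpa using h : n⁻¹ * y * n⁻¹⁻¹ ∈ T).1
        refine le_thompsonSubgroupOf hle (elem_map hA.1 _) (fun B _ hB => ?_) ⟨b, hb, by simp⟩
        rw [card_map_of_injective (MulAut.conj n⁻¹).injective]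
        exact hA.2 B hB
      have h9 : Commute (n * a * n⁻¹) (n * (n⁻¹ * b * n) * n⁻¹) := (hZcomm a (hWZ ha) _ hb').map (MulAut.conj n).toMonoidHom
      rw [show n * (n⁻¹ * b * n) * n⁻¹ = b by group] at h9
      exact h9.eq.symm
    exact fun v hv => mem_of_centralizes_max hA (hVC hv) (hV.2 v hv)
  have hquad : ∀ A : Subgroup G, ⁅⁅V, A⁆, A⁆ = ⊥ → A ≤ D := fun A hq a ha =>
    h1 V hV a (le_bot_iff.1 ((commutator_mono (commutator_mono le_rfl (zpowers_le.2 ha)) (zpowers_le.2 ha)).trans hq.le))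
  have hall : ∀ A : Subgroup G, A ≤ (S : Subgroup G) → A ∈ maxElementaryAbelianSubgroups p G → A ≤ T := by
    intro A hAS hA
    refine le_inf hAS (hquad A ?_)
    obtain ⟨hA', hq, hne⟩ := thompson_replacement (V := V) hV hA
    set A' := ⁅V, A⁆ ⊔ (A ⊓ centralizer ((⁅V, A⁆ : Subgroup G) : Set G))
    have hA'S : A' ≤ (S : Subgroup G) := sup_le
      ((commutator_le_of_le_normalizer (by rw [normalizer_eq_top]; exact le_top) le_rfl).trans hVS) (inf_le_left.trans hAS)
    have hVA' := hmem A' (le_inf hA'S (hquad A' hq)) hA'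
    by_contra hbad
    refine hne (fun h => hbad (by rw [h, commutator_bot_left])) ?_
    exact (commutator_eq_bot_iff_le_centralizer).2 fun v hv =>
      mem_centralizer_iff.2 fun u hu => elem_comm hA'.1 hu (hVA' hv)
  have hJT : J ≤ T := by
    rw [show J = thompsonSubgroupOf p (S : Subgroup G) from rfl, thompsonSubgroupOf_eq_iSup]
    exact iSup₂_le fun A hA => hall A hA.1 (maxElem_of_sylow S hA.2.1 hA.2.2)
  have hTJ := thompsonSubgroupOf_eq_of_le (inf_le_left : T ≤ (S : Subgroup G)) hJT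
  rw [← normalizer_eq_top_iff, eq_top_iff]
  intro g _
  obtain ⟨c, hc, n, hn, rfl⟩ := hG g
  refine mul_mem ?_ (hNJ ?_)
  · rw [Subgroup.mem_normalizer_iff]
    intro w
    constructor
    · intro hw
      rwa [← mem_centralizer_iff.1 hc w (hWV hw), mul_inv_cancel_right]
    · intro hw
      have := mem_centralizer_iff.1 hc _ (hWV hw)
      have e : c * w * c⁻¹ = w := by
        calc c * w * c⁻¹ = c⁻¹ * (c * (c * w * c⁻¹)) := by group
          _ = c⁻¹ * ((c * w * c⁻¹) * c) := by rw [this]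
          _ = w := by group
      rwa [e] at hw
  · refine mem_normalizer_of_map_conj ?_
    rw [← hTJ, ← thompsonSubgroupOf_conj]
    congr 1
    ext y
    rw [conj_map_iff, mem_normalizer_iff''.1 hn y]

theorem wOf_map {H : Type u} [Group H] (f : G →* H) {S : Subgroup G} (hS : IsPGroup p S) (hf : Set.InjOn f S) :
    wOf p (S.map f) = (wOf p S).map f := by
  have hinj : Function.Injective ((f.comp S.subtype).codRestrict (S.map f) fun x => ⟨x, x.2, rfl⟩) :=
    fun x y h => Subtype.ext (hf x.2 y.2 (congrArg Subtype.val h))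
  have hsur : Function.Surjective ((f.comp S.subtype).codRestrict (S.map f) fun x => ⟨x, x.2, rfl⟩) := by
    rintro ⟨_, x, hx, rfl⟩; exact ⟨⟨x, hx⟩, rfl⟩
  let e : S ≃* S.map f := MulEquiv.ofBijective _ ⟨hinj, hsur⟩
  rw [wOf, ← (Cfsg.Agent.S0622.result hS).2.2.2.2 _ e, map_map, wOf, map_map]
  rfl

end Normality

end Cfsg.Lib.PLocal.StableClosure
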