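import Mathlib
import Cfsg.Prelude.Def_JComponents
import Cfsg.Prelude.Def_Involutions
import Cfsg.Agent.Lib.PLocal.StrongEmbedding
import Cfsg.Agent.Lib.PLocal.FStarAction

/-!
Strong embedding in terms of straddling `2`-subgroups.
-/

set_option autoImplicit false
set_option linter.style.haveILetI false

namespace Cfsg.Lib.Straddling

open Subgroup Cfsg.Lib.PLocal.StrongEmb

variable {G : Type*} [Group G] [Finite G]

theorem strongly_embedded_iff (hO : Cfsg.pCore 2 G = ⊥) (M : Subgroup G) (hM : Cfsg.IsTwoLocal M) :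
    Cfsg.IsStronglyEmbedded M ↔ Cfsg.straddlingTwoSubgroups M = ∅ := by
  haveI : Fact (Nat.Prime 2) := ⟨Nat.prime_two⟩
  obtain ⟨V, hV, hV1, rfl⟩ := hM
  set M := normalizer (V : Set G) with hMdef
  have hVM : V ≤ M := le_normalizer
  have h2M : 2 ∣ Nat.card M := (dvd_of_ne_bot hV hV1).trans (card_dvd_of_le hVM)
  have hMt : M ≠ ⊤ := fun h => hV1 (le_bot_iff.1 (hO ▸ Solv.le_pCore (normalizer_eq_top_iff.1 h) hV))
  constructor
  · rintro ⟨-, -, hodd⟩
    have hloc : ∀ {A : Subgroup G}, A ≤ M → IsPGroup 2 A → A ≠ ⊥ → normalizer (A : Set G) ≤ M := by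
      intro A hA hA2 hA1
      refine local_of_inter (fun g hg h => ?_) hA hA2 hA1
      exact Nat.not_even_iff_odd.2 (hodd g hg) (even_iff_two_dvd.2 h)
    refine Set.eq_empty_iff_forall_notMem.2 ?_
    rintro T ⟨hT, hT1, hTM, L, ⟨U, hU, hU1, rfl⟩, hTL, hnot⟩
    apply hnot
    set W := U ⊔ T with hW
    have hW2 : IsPGroup 2 W := (IsPGroup.to_sup_of_normal_left' (H := U) (K := T) hU hT hTL)
    haveI : (U.subgroupOf W).Normal := normal_subgroupOf_of_le_normalizer (sup_le le_normalizer hTL)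
    have h1 := Transfer.inf_center_ne_bot hW2 (U.subgroupOf W) (by
      rw [Ne, ← map_eq_bot_iff_of_injective _ W.subtype_injective, subgroupOf_map_subtype,
        inf_eq_left.2 le_sup_left]
      exact hU1)
    obtain ⟨⟨z, hz⟩, hz1'⟩ := Subgroup.ne_bot_iff_exists_ne_one.1 h1
    have hz1 : z ≠ 1 := fun h => hz1' (Subtype.ext h)
    obtain ⟨hzU, hzc⟩ := Subgroup.mem_inf.1 hz
    set Z := zpowers (z : G) with hZ
    have hcomm : ∀ w ∈ W, w * (z : G) = (z : G) * w := fun w hw =>
      congrArg Subtype.val (mem_center_iff.1 hzc ⟨w, hw⟩)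
    have hcen : W ≤ centralizer (Z : Set G) := fun w hw => by
      rw [hZ, mem_centralizer_iff]
      intro y hy
      obtain ⟨k, rfl⟩ := mem_zpowers_iff.1 hy
      exact ((show Commute (z : G) w from (hcomm w hw).symm).zpow_left k).eq
    have hzM : (z : G) ∈ M := hloc hTM hT hT1 (centralizer_le_normalizer _ (mem_centralizer_iff.2
      fun t ht => hcomm t (le_sup_right (a := U) ht)))
    have hUM : U ≤ M := (le_sup_left.trans (hcen.trans (centralizer_le_normalizer _))).trans
      (hloc ((zpowers_le).2 hzM) (hW2.to_le ((zpowers_le).2 z.2))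
        (zpowers_ne_bot.2 fun h => hz1 (Subtype.ext h)))
    exact hloc hUM hU hU1
  · intro hemp
    have hloc : ∀ A : Subgroup G, A ≤ M → IsPGroup 2 ↥A → A ≠ ⊥ → normalizer (A : Set G) ≤ M := by
      intro A hA hA2 hA1
      by_contra h
      exact Set.eq_empty_iff_forall_notMem.1 hemp A
        ⟨hA2, hA1, hA, normalizer (A : Set G), ⟨A, hA2, hA1, rfl⟩, le_normalizer, h⟩
    obtain ⟨hG, hcond⟩ := condA_of_local h2M hloc
    refine ⟨hMt, even_iff_two_dvd.2 h2M, fun g hg => Nat.not_even_iff_odd.1 fun h => ?_⟩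
    exact (inter_conj_of_condA hG hcond).2 g hg (even_iff_two_dvd.1 h)

end Cfsg.Lib.Straddling
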