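import Mathlib
import Cfsg.Prelude.Def_OddOrder
import Cfsg.Prelude.Def_OddOrderLocal
import Cfsg.Agent.Lib.Solv.Coprime3
import Cfsg.Agent.Lib.Solv.Coprime2
import Cfsg.Agent.Lib.Solv.Cores
import Cfsg.Agent.Lib.PLocal.ClosedConjugates

/-!
The transitivity theorem for the maximal invariant `q`-subgroups.
-/

set_option autoImplicit false
set_option maxHeartbeats 1000000
set_option linter.style.haveILetI false
set_option linter.unusedSectionVars false

open scoped Pointwise commutatorElement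

namespace Cfsg.Lib.PLocal.Transitivity

open Cfsg Subgroup Cfsg.Lib.PLocal.Closed

universe u

variable {G : Type u} [Group G] [Finite G]

/-! ### Generalities -/

theorem piCoreOf_le (π : Set ℕ) (X : Subgroup G) : piCoreOf π X ≤ X := map_subtype_le _

theorem piCoreOf_primes (π : Set ℕ) (X : Subgroup G) :
    ∀ p : ℕ, p.Prime → p ∣ Nat.card (piCoreOf π X) → p ∈ π := by
  intro p hp hd
  rw [piCoreOf, card_map_of_injective X.subtype_injective] at hd
  exact Solv.piCore_primes π p hp hd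

theorem le_piCoreOf {π : Set ℕ} {X Z : Subgroup G} (hZ : Z ≤ X)
    (hn : X ≤ normalizer (Z : Set G)) (h : ∀ p : ℕ, p.Prime → p ∣ Nat.card Z → p ∈ π) :
    Z ≤ piCoreOf π X := by
  rw [← map_subgroupOf_eq_of_le hZ]
  refine map_mono (Solv.le_piCore ((normal_subgroupOf_iff_le_normalizer hZ).2 hn) ?_)
  rwa [Nat.card_congr (subgroupOfEquivOfLe hZ).toEquiv]

theorem normalizer_le_piCoreOf (π : Set ℕ) (X : Subgroup G) :
    normalizer (X : Set G) ≤ normalizer ((piCoreOf π X : Subgroup G) : Set G) := by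
  intro g hg
  refine cj_eq_self_iff.1 ?_
  set e : X ≃* X :=
    (X.equivMapOfInjective (MulAut.conj g).toMonoidHom (MulAut.conj g).injective).trans
      (MulEquiv.subgroupCongr (cj_eq_self_iff.2 hg))
  have h := Subgroup.characteristic_iff_map_eq.1 (Solv.piCore_characteristic (G := X) π) e
  show (piCoreOf π X).map _ = _
  conv_rhs => rw [piCoreOf, ← h, Subgroup.map_map]
  rw [piCoreOf, Subgroup.map_map]
  rfl

theorem isPGroup_of_primes {q : ℕ} [Fact q.Prime] {Y : Subgroup G}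
    (h : ∀ p : ℕ, p.Prime → p ∣ Nat.card Y → p ∈ ({q} : Set ℕ)) : IsPGroup q Y :=
  IsPGroup.of_card (Nat.eq_prime_pow_of_unique_prime_dvd Nat.card_pos.ne'
    fun {d} hd hdd => Set.mem_singleton_iff.1 (h d hd hdd))

theorem primes_of_isPGroup {q : ℕ} [hq : Fact q.Prime] {Y : Subgroup G} (h : IsPGroup q Y) :
    ∀ p : ℕ, p.Prime → p ∣ Nat.card Y → p ∈ ({q} : Set ℕ) := by
  intro p hp hd
  obtain ⟨n, hn⟩ := IsPGroup.iff_card.1 h
  rw [hn] at hd
  exact (Nat.prime_dvd_prime_iff_eq hp hq.out).1 (hp.dvd_of_dvd_pow hd)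

/-- An invariant `q`-subgroup. -/
def Inv (q : ℕ) (A Y : Subgroup G) : Prop := IsPGroup q Y ∧ A ≤ normalizer (Y : Set G)

theorem mem_inv_iff {q : ℕ} [Fact q.Prime] {A Y : Subgroup G} :
    Y ∈ invSubgroups ⊤ A {q} ↔ Inv q A Y :=
  ⟨fun h => ⟨isPGroup_of_primes h.2.1, h.2.2⟩, fun h => ⟨le_top, primes_of_isPGroup h.1, h.2⟩⟩

theorem exists_max {q : ℕ} [Fact q.Prime] {A Y : Subgroup G} (hY : Inv q A Y) :
    ∃ Q ∈ maxInvSubgroups ⊤ A {q}, Y ≤ Q := by
  obtain ⟨Q, hYQ, hQ⟩ := (Set.toFinite (invSubgroups ⊤ A {q})).exists_le_maximal (mem_inv_iff.2 hY)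
  exact ⟨Q, ⟨hQ.1, fun R hR h => le_antisymm (hQ.2 hR h) h⟩, hYQ⟩

theorem max_cj {q : ℕ} [Fact q.Prime] {A Q : Subgroup G} (hQ : Q ∈ maxInvSubgroups ⊤ A {q}) {g : G}
    (hg : g ∈ normalizer (A : Set G)) : cj g Q ∈ maxInvSubgroups ⊤ A {q} := by
  have key : ∀ (g : G), g ∈ normalizer (A : Set G) → ∀ Y : Subgroup G,
      Inv q A Y → Inv q A (cj g Y) := by
    intro g hg Y hY
    refine ⟨hY.1.map _, ?_⟩
    rw [← cj_normalizer, ← cj_eq_self_iff.2 hg]
    exact cj_mono g hY.2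
  refine ⟨mem_inv_iff.2 (key g hg Q (mem_inv_iff.1 hQ.1)), fun R hR hle => ?_⟩
  have h1 := hQ.2 (cj g⁻¹ R) (mem_inv_iff.2 (key g⁻¹ (inv_mem hg) R (mem_inv_iff.1 hR))) (by
    conv_lhs => rw [← cj_inv_cj g Q]
    exact cj_mono _ hle)
  rw [← h1, cj_cj_inv]

/-- In an abelian group of exponent `p` and order above `p²` some noncyclic subgroup avoids `a`. -/
theorem exists_avoiding {p : ℕ} (hp : p.Prime) {B : Subgroup G} (hBc : IsMulCommutative B)
    (hBe : ∀ b ∈ B, b ^ p = 1) (hBk : p ^ 2 < Nat.card B) {a : G} (haB : a ∈ B) (ha1 : a ≠ 1) :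
    ∃ B' : Subgroup G, B' ≤ B ∧ ¬ IsCyclic B' ∧ a ∉ B' := by
  haveI := Fact.mk hp
  have hcomm : ∀ x ∈ B, ∀ y ∈ B, x * y = y * x := fun x hx y hy =>
    congrArg Subtype.val (hBc.is_comm.comm (⟨x, hx⟩ : B) ⟨y, hy⟩)
  have hspan : ∀ x ∈ B, ∀ y ∈ B, Nat.card (closure ({x, y} : Set G)) ≤ p ^ 2 := by
    intro x hx y hy
    have hsub : ∀ z ∈ closure ({x, y} : Set G), ∃ i j : ℕ, z = x ^ i * y ^ j := by
      intro z hz
      induction hz using closure_induction with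
      | mem w hw =>
        rcases hw with rfl | rfl
        · exact ⟨1, 0, by simp⟩
        · exact ⟨0, 1, by simp⟩
      | one => exact ⟨0, 0, by simp⟩
      | mul u v _ _ hu hv =>
        obtain ⟨i, j, rfl⟩ := hu
        obtain ⟨i', j', rfl⟩ := hv
        refine ⟨i + i', j + j', ?_⟩
        have hc : Commute (y ^ j) (x ^ i') := (Commute.pow_pow (hcomm y hy x hx) _ _)
        rw [pow_add, pow_add, mul_assoc, ← mul_assoc (y ^ j), hc.eq]
        group
      | inv u _ hu =>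
        obtain ⟨i, j, rfl⟩ := hu
        refine ⟨i * (p - 1), j * (p - 1), inv_eq_of_mul_eq_one_right ?_⟩
        have hc : Commute (y ^ j) (x ^ (i * (p - 1))) := Commute.pow_pow (hcomm y hy x hx) _ _
        rw [mul_assoc, ← mul_assoc (y ^ j), hc.eq, mul_assoc, ← mul_assoc (x ^ i), ← pow_add,
          ← pow_add]
        have e : ∀ m : ℕ, m + m * (p - 1) = p * m := fun m => by
          have := hp.one_lt
          cases p with
          | zero => omega
          | succ p => simp; ring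
        rw [e, e, pow_mul, pow_mul, hBe x hx, hBe y hy, one_pow, one_pow, mul_one]
    let f : Fin p × Fin p → closure ({x, y} : Set G) := fun ij => ⟨x ^ (ij.1 : ℕ) * y ^ (ij.2 : ℕ),
      (closure ({x, y} : Set G)).mul_mem
        ((closure ({x, y} : Set G)).pow_mem (subset_closure (Set.mem_insert x {y})) _)
        ((closure ({x, y} : Set G)).pow_mem (subset_closure (Set.mem_insert_of_mem x rfl)) _)⟩
    have hf : Function.Surjective f := fun z => by
      obtain ⟨i, j, hz⟩ := hsub z z.2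
      refine ⟨(⟨i % p, Nat.mod_lt _ hp.pos⟩, ⟨j % p, Nat.mod_lt _ hp.pos⟩), Subtype.ext ?_⟩
      show x ^ (i % p) * y ^ (j % p) = z
      rw [hz, ← pow_eq_pow_mod i (hBe x hx), ← pow_eq_pow_mod j (hBe y hy)]
    refine (Nat.card_le_card_of_surjective f hf).trans_eq ?_
    rw [Nat.card_prod, Nat.card_fin, sq]
  have hnot : ∀ x ∈ B, ∀ y ∈ B, ∃ z ∈ B, z ∉ closure ({x, y} : Set G) := by
    intro x hx y hy
    by_contra hcon
    push Not at hcon
    exact absurd ((card_le_of_le (fun z hz => hcon z hz : B ≤ _)).trans (hspan x hx y hy))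
      (not_le.2 hBk)
  obtain ⟨c, hcB, hc⟩ := hnot a haB a haB
  obtain ⟨d, hdB, hd⟩ := hnot a haB c hcB
  set B' := closure ({c, d} : Set G)
  have hB'B : B' ≤ B := (closure_le _).2 (Set.insert_subset hcB (Set.singleton_subset_iff.2 hdB))
  haveI : IsMulCommutative B' := ⟨⟨fun u v => Subtype.ext (hcomm u (hB'B u.2) v (hB'B v.2))⟩⟩
  have hnc' : ¬ IsCyclic B' := by
    intro hcyc
    obtain ⟨g, hg⟩ := hcyc.exists_generator
    have hcne : (⟨c, subset_closure (Set.mem_insert _ _)⟩ : B') ≠ 1 := fun e => hc (by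
      rw [show c = 1 from congrArg Subtype.val e]; exact one_mem _)
    have hgp : orderOf g = p := orderOf_eq_prime (Subtype.ext (by
      rw [Subgroup.coe_pow, hBe g (hB'B g.2)]; rfl)) fun e => hcne (by
        have h2 := hg ⟨c, subset_closure (Set.mem_insert _ _)⟩
        rwa [e, zpowers_one_eq_bot, mem_bot] at h2)
    have hcp : orderOf c = p := orderOf_eq_prime (hBe c hcB) fun e => hcne (Subtype.ext e)
    have heq : zpowers c = B' := eq_of_le_of_card_ge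
      (zpowers_le.2 (subset_closure (Set.mem_insert _ _))) (by
        rw [Nat.card_zpowers, hcp, ← hgp, orderOf_eq_card_of_forall_mem_zpowers hg])
    have hdc : d ∈ zpowers c := by
      rw [heq]; exact subset_closure (Set.mem_insert_of_mem c rfl)
    have hcac : c ∈ closure ({a, c} : Set G) := subset_closure (Set.mem_insert_of_mem a rfl)
    exact hd (zpowers_le.2 hcac hdc)
  have haB' : a ∉ B' := by
    intro haB'
    obtain ⟨i, hi⟩ : ∃ i : ℤ, a * (d ^ i)⁻¹ ∈ zpowers c := by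
      have hgen : B' = zpowers c ⊔ zpowers d := by
        rw [zpowers_eq_closure, zpowers_eq_closure, ← Subgroup.closure_union, Set.singleton_union]
      rw [hgen] at haB'
      haveI : IsMulCommutative (zpowers d) := inferInstance
      have hnorm : zpowers d ≤ normalizer ((zpowers c : Subgroup G) : Set G) := by
        refine zpowers_le.2 (centralizer_le_normalizer _ (mem_centralizer_iff.2 ?_))
        rintro _ ⟨m, rfl⟩
        exact (Commute.zpow_left (hcomm c hcB d hdB) m).eq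
      rw [← SetLike.mem_coe, coe_mul_of_right_le_normalizer_left _ _ hnorm] at haB'
      obtain ⟨u, hu, v, ⟨i, rfl⟩, huv⟩ := haB'
      exact ⟨i, by rw [← huv, mul_inv_cancel_right]; exact hu⟩
    have hcac : c ∈ closure ({a, c} : Set G) := subset_closure (Set.mem_insert_of_mem a rfl)
    have haac : a ∈ closure ({a, c} : Set G) := subset_closure (Set.mem_insert a {c})
    have haaa : a ∈ closure ({a, a} : Set G) := subset_closure (Set.mem_insert a {a})
    have hac : ∀ w, w ∈ zpowers c → w ∈ closure ({a, c} : Set G) := fun w hw =>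
      zpowers_le.2 hcac hw
    by_cases hdi : (p : ℤ) ∣ i
    · have h1 : d ^ i = 1 := by
        obtain ⟨m, rfl⟩ := hdi
        rw [zpow_mul, zpow_natCast, hBe d hdB, one_zpow]
      rw [h1, inv_one, mul_one] at hi
      have heq : zpowers a = zpowers c := eq_of_le_of_card_ge (zpowers_le.2 hi) (by
        rw [Nat.card_zpowers, Nat.card_zpowers, orderOf_eq_prime (hBe a haB) ha1]
        exact Nat.le_of_dvd hp.pos (orderOf_dvd_of_pow_eq_one (hBe c hcB)))
      exact hc (zpowers_le.2 haaa (by rw [heq]; exact mem_zpowers c))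
    · have h1 : d ^ i ∈ closure ({a, c} : Set G) := by
        have := (closure ({a, c} : Set G)).mul_mem ((closure ({a, c} : Set G)).inv_mem (hac _ hi)) haac
        rw [mul_inv_rev, inv_inv, mul_assoc, inv_mul_cancel, mul_one] at this
        exact this
      obtain ⟨u, v, huv⟩ : IsCoprime i (p : ℤ) :=
        ((Nat.prime_iff_prime_int.1 hp).coprime_iff_not_dvd.2 hdi).symm
      refine hd ?_
      have : d = (d ^ i) ^ u * (d ^ (p : ℤ)) ^ v := by
        rw [← zpow_mul, ← zpow_mul, ← zpow_add, mul_comm i, mul_comm (p : ℤ), huv, zpow_one]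
      rw [this, zpow_natCast, hBe d hdB, one_zpow, mul_one]
      exact zpow_mem h1 u
  exact ⟨B', hB'B, hnc', haB'⟩

/-! ### The hypothesis -/

variable (hG : IsMinSimpleOddOrder G)
include hG

theorem solvable_proper {H : Subgroup G} (hH : H ≠ ⊤) : Group.IsSolvable H := hG.2.2.2 H hH

theorem normalizer_ne_top {D : Subgroup G} (h1 : D ≠ ⊥) (h2 : D ≠ ⊤) :
    normalizer (D : Set G) ≠ ⊤ := fun e =>
  h2 ((hG.2.1.eq_bot_or_eq_top_of_normal D (normalizer_eq_top_iff.1 e)).resolve_left h1)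

theorem center_bot : center G = ⊥ :=
  (hG.2.1.eq_bot_or_eq_top_of_normal (center G) inferInstance).resolve_right fun e =>
    hG.2.2.1 ⟨⟨fun a b => mem_center_iff.1 (e.symm ▸ mem_top b) a⟩⟩

theorem centralizer_elem_ne_top {b : G} (hb : b ≠ 1) : centralizer ({b} : Set G) ≠ ⊤ := fun e =>
  hb (mem_bot.1 (center_bot hG ▸ mem_center_iff.2 fun g =>
    mem_centralizer_singleton_iff.1 (e.symm ▸ mem_top g : g ∈ centralizer ({b} : Set G))))

theorem pgroup_ne_top {q : ℕ} [Fact q.Prime] {Q : Subgroup G} (hQ : IsPGroup q Q) : Q ≠ ⊤ := by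
  rintro rfl
  haveI : Group.IsNilpotent G := (Group.isNilpotent_congr Subgroup.topEquiv).1 hQ.isNilpotent
  haveI := hG.2.1
  exact hG.2.2.1 ⟨⟨IsSimpleGroup.comm_iff_isSolvable.2 inferInstance⟩⟩

variable (A : Subgroup G) (hA : TransitivityHypothesis A)
include hA

theorem inv_le_core {X Y : Subgroup G} (hX : X ≠ ⊤) (hAX : A ≤ X) (hY : Y ≤ X)
    (hAY : A ≤ normalizer (Y : Set G))
    (hp : ∀ r : ℕ, r.Prime → r ∣ Nat.card Y → r ∈ primesNotDvd (Nat.card A)) :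
    Y ≤ piCoreOf (primesNotDvd (Nat.card A)) X := by
  rw [← hA.2.2 X hX hAX]
  exact le_sSup ⟨hY, hp, hAY⟩

theorem le_K {Z : Subgroup G} (hZ : Z ≤ centralizer (A : Set G))
    (hp : ∀ r : ℕ, r.Prime → r ∣ Nat.card Z → r ∈ primesNotDvd (Nat.card A)) :
    Z ≤ piCoreOf (primesNotDvd (Nat.card A)) (centralizer (A : Set G)) := by
  set π := primesNotDvd (Nat.card A)
  set C := centralizer (A : Set G)
  have hX : A ⊔ C ≠ ⊤ := ne_top_of_le_ne_top (normalizer_ne_top hG hA.1 hA.2.1)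
    (sup_le le_normalizer (centralizer_le_normalizer _))
  have hAZ : A ≤ normalizer (Z : Set G) := by
    refine le_trans ?_ (centralizer_le_normalizer _)
    exact le_centralizer_iff.1 hZ
  have h1 := inv_le_core hG A hA hX le_sup_left (hZ.trans le_sup_right) hAZ hp
  refine (le_inf h1 hZ).trans (le_piCoreOf inf_le_right ?_ fun r hr hd => piCoreOf_primes π (A ⊔ C) r hr
    (hd.trans (card_dvd_of_le inf_le_left)))
  exact (le_inf ((le_sup_right.trans le_normalizer).trans (normalizer_le_piCoreOf π _)) le_normalizer).trans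
    (inf_normalizer_le_normalizer_inf)

theorem coprime_core {B X : Subgroup G}
    (hB : ∀ r : ℕ, r.Prime → r ∣ Nat.card B → r ∣ Nat.card A) :
    (Nat.card B).Coprime (Nat.card (piCoreOf (primesNotDvd (Nat.card A)) X)) :=
  Nat.coprime_of_dvd fun r hr h1 h2 => (piCoreOf_primes _ X r hr h2).2 (hB r hr h1)

variable {q : ℕ} [hq : Fact q.Prime] (hqA : ¬ q ∣ Nat.card A)
include hqA

theorem q_primes {Y : Subgroup G} (hY : IsPGroup q Y) :
    ∀ r : ℕ, r.Prime → r ∣ Nat.card Y → r ∈ primesNotDvd (Nat.card A) := by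
  intro r hr hd
  obtain rfl := Set.mem_singleton_iff.1 (primes_of_isPGroup hY r hr hd)
  exact ⟨hr, hqA⟩

theorem step {H Y₁ Y₂ : Subgroup G} (hH : H ≠ ⊤) (hAH : A ≤ H) (h1 : Inv q A Y₁) (h1H : Y₁ ≤ H)
    (h2 : Inv q A Y₂) (h2H : Y₂ ≤ H) :
    ∃ S, Inv q A S ∧ Y₁ ≤ S ∧ S ≤ H ∧
      ∃ k ∈ piCoreOf (primesNotDvd (Nat.card A)) (centralizer (A : Set G)), Y₂ ≤ cj k S ∧ cj k S ≤ H := by
  set X := piCoreOf (primesNotDvd (Nat.card A)) H
  have hXH : X ≤ H := piCoreOf_le _ _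
  have hAX : A ≤ normalizer (X : Set G) :=
    (hAH.trans le_normalizer).trans (normalizer_le_piCoreOf _ H)
  have hcop := coprime_core hG A hA (B := A) (X := H) fun r _ hd => hd
  have hs : Group.IsSolvable X := Solv.solvable_of_le hXH (solvable_proper hG hH)
  obtain ⟨P₁, hP₁, hn₁⟩ := Solv.invariant_pgroup_le_sylow A X hAX hcop (Or.inr hs) q Y₁
    (inv_le_core hG A hA hH hAH h1H h1.2 (q_primes hG A hA hqA h1.1)) h1.1 h1.2
  obtain ⟨P₂, hP₂, hn₂⟩ := Solv.invariant_pgroup_le_sylow A X hAX hcop (Or.inr hs) q Y₂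
    (inv_le_core hG A hA hH hAH h2H h2.2 (q_primes hG A hA hqA h2.1)) h2.1 h2.2
  obtain ⟨c, hc, hcP⟩ := Solv.invariant_sylow_conj A X hAX hcop (Or.inr hs) P₁ P₂ hn₁ hn₂
  have he : cj (c : G) ((P₁ : Subgroup X).map X.subtype) = (P₂ : Subgroup X).map X.subtype := by
    rw [← hcP]
    exact (Solv.map_conj_smul X.subtype c _).symm
  refine ⟨_, ⟨P₁.2.map _, hn₁⟩, hP₁, (map_subtype_le _).trans hXH, c,
    le_K hG A hA (Z := X ⊓ centralizer (A : Set G)) inf_le_right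
      (fun r hr hd => piCoreOf_primes _ H r hr (hd.trans (card_dvd_of_le inf_le_left))) ⟨c.2, hc⟩, ?_, ?_⟩
  · rw [he]; exact hP₂
  · rw [he]; exact (map_subtype_le _).trans hXH

theorem core_mem_normalizer {k : G}
    (hk : k ∈ piCoreOf (primesNotDvd (Nat.card A)) (centralizer (A : Set G))) :
    k ∈ normalizer (A : Set G) :=
  centralizer_le_normalizer _ (piCoreOf_le _ _ hk)

theorem share : ∀ (n : ℕ) (Q₁ Q₂ : Subgroup G), Q₁ ∈ maxInvSubgroups ⊤ A {q} →
    Q₂ ∈ maxInvSubgroups ⊤ A {q} → Q₁ ⊓ Q₂ ≠ ⊥ →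
    Nat.card G - Nat.card ↥(Q₁ ⊓ Q₂) = n →
    ∃ k ∈ piCoreOf (primesNotDvd (Nat.card A)) (centralizer (A : Set G)), Q₂ = cj k Q₁ := by
  intro n
  induction n using Nat.strong_induction_on with
  | _ n ih =>
  intro Q₁ Q₂ h₁ h₂ hD hn
  set D := Q₁ ⊓ Q₂
  by_cases he : Q₁ = Q₂
  · exact ⟨1, one_mem _, by rw [he, cj_one]⟩
  have hi₁ := mem_inv_iff.1 h₁.1
  have hi₂ := mem_inv_iff.1 h₂.1
  have hlt : ∀ (Q : Subgroup G), Inv q A Q → D ≤ Q → ¬ Q ≤ D →
      Inv q A (Q ⊓ normalizer (D : Set G)) ∧ D < Q ⊓ normalizer (D : Set G) := by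
    intro Q hQ hDQ hQD
    refine ⟨⟨hQ.1.to_le inf_le_left, (le_inf hQ.2 ?_).trans inf_normalizer_le_normalizer_inf⟩,
      lt_of_le_of_ne (le_inf hDQ le_normalizer) fun e => ?_⟩
    · exact ((le_inf hi₁.2 hi₂.2).trans inf_normalizer_le_normalizer_inf).trans le_normalizer
    · obtain ⟨x, hx, hxn, hxD⟩ := exists_normalizing hQ.1 hDQ hQD
      exact hxD (e ▸ (⟨hx, hxn⟩ : x ∈ Q ⊓ normalizer (D : Set G)))
  obtain ⟨hY₁, hlt₁⟩ := hlt Q₁ hi₁ inf_le_left fun h => he (h₁.2 Q₂ h₂.1 (h.trans inf_le_right)).symm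
  obtain ⟨hY₂, hlt₂⟩ := hlt Q₂ hi₂ inf_le_right fun h => he (h₂.2 Q₁ h₁.1 (h.trans inf_le_left))
  obtain ⟨S, hS, hY₁S, -, k, hk, hY₂S, -⟩ := step hG A hA hqA
    (normalizer_ne_top hG hD (ne_top_of_le_ne_top (pgroup_ne_top hG hi₁.1) inf_le_left))
    ((le_inf hi₁.2 hi₂.2).trans inf_normalizer_le_normalizer_inf) hY₁ inf_le_right hY₂ inf_le_right
  obtain ⟨Q₃, h₃, hSQ₃⟩ := exists_max hS
  have h₄ := max_cj h₃ (core_mem_normalizer hG A hA hqA hk)
  have hbig : ∀ (R₁ R₂ : Subgroup G), R₁ ∈ maxInvSubgroups ⊤ A {q} →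
      R₂ ∈ maxInvSubgroups ⊤ A {q} → D < R₁ ⊓ R₂ →
      ∃ k ∈ piCoreOf (primesNotDvd (Nat.card A)) (centralizer (A : Set G)), R₂ = cj k R₁ := by
    intro R₁ R₂ hR₁ hR₂ hl
    refine ih _ ?_ R₁ R₂ hR₁ hR₂ (fun e => hD (le_bot_iff.1 (e ▸ hl.le))) rfl
    have hc : Nat.card D < Nat.card ↥(R₁ ⊓ R₂) :=
      lt_of_le_of_ne (card_le_of_le hl.le) fun e => hl.ne (eq_of_le_of_card_ge hl.le e.ge)
    have := Subgroup.card_le_card_group (R₁ ⊓ R₂)
    omega
  obtain ⟨k₁, hk₁, e₁⟩ := hbig Q₁ Q₃ h₁ h₃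
    (hlt₁.trans_le (le_inf inf_le_left (hY₁S.trans hSQ₃)))
  obtain ⟨k₂, hk₂, e₂⟩ := hbig (cj k Q₃) Q₂ h₄ h₂
    (hlt₂.trans_le (le_inf (hY₂S.trans (cj_mono k hSQ₃)) inf_le_left))
  exact ⟨k₂ * (k * k₁), mul_mem hk₂ (mul_mem hk hk₁), by rw [e₂, e₁, cj_cj, cj_cj, mul_assoc]⟩

theorem conj_of_meet {Q₁ Q₂ : Subgroup G} (h₁ : Q₁ ∈ maxInvSubgroups ⊤ A {q})
    (h₂ : Q₂ ∈ maxInvSubgroups ⊤ A {q}) {H : Subgroup G} (hH : H ≠ ⊤) (hAH : A ≤ H)
    (hH₁ : H ⊓ Q₁ ≠ ⊥) (hH₂ : H ⊓ Q₂ ≠ ⊥) :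
    ∃ k ∈ piCoreOf (primesNotDvd (Nat.card A)) (centralizer (A : Set G)), Q₂ = cj k Q₁ := by
  have hi : ∀ {Q}, Q ∈ maxInvSubgroups ⊤ A {q} → Inv q A (H ⊓ Q) := fun {Q} hQ =>
    ⟨(mem_inv_iff.1 hQ.1).1.to_le inf_le_right,
      (le_inf (hAH.trans le_normalizer) (mem_inv_iff.1 hQ.1).2).trans inf_normalizer_le_normalizer_inf⟩
  obtain ⟨S, hS, hY₁S, -, k, hk, hY₂S, -⟩ :=
    step hG A hA hqA hH hAH (hi h₁) inf_le_left (hi h₂) inf_le_left
  obtain ⟨Q₃, h₃, hSQ₃⟩ := exists_max hS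
  obtain ⟨k₁, hk₁, e₁⟩ := share hG A hA hqA _ Q₁ Q₃ h₁ h₃
    (ne_bot_of_le_ne_bot hH₁ (le_inf inf_le_right (hY₁S.trans hSQ₃))) rfl
  obtain ⟨k₂, hk₂, e₂⟩ := share hG A hA hqA _ (cj k Q₃) Q₂
    (max_cj h₃ (core_mem_normalizer hG A hA hqA hk)) h₂
    (ne_bot_of_le_ne_bot hH₂ (le_inf (hY₂S.trans (cj_mono k hSQ₃)) inf_le_right)) rfl
  exact ⟨k₂ * (k * k₁), mul_mem hk₂ (mul_mem hk hk₁), by rw [e₂, e₁, cj_cj, cj_cj, mul_assoc]⟩

/-! ### Large centres -/

theorem exists_central_elementary {k : ℕ}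
    (hZ : ¬ RankLE k ↥(A ⊓ centralizer (A : Set G))) :
    ∃ (p : ℕ) (B : Subgroup G), p.Prime ∧ IsMulCommutative B ∧ (∀ b ∈ B, b ^ p = 1) ∧
      p ^ k < Nat.card B ∧ B ≤ A ⊓ centralizer (A : Set G) := by
  simp only [RankLE, PRankLE, not_forall, not_le] at hZ
  obtain ⟨p, hp, B, hBc, hBe, hBk⟩ := hZ
  refine ⟨p, B.map (A ⊓ centralizer (A : Set G)).subtype, hp, ⟨⟨fun a b => ?_⟩⟩, ?_, ?_,
    map_subtype_le _⟩
  · obtain ⟨a', ha, ea⟩ := a.2
    obtain ⟨b', hb, eb⟩ := b.2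
    refine Subtype.ext ?_
    show (a : G) * b = b * a
    rw [← ea, ← eb, ← map_mul, ← map_mul]
    exact congrArg _ (congrArg Subtype.val (hBc.is_comm.comm (⟨a', ha⟩ : B) ⟨b', hb⟩))
  · rintro _ ⟨b, hb, rfl⟩
    rw [← map_pow, hBe b hb, map_one]
  · rwa [card_map_of_injective (A ⊓ centralizer (A : Set G)).subtype_injective]

theorem not_cyclic_of_exponent {p : ℕ} {B : Subgroup G} (he : ∀ b ∈ B, b ^ p = 1) (hp : 0 < p)
    (hc : p < Nat.card B) : ¬ IsCyclic B := by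
  intro h
  obtain ⟨g, hg⟩ := h.exists_generator
  have h1 : orderOf g ∣ p := orderOf_dvd_of_pow_eq_one (Subtype.ext (by
    rw [Subgroup.coe_pow, he g g.2]; rfl))
  rw [orderOf_eq_card_of_forall_mem_zpowers hg] at h1
  exact absurd (Nat.le_of_dvd hp h1) (not_le.2 hc)

theorem exists_fixed {B Q : Subgroup G} (hB : B ≤ A ⊓ centralizer (A : Set G))
    [IsMulCommutative B] (hnc : ¬ IsCyclic B) (hQ : Inv q A Q) (hQ1 : Q ≠ ⊥) :
    ∃ b ∈ B, b ≠ 1 ∧ Q ⊓ centralizer ({b} : Set G) ≠ ⊥ := by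
  by_contra h
  push Not at h
  refine hQ1 (le_bot_iff.1 (Solv.le_of_fixed_le B Q ⊥ hnc ((hB.trans inf_le_left).trans hQ.2)
    (Nat.coprime_of_dvd fun r hr h1 h2 => ?_) fun b hb hb1 => (h b hb hb1).le))
  exact (q_primes hG A hA hqA hQ.1 r hr h2).2 (h1.trans (card_dvd_of_le (hB.trans inf_le_left)))

theorem le_centralizer_of_central {b : G} (hb : b ∈ A ⊓ centralizer (A : Set G)) :
    A ≤ centralizer ({b} : Set G) := fun a ha =>
  mem_centralizer_singleton_iff.2 (mem_centralizer_iff.1 hb.2 a ha)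

theorem all_conj_rank_three (hZ : ¬ RankLE 2 ↥(A ⊓ centralizer (A : Set G))) {Q₁ Q₂ : Subgroup G}
    (h₁ : Q₁ ∈ maxInvSubgroups ⊤ A {q}) (h₂ : Q₂ ∈ maxInvSubgroups ⊤ A {q}) :
    ∃ k ∈ piCoreOf (primesNotDvd (Nat.card A)) (centralizer (A : Set G)), Q₂ = cj k Q₁ := by
  have hi₁ := mem_inv_iff.1 h₁.1
  have hi₂ := mem_inv_iff.1 h₂.1
  by_cases hb₁ : Q₁ = ⊥
  · exact ⟨1, one_mem _, by rw [cj_one]; exact h₁.2 Q₂ h₂.1 (hb₁ ▸ bot_le)⟩
  by_cases hb₂ : Q₂ = ⊥
  · exact ⟨1, one_mem _, by rw [cj_one]; exact (h₂.2 Q₁ h₁.1 (hb₂ ▸ bot_le)).symm⟩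
  obtain ⟨p, B, hp, hBc, hBe, hBk, hBZ⟩ := exists_central_elementary hG A hA hqA hZ
  haveI := Fact.mk hp
  have hp2 : p < p ^ 2 := by nlinarith [hp.two_le]
  obtain ⟨a, haB, ha1, haQ⟩ := exists_fixed hG A hA hqA hBZ
    (not_cyclic_of_exponent hG A hA hqA hBe hp.pos (hp2.trans hBk)) hi₁ hb₁
  -- a subgroup of rank two avoiding `a`
  have hcomm : ∀ x ∈ B, ∀ y ∈ B, x * y = y * x := fun x hx y hy =>
    congrArg Subtype.val (hBc.is_comm.comm (⟨x, hx⟩ : B) ⟨y, hy⟩)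
  obtain ⟨B', hB'B, hnc', haB'⟩ := exists_avoiding hp hBc hBe hBk haB ha1
  haveI : IsMulCommutative B' := ⟨⟨fun u v => Subtype.ext (hcomm u (hB'B u.2) v (hB'B v.2))⟩⟩
  set R := Q₁ ⊓ centralizer ({a} : Set G)
  have hR : Inv q A R := ⟨hi₁.1.to_le inf_le_left, (le_inf hi₁.2
    ((le_centralizer_of_central hG A hA hqA (hBZ haB)).trans le_normalizer)).trans
    inf_normalizer_le_normalizer_inf⟩
  obtain ⟨b', hb'B, hb'1, hb'R⟩ := exists_fixed hG A hA hqA (hB'B.trans hBZ) hnc' hR haQ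
  set B₁ := closure ({a, b'} : Set G)
  have hB₁B : B₁ ≤ B := (closure_le _).2 (Set.insert_subset haB (Set.singleton_subset_iff.2 (hB'B hb'B)))
  haveI : IsMulCommutative B₁ := ⟨⟨fun u v => Subtype.ext (hcomm u (hB₁B u.2) v (hB₁B v.2))⟩⟩
  have hnc₁ : ¬ IsCyclic B₁ := by
    intro hcyc
    obtain ⟨g, hg⟩ := hcyc.exists_generator
    have hb'p : orderOf b' = p := orderOf_eq_prime (hBe b' (hB'B hb'B)) hb'1
    have heq : zpowers b' = B₁ := eq_of_le_of_card_ge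
      (zpowers_le.2 (subset_closure (Set.mem_insert_of_mem _ rfl))) (by
        rw [Nat.card_zpowers, hb'p, ← orderOf_eq_card_of_forall_mem_zpowers hg]
        exact Nat.le_of_dvd hp.pos (orderOf_dvd_of_pow_eq_one (Subtype.ext (by
          rw [Subgroup.coe_pow, hBe g (hB₁B g.2)]; rfl))))
    exact haB' (zpowers_le.2 hb'B (heq.symm ▸ subset_closure (Set.mem_insert _ _)))
  obtain ⟨b, hbB, hb1, hbQ⟩ := exists_fixed hG A hA hqA (hB₁B.trans hBZ) hnc₁ hi₂ hb₂
  refine conj_of_meet hG A hA hqA h₁ h₂ (centralizer_elem_ne_top hG hb1)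
    (le_centralizer_of_central hG A hA hqA (hBZ (hB₁B hbB))) ?_ (by rwa [inf_comm] at hbQ)
  refine ne_bot_of_le_ne_bot hb'R (le_inf ?_ (inf_le_left.trans inf_le_left))
  intro x hx
  have hBx : B₁ ≤ centralizer ({x} : Set G) :=
    (closure_le _).2 (Set.insert_subset
      (mem_centralizer_singleton_iff.2 (mem_centralizer_singleton_iff.1 hx.1.2).symm)
      (Set.singleton_subset_iff.2
        (mem_centralizer_singleton_iff.2 (mem_centralizer_singleton_iff.1 hx.2).symm)))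
  exact mem_centralizer_singleton_iff.2 (mem_centralizer_singleton_iff.1 (hBx hbB)).symm

theorem all_conj_rank_two (hZ : ¬ RankLE 1 ↥(A ⊓ centralizer (A : Set G)))
    (hqC : q ∣ Nat.card (centralizer (A : Set G))) {Q₁ Q₂ : Subgroup G}
    (h₁ : Q₁ ∈ maxInvSubgroups ⊤ A {q}) (h₂ : Q₂ ∈ maxInvSubgroups ⊤ A {q}) :
    ∃ k ∈ piCoreOf (primesNotDvd (Nat.card A)) (centralizer (A : Set G)), Q₂ = cj k Q₁ := by
  obtain ⟨p, B, hp, hBc, hBe, hBk, hBZ⟩ := exists_central_elementary hG A hA hqA hZ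
  haveI := hBc
  rw [pow_one] at hBk
  have hnc := not_cyclic_of_exponent hG A hA hqA hBe hp.pos hBk
  obtain ⟨P⟩ : Nonempty (Sylow q (centralizer (A : Set G))) := inferInstance
  set R := (P : Subgroup _).map (centralizer (A : Set G)).subtype
  have hR : Inv q A R := ⟨P.2.map _,
    le_trans (le_centralizer_iff.1 (map_subtype_le _)) (centralizer_le_normalizer _)⟩
  have hR1 : R ≠ ⊥ := fun e => P.ne_bot_of_dvd_card hqC
    ((map_eq_bot_iff_of_injective _ (subtype_injective _)).1 e)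
  obtain ⟨Q₃, h₃, hRQ⟩ := exists_max hR
  have key : ∀ Q ∈ maxInvSubgroups ⊤ A {q},
      ∃ k ∈ piCoreOf (primesNotDvd (Nat.card A)) (centralizer (A : Set G)), Q₃ = cj k Q := by
    intro Q hQ
    have hQ1 : Q ≠ ⊥ := fun e => hR1 (le_bot_iff.1 ((hRQ.trans
      ((hQ.2 Q₃ h₃.1 (e ▸ bot_le)).trans e).le)))
    obtain ⟨b, hbB, hb1, hbQ⟩ := exists_fixed hG A hA hqA hBZ hnc (mem_inv_iff.1 hQ.1) hQ1
    refine conj_of_meet hG A hA hqA hQ h₃ (centralizer_elem_ne_top hG hb1)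
      (le_centralizer_of_central hG A hA hqA (hBZ hbB)) (by rwa [inf_comm] at hbQ) ?_
    exact ne_bot_of_le_ne_bot hR1 (le_inf ((map_subtype_le _).trans
      (centralizer_le (Set.singleton_subset_iff.2 (hBZ hbB).1))) hRQ)
  obtain ⟨k₁, hk₁, e₁⟩ := key Q₁ h₁
  obtain ⟨k₂, hk₂, e₂⟩ := key Q₂ h₂
  refine ⟨k₂⁻¹ * k₁, mul_mem (inv_mem hk₂) hk₁, ?_⟩
  rw [← cj_cj, ← e₁, e₂, cj_inv_cj]

/-! ### Passage to a larger subgroup -/

theorem core_inf_centralizer {P : Subgroup G} (hAP : A ≤ P) :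
    piCoreOf (primesNotDvd (Nat.card A)) (centralizer (A : Set G)) ⊓ centralizer (P : Set G) =
      piCoreOf (primesNotDvd (Nat.card A)) (centralizer (P : Set G)) := by
  refine le_antisymm ?_ (le_inf (le_K hG A hA ((piCoreOf_le _ _).trans (centralizer_le hAP))
    (piCoreOf_primes _ _)) (piCoreOf_le _ _))
  refine le_piCoreOf inf_le_right ?_ fun r hr hd =>
    piCoreOf_primes _ _ r hr (hd.trans (card_dvd_of_le inf_le_left))
  exact (le_inf (((centralizer_le hAP : centralizer (P : Set G) ≤ centralizer (A : Set G)).trans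
    le_normalizer).trans (normalizer_le_piCoreOf _ _)) le_normalizer).trans
    inf_normalizer_le_normalizer_inf

/-- The maximal invariant subgroups are conjugate under the core of the centralizer. -/
def Trans (q : ℕ) (A B : Subgroup G) : Prop :=
  maxInvSubgroups ⊤ B {q} ⊆ maxInvSubgroups ⊤ A {q} ∧
    ∀ Q₁ ∈ maxInvSubgroups ⊤ B {q}, ∀ Q₂ ∈ maxInvSubgroups ⊤ B {q},
      ∃ k ∈ piCoreOf (primesNotDvd (Nat.card A)) (centralizer (B : Set G)), Q₂ = cj k Q₁

theorem trans_step {M B : Subgroup G} (hAM : A ≤ M) (hMB : M ≤ B) (hBM : B ≤ normalizer (M : Set G))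
    (hB : B ≠ ⊤) (hBπ : ∀ r : ℕ, r.Prime → r ∣ Nat.card B → r ∣ Nat.card A)
    (hM : Trans q A M) : Trans q A B := by
  set π := primesNotDvd (Nat.card A)
  set KM := piCoreOf π (centralizer (M : Set G))
  set L := KM ⊔ B
  have hLN : L ≤ normalizer (M : Set G) :=
    sup_le ((piCoreOf_le _ _).trans (centralizer_le_normalizer _)) hBM
  have hLK : L ≤ normalizer (KM : Set G) :=
    sup_le le_normalizer ((hBM.trans (Solv.normalizer_le_normalizer_centralizer M)).trans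
      (normalizer_le_piCoreOf _ _))
  have hM1 : M ≠ ⊥ := ne_bot_of_le_ne_bot hA.1 hAM
  have hsK : Group.IsSolvable KM := Solv.solvable_of_le ((piCoreOf_le _ _).trans
    (centralizer_le_normalizer _)) (solvable_proper hG (normalizer_ne_top hG hM1
      (ne_top_of_le_ne_top hB hMB)))
  have hcop := coprime_core hG A hA (X := centralizer (M : Set G)) hBπ
  -- the action
  let Ω := {Q : Subgroup G // Q ∈ maxInvSubgroups ⊤ M {q}}
  letI : MulAction L Ω :=
    { smul := fun l Q => ⟨cj (l : G) Q.1, max_cj Q.2 (hLN l.2)⟩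
      one_smul := fun Q => Subtype.ext (cj_one _)
      mul_smul := fun l m Q => Subtype.ext (cj_cj _ _ _).symm }
  haveI : Nonempty Ω := by
    obtain ⟨Q, hQ, -⟩ := exists_max (q := q) (A := M) (Y := ⊥)
      ⟨IsPGroup.of_bot, by rw [normalizer_eq_top_iff.2 inferInstance]; exact le_top⟩
    exact ⟨⟨Q, hQ⟩⟩
  haveI : (KM.subgroupOf L).Normal := (normal_subgroupOf_iff_le_normalizer le_sup_left).2 hLK
  have hc : IsComplement' (KM.subgroupOf L) (B.subgroupOf L) := by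
    refine isComplement'_of_disjoint_and_mul_eq_univ ?_ (Set.eq_univ_of_forall fun l => ?_)
    · rw [disjoint_iff, Subgroup.eq_bot_iff_forall]
      intro x hx
      have h2 : (x : G) ∈ B ⊓ KM := ⟨hx.2, hx.1⟩
      rw [Subgroup.inf_eq_bot_of_coprime hcop, mem_bot] at h2
      exact Subtype.ext h2
    · have hl := l.2
      rw [← SetLike.mem_coe, coe_mul_of_right_le_normalizer_left _ _ (le_sup_right.trans hLK)] at hl
      obtain ⟨a, ha, b, hb, hab⟩ := hl
      exact ⟨⟨a, mem_sup_left ha⟩, ha, ⟨b, mem_sup_right hb⟩, hb, Subtype.ext hab⟩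
  have hcK : Nat.card (KM.subgroupOf L) = Nat.card KM :=
    Nat.card_congr (subgroupOfEquivOfLe le_sup_left).toEquiv
  have hcop' : (Nat.card (KM.subgroupOf L)).Coprime (KM.subgroupOf L).index := by
    rw [hcK, hc.symm.index_eq_card, Nat.card_congr (subgroupOfEquivOfLe le_sup_right).toEquiv]
    exact hcop.symm
  have htrans : MulAction.IsPretransitive (KM.subgroupOf L) Ω := ⟨fun x y => by
    obtain ⟨k, hk, e⟩ := hM.2 x.1 x.2 y.1 y.2
    exact ⟨⟨⟨k, mem_sup_left hk⟩, hk⟩, Subtype.ext e.symm⟩⟩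
  obtain ⟨⟨x₀, hx₀⟩, huniq⟩ := Solv.coprime_action_fixed_point (X := Ω) (KM.subgroupOf L)
    (B.subgroupOf L) hc hcop'
    (Or.inl (Solv.solvable_of_equiv hsK (subgroupOfEquivOfLe le_sup_left).symm)) htrans
  have hfix : B ≤ normalizer (x₀.1 : Set G) := fun b hb =>
    cj_eq_self_iff.1 (congrArg Subtype.val (hx₀ ⟨b, mem_sup_right hb⟩ hb))
  have hsub : maxInvSubgroups ⊤ B {q} ⊆ maxInvSubgroups ⊤ A {q} := by
    intro Q hQ
    have hQi := mem_inv_iff.1 hQ.1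
    by_cases hQ1 : Q = ⊥
    · have h2 := hQ.2 x₀.1 (mem_inv_iff.2 ⟨(mem_inv_iff.1 x₀.2.1).1, hfix⟩) (hQ1 ▸ bot_le)
      exact h2 ▸ hM.1 x₀.2
    obtain ⟨R, hR, hQR⟩ := exists_max (q := q) (A := A) ⟨hQi.1, (hAM.trans hMB).trans hQi.2⟩
    by_contra hcon
    have hne : ¬ R ≤ Q := fun h => hcon (le_antisymm h hQR ▸ hR)
    have hRi := mem_inv_iff.1 hR.1
    obtain ⟨y, hy, hyn, hyQ⟩ := exists_normalizing hRi.1 hQR hne
    set H := normalizer (Q : Set G)
    have hH : H ≠ ⊤ := normalizer_ne_top hG hQ1 (pgroup_ne_top hG hQi.1)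
    have hAH : A ≤ H := (hAM.trans hMB).trans hQi.2
    set Y := R ⊓ H
    have hY : Inv q A Y := ⟨hRi.1.to_le inf_le_left,
      (le_inf hRi.2 (hAH.trans le_normalizer)).trans inf_normalizer_le_normalizer_inf⟩
    set X := piCoreOf π H
    have hYX : Y ≤ X := inv_le_core hG A hA hH hAH inf_le_right hY.2 (q_primes hG A hA hqA hY.1)
    have hQX : Q ≤ X := inv_le_core hG A hA hH hAH le_normalizer hAH (q_primes hG A hA hqA hQi.1)
    obtain ⟨P, hQP, hP⟩ := Solv.invariant_pgroup_le_sylow B X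
      ((hQi.2.trans le_normalizer).trans (normalizer_le_piCoreOf _ _))
      (coprime_core hG A hA hBπ) (Or.inr (Solv.solvable_of_le (piCoreOf_le _ _) (solvable_proper hG hH)))
      q Q hQX hQi.1 hQi.2
    have hPQ := hQ.2 _ (mem_inv_iff.2 ⟨P.2.map _, hP⟩) hQP
    have hPY : (P : Subgroup X) ≤ Y.subgroupOf X := by
      intro z hz
      have h3 : (z : G) ∈ Q := hPQ.le (mem_map_of_mem _ hz)
      exact ⟨hQR h3, le_normalizer h3⟩
    have h4 := P.3 (show IsPGroup q (Y.subgroupOf X) from hY.1.comap_subtype) hPY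
    have h5 : y ∈ Q := hPQ.le
      ⟨⟨y, hYX ⟨hy, hyn⟩⟩, h4.le (mem_subgroupOf.2 ⟨hy, hyn⟩), rfl⟩
    exact hyQ h5
  refine ⟨hsub, fun Q₁ h₁ Q₂ h₂ => ?_⟩
  have toΩ : ∀ Q ∈ maxInvSubgroups ⊤ B {q}, Q ∈ maxInvSubgroups ⊤ M {q} := fun Q hQ =>
    ⟨mem_inv_iff.2 ⟨(mem_inv_iff.1 hQ.1).1, hMB.trans (mem_inv_iff.1 hQ.1).2⟩, fun R hR h =>
      (hsub hQ).2 R (mem_inv_iff.2 ⟨(mem_inv_iff.1 hR).1, hAM.trans (mem_inv_iff.1 hR).2⟩) h⟩
  obtain ⟨k, ⟨hkK, hkC⟩, hk⟩ := huniq ⟨Q₁, toΩ Q₁ h₁⟩ ⟨Q₂, toΩ Q₂ h₂⟩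
    (fun b hb => Subtype.ext (cj_eq_self_iff.2 ((mem_inv_iff.1 h₁.1).2 hb)))
    (fun b hb => Subtype.ext (cj_eq_self_iff.2 ((mem_inv_iff.1 h₂.1).2 hb)))
  refine ⟨(k : G), ?_, (congrArg Subtype.val hk).symm⟩
  rw [← core_inf_centralizer hG A hA hqA (hAM.trans hMB)]
  refine ⟨?_, mem_centralizer_iff.2 fun b hb => congrArg Subtype.val
    (mem_centralizer_iff.1 hkC ⟨b, mem_sup_right hb⟩ hb)⟩
  exact (core_inf_centralizer hG A hA hqA hAM).ge hkK |>.1

theorem trans_of_subnormal {P : Subgroup G} (hP : P ≠ ⊤)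
    (hPπ : ∀ r : ℕ, r.Prime → r ∣ Nat.card P → r ∣ Nat.card A) (hAP : A ≤ P)
    (hsn : (A.subgroupOf P).IsSubnormal)
    (htr : ∀ Q₁ ∈ maxInvSubgroups ⊤ A {q}, ∀ Q₂ ∈ maxInvSubgroups ⊤ A {q},
      ∃ k ∈ piCoreOf (primesNotDvd (Nat.card A)) (centralizer (A : Set G)),
        Q₂ = Q₁.map (MulAut.conj k).toMonoidHom) : Trans q A P := by
  have h0 : Trans q A A := ⟨subset_rfl, htr⟩
  suffices h : ∀ H : Subgroup P, H.IsSubnormal → A ≤ H.map P.subtype →
      Trans q A (H.map P.subtype) → Trans q A P by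
    refine h _ hsn ?_ ?_ <;> rw [map_subgroupOf_eq_of_le hAP]
    exact h0
  intro H hH
  induction hH with
  | top =>
    intro _ h
    rwa [← MonoidHom.range_eq_map, range_subtype] at h
  | step H K hle _ hN ih =>
    intro hAH hT
    refine ih (hAH.trans (map_mono hle)) ?_
    refine trans_step hG A hA hqA hAH (map_mono hle) ?_ (ne_top_of_le_ne_top hP (map_subtype_le _))
      (fun r hr hd => hPπ r hr (hd.trans (card_dvd_of_le (map_subtype_le _)))) hT
    refine le_trans ?_ (le_normalizer_map P.subtype)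
    exact map_mono ((normal_subgroupOf_iff_le_normalizer hle).1 hN)

theorem normalizer_props {P : Subgroup G}
    (hPπ : ∀ r : ℕ, r.Prime → r ∣ Nat.card P → r ∣ Nat.card A) (hT : Trans q A P)
    {Q : Subgroup G} (hQ : Q ∈ maxInvSubgroups ⊤ P {q}) :
    P ⊓ ⁅normalizer (P : Set G), normalizer (P : Set G)⁆ ≤
        ⁅normalizer (Q : Set G), normalizer (Q : Set G)⁆ ∧
      normalizer (P : Set G) = piCoreOf (primesNotDvd (Nat.card A)) (centralizer (P : Set G)) ⊔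
        (normalizer (P : Set G) ⊓ normalizer (Q : Set G)) := by
  set KP := piCoreOf (primesNotDvd (Nat.card A)) (centralizer (P : Set G))
  set N := normalizer (P : Set G)
  set L := N ⊓ normalizer (Q : Set G)
  have hKC : KP ≤ centralizer (P : Set G) := piCoreOf_le _ _
  have hKN : KP ≤ N := hKC.trans (centralizer_le_normalizer _)
  have heq : N = KP ⊔ L := by
    refine le_antisymm (fun n hn => ?_) (sup_le hKN inf_le_left)
    obtain ⟨k, hk, e⟩ := hT.2 Q hQ (cj n Q) (max_cj hQ hn)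
    have h1 : k⁻¹ * n ∈ L := ⟨N.mul_mem (N.inv_mem (hKN hk)) hn, cj_eq_self_iff.1 (by
      rw [← cj_cj, e, cj_inv_cj])⟩
    have h2 := mul_mem (mem_sup_left (T := L) hk) (mem_sup_right (S := KP) h1)
    rwa [mul_inv_cancel_left] at h2
  refine ⟨fun x hx => ?_, heq⟩
  have hNK : N ≤ normalizer (KP : Set G) :=
    (Solv.normalizer_le_normalizer_centralizer P).trans (normalizer_le_piCoreOf _ _)
  set K' := KP.subgroupOf N
  set L' := L.subgroupOf N
  haveI : K'.Normal := (normal_subgroupOf_iff_le_normalizer hKN).2 hNK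
  have htop : K' ⊔ L' = ⊤ := by
    rw [← subgroupOf_sup hKN inf_le_left, subgroupOf_eq_top]
    exact heq.le
  have hcomm : ⁅(⊤ : Subgroup N), ⊤⁆ ≤ K' ⊔ ⁅L', L'⁆ := by
    set f := QuotientGroup.mk' K'
    have h1 : (⊤ : Subgroup N).map f = L'.map f := by
      rw [← htop, Subgroup.map_sup, (map_eq_bot_iff K').2 (by rw [QuotientGroup.ker_mk']), bot_sup_eq]
    calc ⁅(⊤ : Subgroup N), ⊤⁆ ≤ (⁅L', L'⁆.map f).comap f := by
          rw [map_commutator, ← h1, ← map_commutator]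
          exact le_comap_map _ _
      _ = K' ⊔ ⁅L', L'⁆ := by rw [comap_map_eq, QuotientGroup.ker_mk', sup_comm]
  have hx2 : x ∈ Subgroup.map N.subtype ⁅(⊤ : Subgroup N), (⊤ : Subgroup N)⁆ := by
    rw [map_commutator, ← MonoidHom.range_eq_map, range_subtype]
    exact hx.2
  obtain ⟨x', hx', rfl⟩ := hx2
  obtain ⟨k, hk, y, hy, rfl⟩ := mem_sup_of_normal_left.1 (hcomm hx')
  have hyQ : (y : G) ∈ ⁅normalizer (Q : Set G), normalizer (Q : Set G)⁆ := by
    have h1 : (y : G) ∈ ⁅L', L'⁆.map N.subtype := mem_map_of_mem _ hy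
    rw [map_commutator] at h1
    refine commutator_mono ?_ ?_ h1 <;> exact fun z ⟨w, hw, e⟩ => e ▸ hw.2
  have hkK : (k : G) ∈ KP := hk
  set z : G := (k : G) * (y : G)
  have hzP : z ∈ P := hx.1
  have hc : Commute ((k : G)⁻¹) z :=
    (Commute.inv_left (mem_centralizer_iff.1 (hKC hkK) z hzP).symm)
  obtain ⟨e, he0, he1⟩ := Nat.chineseRemainder (coprime_core hG A hA (X := centralizer (P : Set G)) hPπ).symm 0 1
  have hze : (y : G) ^ e = z := by
    rw [show (y : G) = (k : G)⁻¹ * z by simp [z], hc.mul_pow]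
    have h1 : ((k : G)⁻¹) ^ e = 1 := orderOf_dvd_iff_pow_eq_one.1
      ((Subgroup.orderOf_dvd_natCard _ (KP.inv_mem hkK)).trans (Nat.modEq_zero_iff_dvd.1 he0))
    have h2 : z ^ e = z ^ 1 := pow_eq_pow_iff_modEq.2
      (he1.of_dvd (Subgroup.orderOf_dvd_natCard _ hzP))
    rw [h1, h2, one_mul, pow_one]
  show z ∈ _
  rw [← hze]
  exact pow_mem hyQ e

end Cfsg.Lib.PLocal.Transitivity
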